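import Cfsg.Agent.H66.FrobTools
import Cfsg.Agent.H66.SL2Order

/-! The Frobenius conjecture for the groups `PSL(2, q)`. -/

set_option autoImplicit false
set_option linter.style.haveILetI false

namespace Cfsg.Agent.H66.Fr

open Subgroup Matrix
open scoped MatrixGroups

theorem l2_arith1 {q d δ A B a b : ℕ} (hq : 4 ≤ q) (l1 : δ ≤ d) (l2 : a + 1 ≤ A) (l3 : b + 1 ≤ B)
    (s3 : q * d * B * a + q * d * A * b < 2 * (1 * δ * (a + 1) * (b + 1))) : a = 0 ∧ b = 0 := by
  have l4 : 4 * δ * (b + 1) * a ≤ q * d * B * a := by gcongr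
  have l5 : 4 * δ * (a + 1) * b ≤ q * d * A * b := by gcongr
  have s4 : δ * (2 * ((b + 1) * a + (a + 1) * b)) < δ * ((a + 1) * (b + 1)) := by linarith
  have s5 := Nat.lt_of_mul_lt_mul_left s4
  ring_nf at s5
  omega

theorem l2_arith2 {ν μ δ ε a α b β : ℕ} (hpos : 0 < ν * δ * (a + 1) * (b + 1)) (q1 : 0 < μ)
    (q2 : 0 < ε) (q3 : 0 < α) (q4 : 0 < β)
    (e : 2 * (ν * μ) = (b + 1) * β * (δ * ε) + (a + 1) * α * (δ * ε))
    (s3 : 2 * (ν * μ * (ν * μ)) + ν * μ * (δ * ε) * ((b + 1) * β) * a +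
      ν * μ * (δ * ε) * ((a + 1) * α) * b ≤ 2 * (ν * δ * (a + 1) * (b + 1))) :
    μ = 1 ∧ ε = 1 ∧ α = 1 ∧ β = 1 := by
  have e1 : 2 * (ν * μ * (ν * μ)) = ν * μ * ((b + 1) * β * (δ * ε) + (a + 1) * α * (δ * ε)) := by
    rw [← e]; ring
  have s4 : (ν * δ * (a + 1) * (b + 1)) * (μ * ε * (α + β)) ≤ (ν * δ * (a + 1) * (b + 1)) * 2 := by
    linarith
  have s5 := Nat.le_of_mul_le_mul_left s4 hpos
  obtain ⟨μ, rfl⟩ : ∃ k, μ = k + 1 := ⟨μ - 1, by omega⟩
  obtain ⟨ε, rfl⟩ : ∃ k, ε = k + 1 := ⟨ε - 1, by omega⟩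
  obtain ⟨α, rfl⟩ : ∃ k, α = k + 1 := ⟨α - 1, by omega⟩
  obtain ⟨β, rfl⟩ : ∃ k, β = k + 1 := ⟨β - 1, by omega⟩
  ring_nf at s5
  omega

variable {F : Type*} [Field F] [Fintype F]

theorem card_map_toPSL (H : Subgroup SL(2, F)) (h : center SL(2, F) ≤ H) :
    Nat.card (H.map (toPSL F)) * Nat.gcd 2 (Fintype.card F - 1) = Nat.card H := by
  have h1 := H1.card_comap_mk' (center SL(2, F)) (H.map (toPSL F))
  rw [H9.card_center_sl, Fintype.card_fin] at h1
  have h2 : (H.map (toPSL F)).comap (QuotientGroup.mk' (center SL(2, F))) = H :=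
    comap_map_eq_self (f := QuotientGroup.mk' (center SL(2, F))) (H := H)
      (by rw [QuotientGroup.ker_mk']; exact h)
  rw [← h1, h2]

theorem tor_bound {g : SL(2, F)} (hg : tr2 g ^ 2 ≠ 4) : ∃ A : ℕ,
    A * Nat.gcd 2 (Fintype.card F - 1) = Nat.card (centralizer ({g} : Set SL(2, F))) ∧
    ∀ k, k ∣ A → Nat.card (ProjectiveSpecialLinearGroup (Fin 2) F) * (k - 1) ≤
      (ell (ProjectiveSpecialLinearGroup (Fin 2) F) k - 1) * (2 * A) := by
  have h1 := card_map_toPSL (centralizer ({g} : Set SL(2, F))) (center_le_centralizer _)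
  have h2 := card_map_toPSL (normalizer (centralizer ({g} : Set SL(2, F)) : Set SL(2, F)))
    ((center_le_centralizer _).trans le_normalizer)
  rw [card_normalizer_centralizer hg, ← h1, ← mul_assoc] at h2
  have h3 := Nat.eq_of_mul_eq_mul_right (Nat.gcd_pos_of_pos_left _ two_pos) h2
  refine ⟨_, h1, fun k hk => ?_⟩
  rw [← h3]
  refine ti_bound _ _ ?_ hk
  rintro _ ⟨t, ht, rfl⟩ ht1 x ⟨s, hs, hx⟩
  obtain ⟨h, rfl⟩ := toPSL_surjective x
  refine ⟨h, ?_, rfl⟩
  rw [← map_mul, ← map_inv, ← map_mul, toPSL_eq_iff] at hx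
  have hm : h * t * h⁻¹ ∈ centralizer ({g} : Set SL(2, F)) := by
    rcases hx with hx | hx
    · exact hx ▸ hs
    · rw [← neg_eq_iff_eq_neg] at hx
      rw [← hx, ← neg_one_mul]
      exact mul_mem (center_le_centralizer _ ((sl2_mem_center_iff _).2 (Or.inr rfl))) hs
  have hn : NonSc t.1 := by
    by_contra hn
    exact ht1 ((toPSL_eq_one_iff t).2 ((not_nonSc_iff t).1 hn))
  have hn' : NonSc (h * t * h⁻¹).1 := by
    by_contra hn'
    have := (toPSL_eq_one_iff _).2 ((not_nonSc_iff _).1 hn')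
    rw [map_mul, map_mul, map_inv, conj_eq_one_iff] at this
    exact ht1 this
  have e1 := centralizer_eq_of_mem (nonSc_of_tr2 hg) hn ht
  have e2 := centralizer_eq_of_mem (nonSc_of_tr2 hg) hn' hm
  rw [centralizer_singleton_conj, e1] at e2
  rw [SetLike.mem_coe, mem_normalizer_iff]
  intro y
  conv_rhs => rw [← e2]
  constructor
  · intro hy; exact ⟨y, hy, rfl⟩
  · rintro ⟨z, hz, e⟩
    have : z = y := by simpa using e
    exact this ▸ hz

theorem sq_le_ell (p : ℕ) [CharP F p] :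
    Fintype.card F * Fintype.card F ≤ ell (ProjectiveSpecialLinearGroup (Fin 2) F) p := by
  classical
  let f : F × F → SL(2, F) := fun z =>
    if h : z.2 = 0 then ⟨!![1, 0; z.1, 1], by simp [Matrix.det_fin_two]⟩
    else ⟨!![1 + z.1, z.2; -(z.1 ^ 2 / z.2), 1 - z.1], by
      rw [Matrix.det_fin_two_of]; field_simp; ring⟩
  have ht : ∀ z, tr2 (f z) = 2 := by
    intro z
    by_cases h : z.2 = 0
    · have : f z = ⟨!![1, 0; z.1, 1], by simp [Matrix.det_fin_two]⟩ := dif_pos h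
      rw [this]; simp [tr2]; ring
    · have : f z = ⟨!![1 + z.1, z.2; -(z.1 ^ 2 / z.2), 1 - z.1], by
        rw [Matrix.det_fin_two_of]; field_simp; ring⟩ := dif_neg h
      rw [this]; simp [tr2]; ring
  have hf : Function.Injective f := by
    rintro ⟨x, b⟩ ⟨y, c⟩ e
    have e1 := congrArg (fun g : SL(2, F) => g.1 0 1) e
    have e2 := congrArg (fun g : SL(2, F) => g.1 0 0) e
    have e3 := congrArg (fun g : SL(2, F) => g.1 1 0) e
    by_cases h : b = 0 <;> by_cases h' : c = 0 <;> simp [f, h, h'] at e1 e2 e3 ⊢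
    · exact e3
    · exact absurd e1.symm h'
    · exact ⟨e2, e1⟩
  rw [← Fintype.card_prod, ← Nat.card_eq_fintype_card]
  refine Nat.card_le_card_of_injective (fun z => ⟨toPSL F (f z), by
    rw [← map_pow, pow_char_of_tr2_eq_two p (ht z), map_one]⟩) fun z w e => hf ?_
  rcases (toPSL_eq_iff _ _).1 (congrArg Subtype.val e) with h | h
  · exact h
  · have h1 := ht z
    rw [h, tr2_neg, ht] at h1
    have h2 : (2 : F) = 0 := by
      have : (2 : F) * 2 = 0 := by linear_combination -h1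
      exact mul_self_eq_zero.1 this
    rw [h, ← neg_one_mul, neg_one_eq_one_of_two h2, one_mul]

theorem frS_l2 {G : Type*} [Group G] [Finite G] [IsSimpleGroup G] (hq : 4 ≤ Fintype.card F)
    (e : G ≃* ProjectiveSpecialLinearGroup (Fin 2) F) : FrS G := by
  haveI : IsSimpleGroup (ProjectiveSpecialLinearGroup (Fin 2) F) := e.symm.isSimpleGroup
  refine FrS.equiv e ?_
  obtain ⟨p, hp⟩ := CharP.exists F
  obtain ⟨f, hpp, hf⟩ := FiniteField.card F p
  obtain ⟨x, -, hx, -⟩ := H9.exists_sl_two_orderOf_sub_one (F := F)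
  obtain ⟨y, -, hy⟩ := exists_nonsplit (F := F)
  rw [Nat.card_eq_fintype_card] at hx
  have hx2 : ¬ x ^ 2 = 1 := fun h => by
    have := Nat.le_of_dvd two_pos (orderOf_dvd_of_pow_eq_one h)
    omega
  have hxt : tr2 x ^ 2 ≠ 4 := tr2_sq_ne_of_pow (n := Nat.card F - 1)
    (by rw [natCast_card_sub_one]; exact neg_ne_zero.2 one_ne_zero)
    (by rw [Nat.card_eq_fintype_card, ← hx, pow_orderOf_eq_one])
    (fun h => hx2 (by rw [h, one_pow])) (fun h => hx2 (by rw [h]; simp))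
  have hxs : Split (tr2 x) := split_of_orderOf (by
    rw [hx, Nat.card_eq_fintype_card]
    intro h
    have h2 : Fintype.card F - 1 ∣ 2 := by
      have := (Nat.dvd_sub h (dvd_refl _))
      rwa [show Fintype.card F + 1 - (Fintype.card F - 1) = 2 by omega] at this
    have := Nat.le_of_dvd two_pos h2
    omega)
  obtain ⟨A, hA, tA⟩ := tor_bound hxt
  obtain ⟨B, hB, tB⟩ := tor_bound (tr2_sq_ne_of_not_split hy)
  rw [(centralizer_split hxt hxs).2, Nat.card_eq_fintype_card] at hA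
  rw [(centralizer_nonsplit hy).2, Nat.card_eq_fintype_card] at hB
  have hG := H9.gcd_mul_card_psl_two (F := F)
  have hu := sq_le_ell (F := F) p
  have hd : Nat.gcd 2 (Fintype.card F - 1) ∣ 2 := Nat.gcd_dvd_left _ _
  have hAB : A.Coprime B := by
    rcases (Nat.dvd_prime Nat.prime_two).1 hd with h | h
    · have h1 : (Fintype.card F - 1).Coprime 2 := Nat.Coprime.symm h
      rw [h] at hA hB
      rw [show B = 2 + A by omega, Nat.coprime_add_self_right, show A = Fintype.card F - 1 by omega]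
      exact h1
    · rw [h] at hA hB
      rw [show B = 1 + A by omega, Nat.coprime_add_self_right]
      exact Nat.coprime_one_right _
  have hpq : p ∣ Fintype.card F := hf ▸ dvd_pow_self p f.ne_zero
  have hpA : p.Coprime A := by
    refine Nat.Coprime.coprime_dvd_right (Dvd.intro _ hA) (Nat.Coprime.coprime_dvd_left hpq ?_)
    have : Fintype.card F = (Fintype.card F - 1) + 1 := by omega
    conv_lhs => rw [this]
    simp
  have hpB : p.Coprime B :=
    Nat.Coprime.coprime_dvd_right (Dvd.intro _ hB) (Nat.Coprime.coprime_dvd_left hpq (by simp))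
  generalize Nat.gcd 2 (Fintype.card F - 1) = d at hA hB hG hd
  generalize Fintype.card F = q at *
  have hd0 : 0 < d := Nat.pos_of_dvd_of_pos hd two_pos
  have hG' : Nat.card (ProjectiveSpecialLinearGroup (Fin 2) F) = q * d * A * B := by
    apply Nat.eq_of_mul_eq_mul_left hd0
    rw [hG, show q ^ 2 - 1 = (q + 1) * (q - 1) by rw [← Nat.sq_sub_sq, one_pow], ← hA, ← hB]; ring
  intro n hn he
  have hn' := hn
  rw [hG'] at hn'
  obtain ⟨n1, b, hn1, hb, rfl⟩ := Nat.dvd_mul.1 hn'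
  obtain ⟨n2, a, hn2, ha, rfl⟩ := Nat.dvd_mul.1 hn1
  obtain ⟨ν, δ, hν, hδ, rfl⟩ := Nat.dvd_mul.1 hn2
  have t1 := tA a ha
  have t2 := tB b hb
  have hab := (hAB.coprime_dvd_left ha).coprime_dvd_right hb
  have hA0 : 0 < A := Nat.pos_of_mul_pos_right (by omega : 0 < A * d)
  have hB0 : 0 < B := Nat.pos_of_mul_pos_right (by omega : 0 < B * d)
  rw [hG'] at t1 t2
  have s1 : q * d * B * (a - 1) ≤ (ell (ProjectiveSpecialLinearGroup (Fin 2) F) a - 1) * 2 :=
    Nat.le_of_mul_le_mul_right (c := A) (by linarith) hA0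
  have s2 : q * d * A * (b - 1) ≤ (ell (ProjectiveSpecialLinearGroup (Fin 2) F) b - 1) * 2 :=
    Nat.le_of_mul_le_mul_right (c := B) (by linarith) hB0
  have p1 := ell_pos (G := ProjectiveSpecialLinearGroup (Fin 2) F) a
  have p2 := ell_pos (G := ProjectiveSpecialLinearGroup (Fin 2) F) b
  have da : a ∣ ν * δ * a * b := (Dvd.intro_left _ rfl).mul_right _
  have db : b ∣ ν * δ * a * b := Dvd.intro_left _ rfl
  have ha0 : 0 < a := Nat.pos_of_dvd_of_pos ha hA0
  have hb0 : 0 < b := Nat.pos_of_dvd_of_pos hb hB0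
  have hν' := hν
  rw [hf] at hν'
  obtain ⟨k, -, hk⟩ := (Nat.dvd_prime_pow hpp).1 hν'
  obtain ⟨a, rfl⟩ : ∃ k, a = k + 1 := ⟨a - 1, by omega⟩
  obtain ⟨b, rfl⟩ : ∃ k, b = k + 1 := ⟨b - 1, by omega⟩
  rw [Nat.add_sub_cancel] at s1 s2
  rcases Nat.eq_zero_or_pos k with rfl | hk0
  · rw [pow_zero] at hk
    subst hk
    have t4 := ell_add (G := ProjectiveSpecialLinearGroup (Fin 2) F) hab da db
    rw [he] at t4
    have s3 : q * d * B * a + q * d * A * b < 2 * (1 * δ * (a + 1) * (b + 1)) := by omega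
    obtain ⟨rfl, rfl⟩ := l2_arith1 hq (Nat.le_of_dvd hd0 hδ) (Nat.le_of_dvd hA0 ha)
      (Nat.le_of_dvd hB0 hb) s3
    simp only [zero_add, mul_one, one_mul] at hn he ⊢
    rcases (Nat.dvd_prime Nat.prime_two).1 (hδ.trans hd) with h | h
    · exact Or.inl h
    · subst h
      exact prime_pow_case (k := 1) Nat.prime_two hn he
  · right
    have t4 := ell_add3 (G := ProjectiveSpecialLinearGroup (Fin 2) F) (hpA.coprime_dvd_right ha)
      (hpB.coprime_dvd_right hb) hab (((((hk ▸ dvd_pow_self p hk0.ne' : p ∣ ν)).mul_right _).mul_right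
        _).mul_right _) da db
    rw [he] at t4
    have s3 : 2 * (q * q) + q * d * B * a + q * d * A * b ≤ 2 * (ν * δ * (a + 1) * (b + 1)) := by
      omega
    have e1 : 2 * q = B * d + A * d := by omega
    obtain ⟨μ, rfl⟩ := hν
    obtain ⟨ε, rfl⟩ := hδ
    obtain ⟨α, rfl⟩ := ha
    obtain ⟨β, rfl⟩ := hb
    obtain ⟨rfl, rfl, rfl, rfl⟩ := l2_arith2 (Nat.pos_of_dvd_of_pos hn Nat.card_pos)
      (Nat.pos_of_mul_pos_left (by omega : 0 < ν * μ)) (Nat.pos_of_mul_pos_left hd0)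
      (Nat.pos_of_mul_pos_left hA0) (Nat.pos_of_mul_pos_left hB0) e1 s3
    rw [hG']; ring

end Cfsg.Agent.H66.Fr
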