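import Cfsg.Agent.H66.FrobTools
import Cfsg.Agent.H56.ClsTools
import Cfsg.Agent.H56.Mod.L33
import Cfsg.Agent.H56.Mod.U33
import Cfsg.Agent.H56.Mod.Alt
import Cfsg.Agent.H14.MClasses

/-! The Frobenius conjecture for four small simple groups. -/

set_option autoImplicit false
set_option linter.style.haveILetI false

namespace Cfsg.Agent.H66.Fr

open H14

/-- the check on a list of pairs (element order, centralizer order) -/
def okL (N : ℕ) (L : List (ℕ × ℕ)) : Bool :=
  L.all (fun z => 1 ≤ z.1) && (List.range (N + 1)).all fun n =>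
    N % n != 0 || n == 1 || n == N ||
      ((L.filter fun z => n % z.1 == 0).map fun z => N / z.2).sum != n

theorem frS_of_cl {α : Type*} {n k M : ℕ} {E : Enc α n k M} {K : Subgroup (Equiv.Perm α)}
    {cl : List Cls} (h : E.ClassList K cl) {N : ℕ} (hN : Nat.card K = N) (fuel : ℕ)
    (L : List (ℕ × ℕ)) (hL : cl.map (fun c => (ordN k M n c.X fuel, c.c)) = L)
    (ok : okL N L = true) : FrS K := by
  haveI := E.finite
  intro m hm he
  simp only [okL, Bool.and_eq_true, List.all_eq_true, decide_eq_true_eq, List.mem_range,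
    Bool.or_eq_true, bne_iff_ne, beq_iff_eq] at ok
  have h1 := h.ncard_eq (p := fun g => g ^ m = 1) (fun g _ x _ hx => by rw [conj_pow, hx]; simp)
    (fun c => m % ordN k M n c.X fuel == 0) (fun c hc x _ hx => by
      have h2 := ok.1 _ (hL ▸ List.mem_map_of_mem hc)
      rw [← hx] at h2 ⊢
      rw [← E.orderOf_eq_ordN x (by simp only at h2; omega), beq_iff_eq, ← Nat.dvd_iff_mod_eq_zero,
        orderOf_dvd_iff_pow_eq_one])
  have h3 : ell K m = {g | g ∈ K ∧ g ^ m = 1}.ncard := by
    rw [← Nat.card_coe_set_eq]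
    exact Nat.card_congr ⟨fun x => ⟨x.1.1, x.1.2, congrArg Subtype.val x.2⟩,
      fun x => ⟨⟨x.1, x.2.1⟩, Subtype.ext x.2.2⟩, fun _ => rfl, fun _ => rfl⟩
  rw [hN] at hm h1 ⊢
  have h4 := ok.2 m (Nat.lt_succ_of_le (Nat.le_of_dvd (hN ▸ Nat.card_pos) hm))
  rcases h4 with ((h4 | h4) | h4) | h4
  · exact absurd (Nat.mod_eq_zero_of_dvd hm) h4
  · exact Or.inl h4
  · exact Or.inr h4
  · exfalso
    apply h4
    refine Eq.trans ?_ he
    rw [← hL, List.filter_map, List.map_map, h3, h1]
    rfl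

theorem frS_l33 : FrS H56.L33.K :=
  frS_of_cl H56.L33.classes H56.L33.card 20 [(1, 5616), (2, 48), (3, 54), (3, 9), (4, 8), (6, 6),
    (8, 8), (8, 8), (13, 13), (13, 13), (13, 13), (13, 13)] (by decide +kernel) (by decide +kernel)

theorem frS_u33 : FrS H56.U33.K :=
  frS_of_cl H56.U33.classes H56.U33.card 20 _ rfl (by decide +kernel)

theorem frS_a7 : FrS (alternatingGroup (Fin 7)) :=
  frS_of_cl H56.Alt.a7_classes H56.Alt.a7_card 20 _ rfl (by decide +kernel)

theorem frS_m11 : FrS Cfsg.Spor.M11 :=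
  frS_of_cl m11_classes card_M11 20 _ rfl (by decide +kernel)

end Cfsg.Agent.H66.Fr
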