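import Cfsg.Agent.H66.FrobTools
import Cfsg.Agent.H13.SzPart
import Cfsg.Agent.H13.SzInst

/-! The Frobenius conjecture for the Suzuki groups. -/

set_option autoImplicit false
set_option linter.style.haveILetI false

namespace Cfsg.Agent.H66.Fr

open Subgroup

theorem sz_arith {a b c α β γ μ : ℕ} (ha : Odd a) (hb : Odd b) (hc : Odd c) (hα : Odd α)
    (hβ : Odd β) (hγ : Odd γ) (hμ : 0 < μ) (hA : 7 ≤ a * α) (hB : 13 ≤ b * β) (hC : 5 ≤ c * γ)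
    (h : μ * (2 * ((b * β) * (c * γ) * (a - 1)) + (a * α) * (c * γ) * (b - 1) +
      (a * α) * (b * β) * (c - 1)) < 4 * (a * b * c)) :
    (a = 1 ∧ b = 1 ∧ c = 1) ∨ (μ = 1 ∧ α = 1 ∧ β = 1 ∧ γ = 1) := by
  obtain ⟨a, rfl⟩ := ha
  obtain ⟨b, rfl⟩ := hb
  obtain ⟨c, rfl⟩ := hc
  obtain ⟨α, rfl⟩ := hα
  obtain ⟨β, rfl⟩ := hβ
  obtain ⟨γ, rfl⟩ := hγ
  obtain ⟨μ, rfl⟩ : ∃ k, μ = k + 1 := ⟨μ - 1, by omega⟩
  simp only [Nat.add_sub_cancel] at h
  rcases Nat.eq_zero_or_pos a with rfl | ha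
  · left
    have hα : 3 ≤ α := by omega
    obtain ⟨α, rfl⟩ := Nat.exists_eq_add_of_le hα
    refine ⟨rfl, ?_, ?_⟩
    · by_contra hb
      obtain ⟨b, rfl⟩ : ∃ k, b = k + 1 := ⟨b - 1, by omega⟩
      ring_nf at h
      omega
    · by_contra hc
      obtain ⟨c, rfl⟩ : ∃ k, c = k + 1 := ⟨c - 1, by omega⟩
      ring_nf at h
      omega
  right
  obtain ⟨a, rfl⟩ : ∃ k, a = k + 1 := ⟨a - 1, by omega⟩
  have hβ : β = 0 := by
    by_contra hb
    obtain ⟨β, rfl⟩ : ∃ k, β = k + 1 := ⟨β - 1, by omega⟩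
    ring_nf at h
    omega
  subst hβ
  have hγ : γ = 0 := by
    by_contra hb
    obtain ⟨γ, rfl⟩ : ∃ k, γ = k + 1 := ⟨γ - 1, by omega⟩
    ring_nf at h
    omega
  subst hγ
  obtain ⟨b, rfl⟩ : ∃ k, b = k + 6 := ⟨b - 6, by omega⟩
  obtain ⟨c, rfl⟩ : ∃ k, c = k + 2 := ⟨c - 2, by omega⟩
  have hα : α = 0 := by
    by_contra hb
    obtain ⟨α, rfl⟩ : ∃ k, α = k + 1 := ⟨α - 1, by omega⟩
    ring_nf at h
    omega
  subst hα
  refine ⟨?_, rfl, rfl, rfl⟩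
  by_contra hb
  obtain ⟨μ, rfl⟩ : ∃ k, μ = k + 1 := ⟨μ - 1, by omega⟩
  ring_nf at h
  omega

theorem frS_sz {G : Type*} [Group G] [Finite G] [IsSimpleGroup G] (h : Cfsg.Lie.IsoSuzuki G) :
    FrS G := by
  obtain ⟨F, _, _, m, hm, hF, ⟨e⟩⟩ := h
  letI := H13.titsOfCard hF
  have Q := H13.par_of_card hm hF
  let M := (H13.lieModel (H13.titsOfCard_θ hF)).ofEquiv e
  obtain ⟨B, _, _, TB⟩ := M.exists_torus Q (n := H13.np m) (Or.inl rfl)
  obtain ⟨C, _, _, TC⟩ := M.exists_torus Q (n := H13.nm m) (Or.inr rfl)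
  have hG := M.card_G' Q
  have hH : Nat.card M.H = 2 ^ (2 * m + 1) - 1 := by rw [M.card_H, Q.card]
  have hNH := M.card_normalizer_H Q.hy
  rw [Q.card] at hNH
  intro n hn he
  have hn' := hn
  rw [hG] at hn'
  obtain ⟨n1, c, hn1, hc, rfl⟩ := Nat.dvd_mul.1 hn'
  obtain ⟨n2, b, hn2, hb, rfl⟩ := Nat.dvd_mul.1 hn1
  obtain ⟨ν, a, hν, ha, rfl⟩ := Nat.dvd_mul.1 hn2
  have t1 := ti_bound M.H _ (fun t ht h1 g hg => M.isCC_H.mem_normalizer ht h1 hg) (hH ▸ ha)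
  have t2 := ti_bound B _ (fun t ht h1 g hg => TB.isCC.mem_normalizer ht h1 hg) (TB.card ▸ hb)
  have t3 := ti_bound C _ (fun t ht h1 g hg => TC.isCC.mem_normalizer ht h1 hg) (TC.card ▸ hc)
  have c1 := H13.Model.coprime_H_np Q
  have c2 := H13.Model.coprime_H_nm Q
  have c3 := H13.coprime_np_nm m
  have t4 := ell_add3 (G := G) (n := ν * a * b * c)
    ((c1.coprime_dvd_left ha).coprime_dvd_right hb) ((c2.coprime_dvd_left ha).coprime_dvd_right hc)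
    ((c3.coprime_dvd_left hb).coprime_dvd_right hc) (((Dvd.intro_left _ rfl).mul_right _).mul_right _)
    ((Dvd.intro_left _ rfl).mul_right _) (Dvd.intro_left _ rfl)
  have oA : Odd (2 ^ (2 * m + 1) - 1) := H13.Model.odd_q_sub_one Q
  have oB := H13.odd_np m
  have oC := H13.odd_nm m
  have l1 : 7 ≤ 2 ^ (2 * m + 1) - 1 := by have := Q.eight_le; rw [Q.card] at this; omega
  have l3 := H13.five_le_nm hm
  have l2 : 13 ≤ H13.np m := by
    have h1 : 2 ^ 2 ≤ 2 ^ (m + 1) := Nat.pow_le_pow_right two_pos (by omega)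
    have := Q.eight_le; rw [Q.card] at this
    unfold H13.np; omega
  rw [hNH, hG] at t1
  rw [TB.card_normalizer, hG] at t2
  rw [TC.card_normalizer, hG] at t3
  rw [he] at t4
  have hν' := hν
  rw [← pow_mul] at hν'
  obtain ⟨k, -, hk⟩ := (Nat.dvd_prime_pow Nat.prime_two).1 hν'
  obtain ⟨μ, hμ⟩ := hν
  obtain ⟨α, hα⟩ := ha
  obtain ⟨β, hβ⟩ := hb
  obtain ⟨γ, hγ⟩ := hc
  have hpos : 0 < ν * μ := by rw [← hμ]; positivity
  rw [hμ, hα, hβ, hγ] at t1 t2 t3 hG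
  rw [hα] at oA l1
  rw [hβ] at oB l2
  rw [hγ] at oC l3
  have p1 := ell_pos (G := G) a
  have p2 := ell_pos (G := G) b
  have p3 := ell_pos (G := G) c
  have s1 : ν * μ * (b * β) * (c * γ) * (a - 1) ≤ (ell G a - 1) * 2 :=
    Nat.le_of_mul_le_mul_right (c := a * α) (by linarith) (by omega)
  have s2 : ν * μ * (a * α) * (c * γ) * (b - 1) ≤ (ell G b - 1) * 4 :=
    Nat.le_of_mul_le_mul_right (c := b * β) (by linarith) (by omega)
  have s3 : ν * μ * (a * α) * (b * β) * (c - 1) ≤ (ell G c - 1) * 4 :=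
    Nat.le_of_mul_le_mul_right (c := c * γ) (by linarith) (by omega)
  have s4 : ν * (μ * (2 * ((b * β) * (c * γ) * (a - 1)) + (a * α) * (c * γ) * (b - 1) +
      (a * α) * (b * β) * (c - 1))) < ν * (4 * (a * b * c)) := by
    have e1 : ν * (μ * (2 * ((b * β) * (c * γ) * (a - 1)) + (a * α) * (c * γ) * (b - 1) +
      (a * α) * (b * β) * (c - 1))) = 2 * (ν * μ * (b * β) * (c * γ) * (a - 1)) +
        ν * μ * (a * α) * (c * γ) * (b - 1) + ν * μ * (a * α) * (b * β) * (c - 1) := by ring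
    have e2 : ν * (4 * (a * b * c)) = 4 * (ν * a * b * c) := by ring
    rw [e1, e2]
    omega
  rcases sz_arith (Nat.odd_mul.1 oA).1 (Nat.odd_mul.1 oB).1 (Nat.odd_mul.1 oC).1
    (Nat.odd_mul.1 oA).2 (Nat.odd_mul.1 oB).2 (Nat.odd_mul.1 oC).2 (Nat.pos_of_mul_pos_left hpos)
    l1 l2 l3 (Nat.lt_of_mul_lt_mul_left s4) with ⟨rfl, rfl, rfl⟩ | ⟨rfl, rfl, rfl, rfl⟩
  · simp only [mul_one] at hn he ⊢
    subst hk
    exact prime_pow_case Nat.prime_two hn he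
  · right; rw [hG]; ring

end Cfsg.Agent.H66.Fr
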