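import Cfsg.Agent.H66.FrobTwo
import Cfsg.Agent.H35.Simple
import Cfsg.Prelude.Def_CaseTheorems

/-! The Frobenius conjecture for a simple group of characteristic 2 type of order `17971200`. -/

set_option autoImplicit false
set_option linter.style.haveILetI false

namespace Cfsg.Agent.H66.Fr

open Subgroup

variable {G : Type*} [Group G] [Finite G]

theorem mul_ell_le {r g : ℕ} (hr : r.Prime) (hg : ¬ r ∣ g) {x : G} (hx : orderOf x = r)
    (hc : ∀ y : G, x * y = y * x) : r * ell G g ≤ ell G (r * g) := by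
  have hz : Nat.card (zpowers x) = r := by rw [Nat.card_zpowers, hx]
  have hcz : ∀ z : zpowers x, ∀ y : G, Commute (z : G) y := by
    rintro ⟨z, k, rfl⟩ y
    exact (show Commute x y from hc y).zpow_left k
  have hzr : ∀ z : zpowers x, (z : G) ^ r = 1 := by
    intro z
    have := pow_card_eq_one' (x := z)
    rw [hz] at this
    exact congrArg Subtype.val this
  let f : zpowers x × {y : G // y ^ g = 1} → {y : G // y ^ (r * g) = 1} := fun p =>
    ⟨p.1 * p.2, by
      rw [(hcz p.1 p.2).mul_pow, pow_mul, hzr, one_pow, one_mul, mul_comm r g, pow_mul, p.2.2,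
        one_pow]⟩
  have hf : Function.Injective f := by
    rintro ⟨z, y⟩ ⟨z', y'⟩ h
    have h1 : (z : G) * y = z' * y' := congrArg Subtype.val h
    have h2 : ((z : G) * y) ^ g = (z' * y') ^ g := by rw [h1]
    rw [(hcz z y).mul_pow, (hcz z' y').mul_pow, y.2, y'.2, mul_one, mul_one] at h2
    have hco : (Nat.card (zpowers x)).Coprime g := by
      rw [hz]; exact (Nat.Prime.coprime_iff_not_dvd hr).2 hg
    have h3 : z = z' := (powCoprime hco).injective (Subtype.ext h2)
    subst h3
    have h4 : y = y' := Subtype.ext (mul_left_cancel h1)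
    rw [h4]
  have := Nat.card_le_card_of_injective f hf
  rwa [Nat.card_prod, hz] at this

theorem ell_le_card (n : ℕ) : ell G n ≤ Nat.card G :=
  Nat.card_le_card_of_injective Subtype.val Subtype.val_injective

theorem two_pow_mod13 : ∀ k ≤ 11, ∀ j ≤ k, 2 ^ k ≡ 2 ^ j [MOD 13] → j = k := by
  decide

/-- In a group of characteristic 2 type with Sylow 2-subgroups of order at most `2 ^ 11`, the
centralizer of an element of order 13 has odd order. -/
theorem odd_cent (hG : Nat.card G = 17971200) (h2 : Cfsg.IsCharacteristicTwoType G) {x : G}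
    (hx : orderOf x = 13) : ¬ 2 ∣ Nat.card (centralizer ({x} : Set G)) := by
  intro hd
  haveI : Fact (Nat.Prime 2) := ⟨Nat.prime_two⟩
  obtain ⟨⟨t, ht⟩, ht2⟩ := exists_prime_orderOf_dvd_card' 2 hd
  rw [← orderOf_coe] at ht2
  simp only at ht2
  have hT : IsPGroup 2 (zpowers t) := IsPGroup.of_card (n := 1) (by rw [Nat.card_zpowers, ht2]; rfl)
  have hT0 : zpowers t ≠ ⊥ := by
    rw [Ne, zpowers_eq_bot]
    rintro rfl
    simp at ht2
  have hc := h2.2 _ hT hT0
  set M := normalizer ((zpowers t : Subgroup G) : Set G) with hM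
  have hxM : x ∈ M := by
    apply centralizer_le_normalizer
    rw [mem_centralizer_iff]
    rintro _ ⟨k, rfl⟩
    have : x * t = t * x := (mem_centralizer_iff.1 ht) x rfl
    exact ((show Commute x t from this).zpow_right k).symm
  let x' : M := ⟨x, hxM⟩
  have hx' : orderOf x' = 13 := by rw [← orderOf_coe]; exact hx
  set Q := Cfsg.pCore 2 M with hQ
  have hQp : IsPGroup 2 Q := Sylow.sSup_of_normal _ (fun _ h => h.2) (fun _ h => h.1)
  have hQn : Q.Normal := Cfsg.pCore_normal 2 M
  have hmod := card_modEq_cent (by norm_num : Nat.Prime 13) hx' (fun y => y ∈ Q)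
    (fun y hy => hQn.conj_mem y hy x')
  obtain ⟨k, hk⟩ := hQp.exists_card_eq
  obtain ⟨j, hj⟩ := (hQp.to_le (inf_le_left : Q ⊓ centralizer ({x'} : Set M) ≤ Q)).exists_card_eq
  have e1 : Nat.card {y // y ∈ Q ∧ y ∈ centralizer ({x'} : Set M)} = 2 ^ j := hj
  have e2 : Nat.card {y // y ∈ Q} = 2 ^ k := hk
  rw [e1, e2] at hmod
  have hjk : j ≤ k := by
    have := card_le_of_le (inf_le_left : Q ⊓ centralizer ({x'} : Set M) ≤ Q)
    rw [hj, hk] at this
    exact (Nat.pow_le_pow_iff_right (by norm_num)).1 this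
  have hk11 : k ≤ 11 := by
    have h1 : 2 ^ k ∣ 17971200 := by
      rw [← hk, ← hG]
      exact (card_subgroup_dvd_card Q).trans (card_subgroup_dvd_card M)
    by_contra h
    have : 2 ^ 12 ∣ 17971200 := (pow_dvd_pow 2 (by omega)).trans h1
    norm_num at this
  have := two_pow_mod13 k hk11 j hjk hmod
  subst this
  have hQC : Q ⊓ centralizer ({x'} : Set M) = Q :=
    eq_of_le_of_card_ge inf_le_left (by rw [hj, hk])
  have hxQ : x' ∈ Q := by
    apply hc
    rw [mem_centralizer_iff]
    intro y hy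
    have : y ∈ centralizer ({x'} : Set M) := (hQC.ge hy).2
    exact ((mem_centralizer_iff.1 this) x' rfl).symm
  have h13 : 13 ∣ 2 ^ j := by
    rw [← hk, ← hx']
    exact orderOf_dvd_natCard (⟨x', hxQ⟩ : Q) |> fun h => by rwa [← orderOf_coe] at h
  have := (by norm_num : Nat.Prime 13).dvd_of_dvd_pow h13
  norm_num at this

theorem tits_arith1 : ∀ d ∈ Nat.divisors 675, ∀ e ∈ Nat.divisors 12, e ≠ 1 →
    d * e ∣ 1382400 → 1382400 / (d * e) % 13 = 1 →
    (d = 1 ∧ e = 6) ∨ (d = 3 ∧ e = 2) ∨ (d = 15 ∧ e = 3) := by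
  decide +kernel

omit [Finite G] in
theorem cent_zpowers (x : G) :
    centralizer ((zpowers x : Subgroup G) : Set G) = centralizer ({x} : Set G) := by
  rw [zpowers_eq_closure, centralizer_closure]

omit [Finite G] in
theorem isP13 (hG : Nat.card G = 17971200) {x : G} (hx : orderOf x = 13) :
    ∃ P : Sylow 13 G, (P : Subgroup G) = zpowers x := by
  haveI : Fact (Nat.Prime 13) := ⟨by norm_num⟩
  have hz : Nat.card (zpowers x) = 13 := by rw [Nat.card_zpowers, hx]
  have hT : IsPGroup 13 (zpowers x) := IsPGroup.of_card (n := 1) (by rw [hz]; rfl)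
  have hi : (zpowers x).index = 1382400 := by
    have := (zpowers x).card_mul_index
    rw [hz, hG] at this
    omega
  exact ⟨hT.toSylow (by rw [hi]; norm_num), rfl⟩

theorem cent_cases [IsSimpleGroup G] (hG : Nat.card G = 17971200)
    (h2 : Cfsg.IsCharacteristicTwoType G) {x : G} (hx : orderOf x = 13) :
    (Nat.card (centralizer ({x} : Set G)) = 13 ∧
        Nat.card (normalizer ((zpowers x : Subgroup G) : Set G)) = 78) ∨
      (Nat.card (centralizer ({x} : Set G)) = 39 ∧
        Nat.card (normalizer ((zpowers x : Subgroup G) : Set G)) = 78) ∨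
      (Nat.card (centralizer ({x} : Set G)) = 195 ∧
        Nat.card (normalizer ((zpowers x : Subgroup G) : Set G)) = 585) := by
  haveI : Fact (Nat.Prime 13) := ⟨by norm_num⟩
  have hodd := odd_cent hG h2 hx
  have hz : Nat.card (zpowers x) = 13 := by rw [Nat.card_zpowers, hx]
  obtain ⟨P, hP⟩ := isP13 hG hx
  have he := H35.relIndex_dvd_pred (by norm_num : Nat.Prime 13) (zpowers x) hz
  have hne := H35.not_normalizer_le_centralizer P (by rw [hG]; norm_num)
    (by rw [hP, hz, hG]; norm_num)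
  have hmod := card_sylow_modEq_one 13 G
  rw [P.card_eq_index_normalizer] at hmod
  have hP' : (P : Set G) = ((zpowers x : Subgroup G) : Set G) := by rw [← hP]; rfl
  rw [hP'] at hne hmod
  rw [cent_zpowers] at hne he
  have hle : centralizer ({x} : Set G) ≤ normalizer ((zpowers x : Subgroup G) : Set G) := by
    rw [← cent_zpowers]; exact centralizer_le_normalizer _
  set C := centralizer ({x} : Set G) with hC
  set M := normalizer ((zpowers x : Subgroup G) : Set G) with hM
  have h13 : 13 ∣ Nat.card C := by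
    rw [← hz]
    apply card_dvd_of_le
    rw [zpowers_le, hC, mem_centralizer_iff]
    rintro _ rfl
    rfl
  obtain ⟨d, hd⟩ := h13
  have hCM : Nat.card M = 13 * d * C.relIndex M := by
    rw [← hd, relIndex, ← Nat.card_congr (subgroupOfEquivOfLe hle).toEquiv, card_mul_index]
  set e := C.relIndex M with he'
  have he1 : e ≠ 1 := fun h => hne (relIndex_eq_one.1 h)
  have hMi := M.card_mul_index
  rw [hCM, hG] at hMi
  have h1 : d * e * M.index = 1382400 := by
    have : 13 * (d * e * M.index) = 17971200 := by rw [← hMi]; ring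
    omega
  have hdd : d ∣ 675 := by
    have h2 : d ∣ 2 ^ 11 * 675 := ⟨e * M.index, by rw [← mul_assoc, h1]; norm_num⟩
    refine Nat.Coprime.dvd_of_dvd_mul_left ?_ h2
    apply Nat.Coprime.pow_right
    rw [Nat.coprime_comm, Nat.Prime.coprime_iff_not_dvd Nat.prime_two]
    exact fun h => hodd (hd ▸ h.mul_left 13)
  have hpos : 0 < d * e := Nat.pos_of_ne_zero fun h => by rw [h] at h1; omega
  have h3 : 1382400 / (d * e) = M.index := by
    rw [← h1, Nat.mul_div_cancel_left _ hpos]
  have := tits_arith1 d (Nat.mem_divisors.2 ⟨hdd, by norm_num⟩) e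
    (Nat.mem_divisors.2 ⟨he, by norm_num⟩) he1 ⟨_, h1.symm⟩ (by rw [h3]; exact hmod)
  rw [hd, hCM]
  rcases this with ⟨rfl, h⟩ | ⟨rfl, h⟩ | ⟨rfl, h⟩ <;> rw [h] <;> simp

theorem ell_le_of_cyclic [IsCyclic G] {n : ℕ} (hn : 0 < n) : ell G n ≤ n := by
  classical
  letI := Fintype.ofFinite G
  have := IsCyclic.card_pow_eq_one_le (α := G) hn
  rwa [ell, Nat.card_eq_fintype_card, Fintype.card_subtype]

/-- four commuting elements of order dividing 3 in the symmetric group of degree 6 -/
def s6 : Fin 4 → Equiv.Perm (Fin 6) :=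
  ![1, Equiv.swap 0 1 * Equiv.swap 1 2, Equiv.swap 3 4 * Equiv.swap 4 5,
    Equiv.swap 0 1 * Equiv.swap 1 2 * (Equiv.swap 3 4 * Equiv.swap 4 5)]

theorem s6_inj : Function.Injective s6 := by decide +kernel

theorem s6_pow : ∀ i, s6 i ^ 3 = 1 := by decide +kernel

theorem s6_comm : s6 1 * s6 2 = s6 2 * s6 1 := by decide +kernel

theorem not_cyclic3 {H : Subgroup G} (e : H ≃* Equiv.Perm (Fin 6)) (P : Sylow 3 G) :
    ¬ IsCyclic (P : Subgroup G) := by
  intro hP
  haveI : Fact (Nat.Prime 3) := ⟨Nat.prime_three⟩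
  let f : Equiv.Perm (Fin 6) →* G := H.subtype.comp e.symm.toMonoidHom
  have hf : Function.Injective f := Subtype.val_injective.comp e.symm.injective
  have hz : ∀ i, IsPGroup 3 (zpowers (f (s6 i))) := by
    intro i
    rintro ⟨_, k, rfl⟩
    refine ⟨1, Subtype.ext ?_⟩
    show ((f (s6 i)) ^ k) ^ (3 ^ 1) = 1
    rw [pow_one, ← zpow_natCast, ← zpow_mul, mul_comm, zpow_mul, zpow_natCast, ← map_pow, s6_pow,
      map_one, one_zpow]
  have hT : IsPGroup 3 (zpowers (f (s6 1)) ⊔ zpowers (f (s6 2)) : Subgroup G) := by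
    refine (hz 1).to_sup_of_normal_right' (hz 2) ?_
    rw [zpowers_le]
    apply centralizer_le_normalizer
    rw [cent_zpowers, mem_centralizer_iff]
    rintro _ rfl
    rw [← map_mul, ← map_mul, s6_comm]
  obtain ⟨Q, hQ⟩ := hT.exists_le_sylow
  haveI : IsCyclic (Q : Subgroup G) := (MulEquiv.isCyclic (P.equiv Q)).1 hP
  have h1 : f (s6 1) ∈ (Q : Subgroup G) := hQ (mem_sup_left (mem_zpowers _))
  have h2 : f (s6 2) ∈ (Q : Subgroup G) := hQ (mem_sup_right (mem_zpowers _))
  have hm : ∀ i, f (s6 i) ∈ (Q : Subgroup G) := by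
    intro i
    fin_cases i
    · show f 1 ∈ _
      rw [map_one]; exact one_mem _
    · exact h1
    · exact h2
    · show f (s6 1 * s6 2) ∈ _
      rw [map_mul]; exact mul_mem h1 h2
  let g : Fin 4 → {y : (Q : Subgroup G) // y ^ 3 = 1} := fun i =>
    ⟨⟨f (s6 i), hm i⟩, Subtype.ext (by
      show f (s6 i) ^ 3 = 1
      rw [← map_pow, s6_pow, map_one])⟩
  have hg : Function.Injective g := fun i j h =>
    s6_inj (hf (congrArg (fun y => (y.1.1 : G)) h))
  have h3 := Nat.card_le_card_of_injective g hg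
  have h4 := ell_le_of_cyclic (G := (Q : Subgroup G)) (n := 3) (by norm_num)
  rw [Nat.card_eq_fintype_card, Fintype.card_fin] at h3
  exact absurd (h3.trans h4) (by norm_num)

/-- the possible parts prime to 13 -/
def titsL : List ℕ := [1, 5, 25, 27, 135, 675, 2, 10, 50, 54, 270, 1350, 2048, 10240, 51200, 55296,
  276480, 1382400]

theorem tits_shape (hG : Nat.card G = 17971200) (hr : ¬ Cfsg.PRankLE 2 2 G) {H : Subgroup G}
    (e : H ≃* Equiv.Perm (Fin 6)) {n : ℕ} (hn : n ∣ Nat.card G) (h : ell G n = n) :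
    ∃ m ∈ titsL, n = m ∨ n = 13 * m := by
  haveI : Fact (Nat.Prime 3) := ⟨Nat.prime_three⟩
  obtain ⟨P⟩ : Nonempty (Sylow 3 G) := inferInstance
  have hP := not_cyclic3 e P
  have hn' : n ∣ 2 ^ 11 * (3 ^ 3 * (5 ^ 2 * 13 ^ 1)) := by rw [hG] at hn; exact hn
  obtain ⟨_, _, h1, hn1, rfl⟩ := Nat.dvd_mul.1 hn'
  obtain ⟨_, _, h2, hn2, rfl⟩ := Nat.dvd_mul.1 hn1
  obtain ⟨_, _, h3, h4, rfl⟩ := Nat.dvd_mul.1 hn2
  obtain ⟨a, ha, rfl⟩ := (Nat.dvd_prime_pow Nat.prime_two).1 h1
  obtain ⟨b, hb, rfl⟩ := (Nat.dvd_prime_pow Nat.prime_three).1 h2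
  obtain ⟨c, hc, rfl⟩ := (Nat.dvd_prime_pow Nat.prime_five).1 h3
  obtain ⟨r, hr', rfl⟩ := (Nat.dvd_prime_pow (by norm_num : Nat.Prime 13)).1 h4
  have ha' : a = 0 ∨ a = 1 ∨ a = 11 := by
    by_contra hh
    refine step_two hr (a := a) (by omega) ?_ ?_ h
    · interval_cases b <;> interval_cases c <;> interval_cases r <;> norm_num
    · rw [hG]
      refine (Nat.mul_dvd_mul (pow_dvd_pow 2 (show a + 1 ≤ 11 by omega)) (Nat.mul_dvd_mul h2
        (Nat.mul_dvd_mul h3 h4))).trans (by norm_num)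
  have hb' : b = 0 ∨ b = 3 := by
    by_contra hh
    refine step_odd (p := 3) (a := b) (m := 2 ^ a * (5 ^ c * 13 ^ r)) (by norm_num) P hP (by omega)
      ?_ ?_ (by rw [mul_left_comm]; exact h)
    · rcases ha' with rfl | rfl | rfl <;> interval_cases c <;> interval_cases r <;> norm_num
    · rw [hG]
      refine (Nat.mul_dvd_mul (pow_dvd_pow 3 (show b + 1 ≤ 3 by omega)) (Nat.mul_dvd_mul h1
        (Nat.mul_dvd_mul h3 h4))).trans (by norm_num)
  refine ⟨2 ^ a * (3 ^ b * 5 ^ c), ?_, ?_⟩
  · rcases ha' with rfl | rfl | rfl <;> rcases hb' with rfl | rfl <;> interval_cases c <;>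
      simp [titsL]
  · interval_cases r
    · left; ring
    · right; ring

theorem tits_arith2 : ∀ m ∈ titsL, ∀ c ∈ [13, 39, 195], ∀ l ≤ 15, 0 < l → 13 * l ≤ c →
    Nat.gcd m c ∣ l → (Nat.gcd m c = 1 → l = 1) → (c = 195 → Nat.gcd m c = 3 → l ≤ 11) →
    m % 13 = l % 13 → m ∣ 720 ∨ m = 3 ^ 3 := by
  decide +kernel

theorem titsL_13 : ∀ m ∈ titsL, ¬ 13 ∣ m := by decide +kernel

theorem cent_ell {r m : ℕ} (hr : r.Prime) (hm : ¬ r ∣ m) {x : G} (hx : orderOf x = r) :
    r * ell (centralizer ({x} : Set G)) m ≤ ell (centralizer ({x} : Set G)) (r * m) := by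
  have hxC : x ∈ centralizer ({x} : Set G) := by
    rw [mem_centralizer_iff]; rintro _ rfl; rfl
  refine mul_ell_le hr hm (x := ⟨x, hxC⟩) (by rw [← orderOf_coe]; exact hx) fun y => ?_
  exact Subtype.ext ((mem_centralizer_iff.1 y.2) x rfl)

theorem tits_not13 [IsSimpleGroup G] (hG : Nat.card G = 17971200)
    (h2 : Cfsg.IsCharacteristicTwoType G) {H : Subgroup G} (e : H ≃* Equiv.Perm (Fin 6))
    {m : ℕ} (hm : m ∈ titsL) (hd : m ∣ Nat.card G) (h : ell G m = m) : m = 1 := by
  haveI : Fact (Nat.Prime 13) := ⟨by norm_num⟩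
  obtain ⟨x, hx⟩ := exists_prime_orderOf_dvd_card' (G := G) 13 (by rw [hG]; norm_num)
  have hmod := ell_modEq (by norm_num : Nat.Prime 13) hx m
  have h1 := (cent_ell (by norm_num : Nat.Prime 13) (titsL_13 m hm) hx).trans (ell_le_card _)
  have h3 := cent_ell (by norm_num : Nat.Prime 13) (m := 15) (by norm_num) hx
  have hc := cent_cases hG h2 hx
  set C := centralizer ({x} : Set G)
  have hc' : Nat.card C ∈ [13, 39, 195] := by
    rcases hc with h | h | h <;> simp [h.1]
  have hH : Nat.card H = 720 := by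
    rw [Nat.card_congr e.toEquiv, Nat.card_perm, Nat.card_eq_fintype_card, Fintype.card_fin]
    rfl
  have hH' : H ≠ ⊤ := by
    rintro rfl
    rw [card_top, hG] at hH
    norm_num at hH
  rw [h] at hmod
  have := tits_arith2 m hm _ hc' (ell C m) (by rcases hc with h | h | h <;> omega) (ell_pos m) h1
    (gcd_dvd_ell m) (fun h => by rw [← ell_gcd, h, ell_one]) (fun h4 h5 => by
      have h6 := ell_add (G := C) (a := 3) (b := 5) (n := 15) (by norm_num) (by norm_num)
        (by norm_num)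
      have h7 : 5 ≤ ell C 5 := le_ell (by rw [h4]; norm_num)
      have h8 := h3.trans (ell_le_card _)
      rw [← ell_gcd, h5]
      omega) hmod
  rcases this with h4 | rfl
  · exact eq_one_of_proper h hH' (hH ▸ h4)
  · rcases prime_pow_case Nat.prime_three hd h with h4 | h4
    · exact h4
    · rw [hG] at h4
      norm_num at h4

theorem tits_arith3 : ∀ m ∈ titsL, ∀ z ∈ [(13, 78), (39, 78), (195, 585)],
    17971200 * (12 * Nat.gcd m z.1) ≤ (13 * m - 1) * z.2 → m = 1382400 ∨ m = 276480 := by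
  decide +kernel

theorem tits_13 [IsSimpleGroup G] (hG : Nat.card G = 17971200)
    (h2 : Cfsg.IsCharacteristicTwoType G) {m : ℕ} (hm : m ∈ titsL) (h : ell G (13 * m) = 13 * m) :
    m = 1382400 ∨ m = 276480 := by
  haveI : Fact (Nat.Prime 13) := ⟨by norm_num⟩
  obtain ⟨x, hx⟩ := exists_prime_orderOf_dvd_card' (G := G) 13 (by rw [hG]; norm_num)
  have h1 := cent_ell (by norm_num : Nat.Prime 13) (titsL_13 m hm) hx
  have hc := cent_cases hG h2 hx
  obtain ⟨P, hP⟩ := isP13 hG hx
  have hz : Nat.card (zpowers x) = 13 := by rw [Nat.card_zpowers, hx]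
  set C := centralizer ({x} : Set G) with hC
  set M := normalizer ((zpowers x : Subgroup G) : Set G) with hM
  have key : ∀ a : G, a ^ (13 * m) = 1 → a ∈ C → a ^ m ≠ 1 → zpowers (a ^ m) = zpowers x := by
    intro a ha haC ha1
    have ho : orderOf (a ^ m) = 13 :=
      orderOf_eq_prime (by rw [← pow_mul, mul_comm, ha]) ha1
    have hT : IsPGroup 13 (zpowers (a ^ m)) :=
      IsPGroup.of_card (n := 1) (by rw [Nat.card_zpowers, ho]; rfl)
    have hsup : IsPGroup 13 (zpowers (a ^ m) ⊔ (P : Subgroup G) : Subgroup G) := by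
      refine hT.to_sup_of_normal_right' P.isPGroup' ?_
      rw [zpowers_le, hP]
      apply centralizer_le_normalizer
      rw [cent_zpowers]
      exact pow_mem haC m
    have h3 := P.is_maximal' hsup le_sup_right
    have h4 : zpowers (a ^ m) ≤ zpowers x := by rw [← hP, ← h3]; exact le_sup_left
    exact eq_of_le_of_card_ge h4 (by rw [hz, Nat.card_zpowers, ho])
  have hcount := conj_count ({y : G | y ^ (13 * m) = 1} \ {1})
    ({a : G | a ^ (13 * m) = 1 ∧ a ∈ C} \ {a : G | a ^ m = 1 ∧ a ∈ C}) M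
    (by
      rintro a ⟨⟨ha1, ha2⟩, ha3⟩ g
      refine ⟨?_, fun h0 => ha3 ⟨?_, ha2⟩⟩
      · show (g⁻¹ * a * g) ^ (13 * m) = 1
        have := conj_pow (a := g⁻¹) (b := a) (i := 13 * m)
        rw [inv_inv, ha1] at this
        rw [this]; simp
      · have h0' : g⁻¹ * a * g = 1 := h0
        have : a = 1 := by
          have : a = g * (g⁻¹ * a * g) * g⁻¹ := by group
          rw [this, h0']; simp
        rw [this, one_pow])
    (by
      rintro a ⟨⟨ha1, ha2⟩, ha3⟩ g ⟨⟨hb1, hb2⟩, hb3⟩
      have e1 := key a ha1 ha2 fun h0 => ha3 ⟨h0, ha2⟩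
      have e2 := key _ hb1 hb2 fun h0 => hb3 ⟨h0, hb2⟩
      rw [conj_pow] at e2
      rw [hM]
      apply mem_normalizer_fintype
      intro y hy
      rw [← e1] at hy
      obtain ⟨k, rfl⟩ := hy
      rw [← e2]
      exact ⟨k, conj_zpow⟩)
  rw [ncard_diff_one, h, Set.ncard_sdiff (by
    rintro a ⟨ha1, ha2⟩
    exact ⟨by rw [mul_comm, pow_mul, ha1, one_pow], ha2⟩)] at hcount
  have e1 : ∀ k, {a : G | a ^ k = 1 ∧ a ∈ C}.ncard = ell C k := fun k => by
    rw [ell_sub, ← Nat.card_coe_set_eq]; rfl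
  rw [e1, e1, hG] at hcount
  have h3 : Nat.gcd m (Nat.card C) ≤ ell C m := Nat.le_of_dvd (ell_pos m) (gcd_dvd_ell m)
  refine tits_arith3 m hm (Nat.card C, Nat.card M) ?_ ?_
  · rcases hc with h | h | h <;> simp [h.1, h.2]
  · exact (Nat.mul_le_mul_left _ (by simp only; omega)).trans hcount

theorem tits_arith4 : ∀ d ∈ Nat.divisors 17971200, ¬ d ∣ 3594240 → 25 ∣ d := by
  intro d hd h
  have hd := Nat.dvd_of_mem_divisors hd
  by_contra h25
  apply h
  have h1 : d ∣ 5 ^ 2 * 718848 := hd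
  obtain ⟨u, v, hu, hv, rfl⟩ := Nat.dvd_mul.1 h1
  obtain ⟨c, hc, rfl⟩ := (Nat.dvd_prime_pow Nat.prime_five).1 hu
  have : c ≤ 1 := by
    by_contra hh
    have : c = 2 := by omega
    subst this
    exact h25 (dvd_mul_right _ _)
  exact (Nat.mul_dvd_mul (pow_dvd_pow 5 this) hv).trans (by norm_num)

theorem tits_five [IsSimpleGroup G] (hG : Nat.card G = 17971200) :
    ell G 3594240 ≠ 3594240 := by
  intro h
  haveI : Fact (Nat.Prime 5) := ⟨Nat.prime_five⟩
  obtain ⟨Q⟩ : Nonempty (Sylow 5 G) := inferInstance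
  have hcard : ∀ R : Sylow 5 G, Nat.card (R : Subgroup G) = 25 := by
    intro R
    rw [R.card_eq_multiplicity, hG]
    have : (17971200 : ℕ).factorization 5 = 2 := by
      rw [show (17971200 : ℕ) = 5 ^ 2 * 718848 by norm_num,
        Nat.factorization_mul (by norm_num) (by norm_num), Finsupp.add_apply,
        Nat.prime_five.factorization_pow, Nat.factorization_eq_zero_of_not_dvd (by norm_num)]
      simp
    rw [this]; norm_num
  have hcyc : IsCyclic (Q : Subgroup G) := by
    by_contra hQ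
    exact step_odd (p := 5) (a := 1) (m := 718848) (by norm_num) Q hQ one_ne_zero (by norm_num)
      (by rw [hG]; norm_num) h
  have hne := H35.not_normalizer_le_centralizer Q (by rw [hG]; norm_num)
    (by rw [hcard, hG]; norm_num)
  have hle : centralizer (Q : Set G) ≤ normalizer (Q : Set G) := centralizer_le_normalizer _
  have h2 : 2 * Nat.card (centralizer (Q : Set G)) ≤ Nat.card (normalizer (Q : Set G)) := by
    obtain ⟨k, hk⟩ := card_dvd_of_le hle
    have hk1 : k ≠ 1 := by
      rintro rfl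
      exact hne (eq_of_le_of_card_ge hle (by rw [hk, mul_one])).ge
    have hk0 : k ≠ 0 := by
      rintro rfl
      exact absurd hk Nat.card_pos.ne'
    rw [hk, mul_comm]
    exact Nat.mul_le_mul_left _ (by omega)
  have hcount := conj_count_le {y : G | y ^ 3594240 = 1}ᶜ (centralizer (Q : Set G) : Set G)
    (normalizer (Q : Set G))
    (by
      intro g hg
      have h25 : 25 ∣ orderOf g := tits_arith4 _
        (Nat.mem_divisors.2 ⟨hG ▸ orderOf_dvd_natCard g, by norm_num⟩)
        fun h0 => hg (orderOf_dvd_iff_pow_eq_one.1 h0)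
      have ho : orderOf (g ^ (orderOf g / 25)) = 25 :=
        orderOf_pow_orderOf_div (orderOf_pos g).ne' h25
      set y := g ^ (orderOf g / 25) with hy
      have hT : IsPGroup 5 (zpowers y) :=
        IsPGroup.of_card (n := 2) (by rw [Nat.card_zpowers, ho]; rfl)
      obtain ⟨R, hR⟩ := hT.exists_le_sylow
      have hR' : zpowers y = R := eq_of_le_of_card_ge hR (by rw [hcard, Nat.card_zpowers, ho])
      obtain ⟨k, hk⟩ := MulAction.exists_smul_eq G R Q
      refine ⟨k, ?_⟩
      show _ ∈ centralizer (Q : Set G)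
      rw [mem_centralizer_iff]
      intro z hz
      have hz' : z ∈ ((k • R : Sylow 5 G) : Subgroup G) := by rw [hk]; exact hz
      rw [Sylow.coe_subgroup_smul, mem_pointwise_smul_iff_inv_smul_mem, ← hR'] at hz'
      obtain ⟨i, hi⟩ := hz'
      have hi' : y ^ i = k⁻¹ * z * k := by simpa using hi
      have hcom : Commute g (y ^ i) := ((Commute.refl g).pow_right _).zpow_right i
      have : z = k * y ^ i * k⁻¹ := by rw [hi']; group
      rw [this]
      calc k * y ^ i * k⁻¹ * (k * g * k⁻¹) = k * (y ^ i * g) * k⁻¹ := by group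
        _ = k * (g * y ^ i) * k⁻¹ := by rw [hcom.eq]
        _ = k * g * k⁻¹ * (k * y ^ i * k⁻¹) := by group)
    (by
      intro k hk t ht
      show _ ∈ centralizer (Q : Set G)
      rw [mem_centralizer_iff]
      intro z hz
      have h1 : k⁻¹ * z * k ∈ (Q : Set G) := by
        have := (mem_normalizer_iff''.1 (show k ∈ normalizer ((Q : Subgroup G) : Set G) from hk) z).1
          hz
        exact this
      have h2 := mem_centralizer_iff.1 (show t ∈ centralizer (Q : Set G) from ht) _ h1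
      calc z * (k * t * k⁻¹) = k * (k⁻¹ * z * k * t) * k⁻¹ := by group
        _ = k * (t * (k⁻¹ * z * k)) * k⁻¹ := by rw [h2]
        _ = k * t * k⁻¹ * z := by group)
  have e1 := Set.ncard_add_ncard_compl {y : G | y ^ 3594240 = 1}
  rw [← ell_eq_ncard, h, hG] at e1
  have e2 : ({y : G | y ^ 3594240 = 1}ᶜ).ncard = 14376960 := by omega
  have e3 : (centralizer (Q : Set G) : Set G).ncard = Nat.card (centralizer (Q : Set G)) := by
    rw [← Nat.card_coe_set_eq]; rfl
  rw [e2, e3, hG] at hcount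
  have : 0 < Nat.card (centralizer (Q : Set G)) := Nat.card_pos
  omega

theorem frS_tits [IsSimpleGroup G] (hG : Nat.card G = 17971200)
    (h2 : Cfsg.IsCharacteristicTwoType G) (hr : ¬ Cfsg.PRankLE 2 2 G) {H : Subgroup G}
    (e : H ≃* Equiv.Perm (Fin 6)) : FrS G := by
  intro n hn h
  obtain ⟨m, hm, rfl | rfl⟩ := tits_shape hG hr e hn h
  · exact Or.inl (tits_not13 hG h2 e hm hn h)
  · rcases tits_13 hG h2 hm h with rfl | rfl
    · exact Or.inr hG.symm
    · exact absurd h (tits_five hG)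

end Cfsg.Agent.H66.Fr
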