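import Cfsg.Agent.H66.FrobRed
import Cfsg.Agent.H81.Miller
import Cfsg.Agent.S4003
import Cfsg.Agent.H46.NormalFour

/-! Counting tools for the number of solutions of `x ^ n = 1`. -/

set_option autoImplicit false
set_option linter.style.haveILetI false

namespace Cfsg.Agent.H66.Fr

open Subgroup
open scoped commutatorElement

variable {G : Type*} [Group G] [Finite G]

theorem ell_eq_ncard (n : ℕ) : ell G n = {x : G | x ^ n = 1}.ncard :=
  Nat.card_coe_set_eq _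

theorem ell_one : ell G 1 = 1 := by
  rw [ell_eq_ncard]; simp

theorem ell_mono {a n : ℕ} (h : a ∣ n) : ell G a ≤ ell G n := by
  rw [ell_eq_ncard, ell_eq_ncard]
  refine Set.ncard_le_ncard (fun x hx => ?_) (Set.toFinite _)
  obtain ⟨c, rfl⟩ := h
  show x ^ (a * c) = 1
  rw [pow_mul, hx, one_pow]

theorem ell_add {a b n : ℕ} (h : a.Coprime b) (ha : a ∣ n) (hb : b ∣ n) :
    ell G a + ell G b ≤ ell G n + 1 := by
  rw [ell_eq_ncard, ell_eq_ncard, ell_eq_ncard, ← Set.ncard_union_add_ncard_inter]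
  refine Nat.add_le_add (Set.ncard_le_ncard ?_ (Set.toFinite _)) ?_
  · rintro x (hx | hx)
    · exact orderOf_dvd_iff_pow_eq_one.1 ((orderOf_dvd_of_pow_eq_one hx).trans ha)
    · exact orderOf_dvd_iff_pow_eq_one.1 ((orderOf_dvd_of_pow_eq_one hx).trans hb)
  · rw [← Set.ncard_singleton (1 : G)]
    refine Set.ncard_le_ncard (fun x hx => ?_) (Set.toFinite _)
    exact orderOf_eq_one_iff.1 (Nat.eq_one_of_dvd_coprimes h (orderOf_dvd_of_pow_eq_one hx.1)
      (orderOf_dvd_of_pow_eq_one hx.2))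

theorem ell_add3 {a b c n : ℕ} (hab : a.Coprime b) (hac : a.Coprime c) (hbc : b.Coprime c)
    (ha : a ∣ n) (hb : b ∣ n) (hc : c ∣ n) : ell G a + ell G b + ell G c ≤ ell G n + 2 := by
  have key : ∀ {a b : ℕ}, a.Coprime b → ∀ x : G, x ^ a = 1 → x ^ b = 1 → x = 1 := fun h x h1 h2 =>
    orderOf_eq_one_iff.1 (Nat.eq_one_of_dvd_coprimes h (orderOf_dvd_of_pow_eq_one h1)
      (orderOf_dvd_of_pow_eq_one h2))
  have up : ∀ {a : ℕ}, a ∣ n → ∀ x : G, x ^ a = 1 → x ^ n = 1 := fun h x hx =>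
    orderOf_dvd_iff_pow_eq_one.1 ((orderOf_dvd_of_pow_eq_one hx).trans h)
  simp only [ell_eq_ncard]
  have e1 := Set.ncard_union_add_ncard_inter {x : G | x ^ a = 1} {x : G | x ^ b = 1}
  have e2 := Set.ncard_union_add_ncard_inter ({x : G | x ^ a = 1} ∪ {x : G | x ^ b = 1})
    {x : G | x ^ c = 1}
  have e3 : ({x : G | x ^ a = 1} ∩ {x : G | x ^ b = 1}).ncard ≤ 1 := by
    rw [← Set.ncard_singleton (1 : G)]
    exact Set.ncard_le_ncard (fun x hx => key hab x hx.1 hx.2) (Set.toFinite _)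
  have e4 : (({x : G | x ^ a = 1} ∪ {x : G | x ^ b = 1}) ∩ {x : G | x ^ c = 1}).ncard ≤ 1 := by
    rw [← Set.ncard_singleton (1 : G)]
    refine Set.ncard_le_ncard ?_ (Set.toFinite _)
    rintro x ⟨hx | hx, hx'⟩
    exacts [key hac x hx hx', key hbc x hx hx']
  have e5 : (({x : G | x ^ a = 1} ∪ {x : G | x ^ b = 1}) ∪ {x : G | x ^ c = 1}).ncard ≤
      {x : G | x ^ n = 1}.ncard := by
    refine Set.ncard_le_ncard ?_ (Set.toFinite _)
    rintro x ((hx | hx) | hx)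
    exacts [up ha x hx, up hb x hx, up hc x hx]
  omega

/-- lower bound for a set containing all conjugates of a TI-set -/
theorem conj_count (S A : Set G) (N : Subgroup G) (hS : ∀ a ∈ A, ∀ h : G, h⁻¹ * a * h ∈ S)
    (hA : ∀ a ∈ A, ∀ h : G, h * a * h⁻¹ ∈ A → h ∈ N) :
    Nat.card G * A.ncard ≤ S.ncard * Nat.card N := by
  classical
  rw [← Nat.card_coe_set_eq, ← Nat.card_coe_set_eq, ← Nat.card_prod, ← Nat.card_prod]
  let P : G → G → Prop := fun s h => h * s * h⁻¹ ∈ A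
  have hP : ∀ (h : G) (a : A), P (h⁻¹ * a * h) h := fun h a => by
    show h * (h⁻¹ * a * h) * h⁻¹ ∈ A
    simpa [mul_assoc] using a.2
  let c : G → G := fun s => if h : ∃ k, P s k then h.choose else 1
  have hc : ∀ s k, P s k → P s (c s) := fun s k h => by
    simp only [c, dif_pos (⟨k, h⟩ : ∃ k, P s k)]
    exact Exists.choose_spec (⟨k, h⟩ : ∃ k, P s k)
  refine Nat.card_le_card_of_injective (fun z : G × A =>
    ((⟨z.1⁻¹ * z.2 * z.1, hS _ z.2.2 _⟩, ⟨z.1 * (c (z.1⁻¹ * z.2 * z.1))⁻¹,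
      hA _ (hc _ _ (hP z.1 z.2)) _ (by simpa [mul_assoc] using z.2.2)⟩) : S × N)) ?_
  rintro ⟨h, a⟩ ⟨k, b⟩ e
  simp only [Prod.mk.injEq, Subtype.mk.injEq] at e
  obtain ⟨e1, e2⟩ := e
  rw [e1, mul_left_inj] at e2
  subst e2
  exact Prod.ext rfl (Subtype.ext (by simpa using e1))

/-- upper bound for the union of the conjugates of a set -/
theorem conj_count_le (S T : Set G) (N : Subgroup G) (hS : ∀ s ∈ S, ∃ h : G, h * s * h⁻¹ ∈ T)
    (hN : ∀ k ∈ N, ∀ t ∈ T, k * t * k⁻¹ ∈ T) :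
    S.ncard * Nat.card N ≤ Nat.card G * T.ncard := by
  rw [← Nat.card_coe_set_eq, ← Nat.card_coe_set_eq, ← Nat.card_prod, ← Nat.card_prod]
  choose c hc using hS
  refine Nat.card_le_card_of_injective (fun z : S × N => ((z.2 * c z.1 z.1.2,
    ⟨z.2 * (c z.1 z.1.2 * z.1 * (c z.1 z.1.2)⁻¹) * (z.2 : G)⁻¹, hN _ z.2.2 _ (hc _ _)⟩) : G × T)) ?_
  rintro ⟨s, k⟩ ⟨t, l⟩ e
  simp only [Prod.mk.injEq, Subtype.mk.injEq] at e
  obtain ⟨e1, e2⟩ := e
  have e3 : (k * c s s.2) * s * (k * c s s.2)⁻¹ = (l * c t t.2) * t * (l * c t t.2)⁻¹ := by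
    simpa [mul_assoc] using e2
  rw [e1, mul_left_inj, mul_right_inj] at e3
  obtain rfl : s = t := Subtype.ext e3
  exact Prod.ext rfl (Subtype.ext (mul_right_cancel e1))

theorem ncard_diff_one (k : ℕ) : ({x : G | x ^ k = 1} \ {1}).ncard = ell G k - 1 := by
  rw [Set.ncard_diff_singleton_of_mem (by simp), ell_eq_ncard]

theorem ti_bound (T N : Subgroup G) (h : ∀ t ∈ T, t ≠ 1 → ∀ g : G, g * t * g⁻¹ ∈ T → g ∈ N)
    {k : ℕ} (hk : k ∣ Nat.card T) : Nat.card G * (k - 1) ≤ (ell G k - 1) * Nat.card N := by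
  have h1 := conj_count ({x : G | x ^ k = 1} \ {1})
    (Subtype.val '' ({x : T | x ^ k = 1} \ {1})) N (by
      rintro _ ⟨a, ⟨ha, ha1⟩, rfl⟩ g
      refine ⟨?_, fun h2 => ha1 (Subtype.ext ?_)⟩
      · have := conj_pow (i := k) (a := g⁻¹) (b := (a : G))
        rw [inv_inv] at this
        show _ ^ k = 1
        rw [this, ← coe_pow, ha]; simp
      · have h3 : g⁻¹ * a * g = 1 := h2
        calc (a : G) = g * (g⁻¹ * a * g) * g⁻¹ := by group
          _ = 1 := by rw [h3]; group)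
    (by
      rintro _ ⟨a, ⟨-, ha1⟩, rfl⟩ g ⟨b, -, hb⟩
      exact h a a.2 (fun h2 => ha1 (Subtype.ext h2)) g (hb ▸ b.2))
  rw [Set.ncard_image_of_injective _ Subtype.val_injective, ncard_diff_one, ncard_diff_one] at h1
  exact (Nat.mul_le_mul_left _ (Nat.sub_le_sub_right (le_ell hk) 1)).trans h1

theorem eq_one_of_proper [IsSimpleGroup G] {n : ℕ} (h : ell G n = n) {H : Subgroup G}
    (hH : H ≠ ⊤) (hn : n ∣ Nat.card H) : n = 1 := by
  have h1 : H.normalCore = ⊥ := (H.normalCore_normal.eq_bot_or_eq_top).resolve_right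
    fun h2 => hH (top_le_iff.1 (h2 ▸ H.normalCore_le))
  rw [← h, ← ell_one (G := G), ell_eq_ncard, ell_eq_ncard]
  congr 1
  ext x
  simp only [Set.mem_setOf_eq, pow_one]
  refine ⟨fun hx => ?_, fun hx => by rw [hx, one_pow]⟩
  rw [← mem_bot, ← h1]
  intro g
  exact of_subgroup h H hn _ (by rw [conj_pow, hx]; simp)

theorem prime_pow_case [IsSimpleGroup G] {p k : ℕ} (hp : p.Prime) (hn : p ^ k ∣ Nat.card G)
    (h : ell G (p ^ k) = p ^ k) : p ^ k = 1 ∨ p ^ k = Nat.card G := by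
  haveI := Fact.mk hp
  obtain ⟨H, hH⟩ := Sylow.exists_subgroup_card_pow_prime p hn
  by_cases h1 : H = ⊤
  · right; rw [← hH, h1, card_top]
  · exact Or.inl (eq_one_of_proper h h1 hH.symm.dvd)

theorem ell_sub (H : Subgroup G) (n : ℕ) : ell H n = Nat.card {x : G // x ^ n = 1 ∧ x ∈ H} :=
  Nat.card_congr ⟨fun x => ⟨x.1.1, congrArg Subtype.val x.2, x.1.2⟩,
    fun x => ⟨⟨x.1, x.2.2⟩, Subtype.ext x.2.1⟩, fun _ => rfl, fun _ => rfl⟩

theorem card_modEq_cent {r : ℕ} (hr : r.Prime) {x : G} (hx : orderOf x = r) (S : G → Prop)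
    (hS : ∀ y, S y → S (x * y * x⁻¹)) :
    Nat.card {y // S y} ≡ Nat.card {y // S y ∧ y ∈ centralizer ({x} : Set G)} [MOD r] := by
  haveI := Fact.mk hr
  have hP : IsPGroup r (zpowers x) := IsPGroup.of_card (n := 1) (by rw [Nat.card_zpowers, hx, pow_one])
  have h := H81.card_modEq_fixed hP (fun (g : zpowers x) (y : G) => (g : G) * y * (g : G)⁻¹)
    (by simp) (by simp [mul_assoc]) S (by
      rintro ⟨g, hg⟩ y hy
      obtain ⟨i, rfl⟩ := mem_powers_iff_mem_zpowers.2 hg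
      induction i with
      | zero => simpa using hy
      | succ i ih =>
        have := hS _ (ih (npow_mem_zpowers _ _))
        simpa [pow_succ', mul_assoc] using this)
  refine h.trans (Eq.subst (motive := fun n => _ ≡ n [MOD r]) ?_ rfl)
  refine Nat.card_congr (Equiv.subtypeEquivRight fun y => and_congr_right fun _ => ?_)
  rw [mem_centralizer_singleton_iff]
  constructor
  · intro h1
    exact (mul_inv_eq_iff_eq_mul.1 (h1 ⟨x, mem_zpowers x⟩)).symm
  · rintro h1 ⟨_, i, rfl⟩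
    exact mul_inv_eq_iff_eq_mul.2 ((show Commute y x from h1).symm.zpow_left i).eq

theorem ell_modEq {r : ℕ} (hr : r.Prime) {x : G} (hx : orderOf x = r) (n : ℕ) :
    ell G n ≡ ell (centralizer ({x} : Set G)) n [MOD r] := by
  rw [ell_sub]
  exact card_modEq_cent hr hx _ fun y hy => by rw [conj_pow, hy]; simp

/-- passing from `n` to `p n` -/
theorem step {p a m : ℕ} (hp : p.Prime) (hm : ¬ p ∣ m) (hd : p ^ (a + 1) * m ∣ Nat.card G)
    (h : ∀ m', p.Coprime m' → p ^ (a + 1) ∣ Nat.card {g : G // orderOf g = p ^ (a + 1) * m'}) :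
    ell G (p ^ a * m) ≠ p ^ a * m := by
  intro he
  have h1 := H81.card_add_card_not (fun x : G => x ^ (p ^ (a + 1) * m) = 1)
    (fun x => x ^ (p ^ a * m) = 1)
  have h2 : ∀ x : G, (x ^ (p ^ (a + 1) * m) = 1 ∧ x ^ (p ^ a * m) = 1) ↔ x ^ (p ^ a * m) = 1 :=
    fun x => ⟨fun h => h.2, fun h => ⟨by
      rw [pow_succ, mul_right_comm, pow_mul, h, one_pow], h⟩⟩
  simp only [h2] at h1
  have h3 : p ^ (a + 1) ∣ Nat.card {x : G // x ^ (p ^ (a + 1) * m) = 1 ∧ ¬ x ^ (p ^ a * m) = 1} := by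
    refine H81.dvd_card_of_fibers _ orderOf _ fun x hx => ?_
    obtain ⟨u, v, hu, hv, huv⟩ := (Nat.dvd_mul.1 (orderOf_dvd_of_pow_eq_one hx.1))
    obtain ⟨j, hj, rfl⟩ := (Nat.dvd_prime_pow hp).1 hu
    have hj' : j = a + 1 := by
      by_contra hne
      exact hx.2 (orderOf_dvd_iff_pow_eq_one.1 (huv ▸ Nat.mul_dvd_mul (pow_dvd_pow p (by omega)) hv))
    subst hj'
    refine (h v (((Nat.Prime.coprime_iff_not_dvd hp).2 hm).coprime_dvd_right hv)).trans
      (dvd_of_eq (Nat.card_congr (Equiv.subtypeEquivRight fun y => ?_)))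
    rw [huv]
    refine ⟨fun hy => ⟨?_, hy⟩, fun hy => hy.2⟩
    simp only [← orderOf_dvd_iff_pow_eq_one] at hx ⊢
    rw [hy]; exact hx
  have h4 : p ^ (a + 1) ∣ Nat.card {x : G // x ^ (p ^ (a + 1) * m) = 1} :=
    (Dvd.intro _ rfl).trans (H81.dvd_card_pow_eq_one hd)
  rw [← h1] at h4
  have h5 : p ^ (a + 1) ∣ p ^ a * m := he ▸ (Nat.dvd_add_left h3).1 h4
  rw [pow_succ] at h5
  exact hm (Nat.dvd_of_mul_dvd_mul_left (pow_pos hp.pos a) h5)

theorem step_odd {p a m : ℕ} [hp : Fact p.Prime] (hp2 : p ≠ 2) (P : Sylow p G)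
    (hP : ¬ IsCyclic (P : Subgroup G)) (ha : a ≠ 0) (hm : ¬ p ∣ m)
    (hd : p ^ (a + 1) * m ∣ Nat.card G) : ell G (p ^ a * m) ≠ p ^ a * m :=
  step hp.out hm hd fun m' h => S4003.result p hp2
    ((dvd_pow_self p (Nat.succ_ne_zero a)).trans ((Dvd.intro _ rfl).trans hd)) P hP _ _ (by omega) h

end Cfsg.Agent.H66.Fr
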