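import Cfsg.Agent.H66.FrobTools

/-! The number of elements of order `2 ^ s * m` when a Sylow 2-subgroup has a normal four-group. -/

set_option autoImplicit false
set_option linter.style.haveILetI false

namespace Cfsg.Agent.H66.Fr

open Subgroup
open scoped commutatorElement

theorem dvd_card_of_sylow {G : Type*} [Group G] [Finite G] (p : ℕ) [Fact p.Prime]
    (P : Sylow p G) (s m : ℕ) (hs : 1 < s) (hm : Nat.Coprime p m)
    (h6 : p ^ s ∣ Nat.card {x : (P : Subgroup G) // orderOf x = p ^ s}) :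
    p ^ s ∣ Nat.card {g : G // orderOf g = p ^ s * m} := by
  have hp : p.Prime := Fact.out
  rw [H81.card_orderOf_mul_eq_pairs (hm.pow_left s)]
  have h1 : Nat.card {z : G × G // orderOf z.1 = p ^ s ∧ orderOf z.2 = m ∧ Commute z.1 z.2} =
      Nat.card {z : G × G // orderOf z.1 = p ^ s ∧
        (orderOf z.2 = m ∧ z.2 ∈ centralizer (zpowers z.1 : Set G))} := by
    refine Nat.card_congr (Equiv.subtypeEquivRight fun z => ?_)
    refine and_congr_right fun _ => and_congr_right fun _ => ⟨fun h => ?_, fun h => ?_⟩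
    · rintro _ ⟨i, rfl⟩
      exact (h.zpow_left i).eq
    · exact h _ (mem_zpowers _)
  rw [h1, H81.card_elts_eq_card_cyclic (p ^ s)
    (fun (X : Subgroup G) (y : G) => orderOf y = m ∧ y ∈ centralizer (X : Set G))]
  have h2 := H81.card_modEq_fixed P.isPGroup'
    (fun (g : P) (z : Subgroup G × G) => (H72.cj (g : G) z.1, (g : G) * z.2 * (g : G)⁻¹))
    (fun z => by simp [H72.cj_one]) (fun g h z => by simp [H72.cj_mul, mul_assoc])
    (fun z => (IsCyclic z.1 ∧ Nat.card z.1 = p ^ s) ∧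
      (orderOf z.2 = m ∧ z.2 ∈ centralizer (z.1 : Set G))) (by
      rintro g ⟨X, y⟩ ⟨⟨h1, h2⟩, h3, h4⟩
      refine ⟨⟨?_, (H72.card_cj _ _).trans h2⟩,
        ((MulAut.conj (g : G)).orderOf_eq y).trans h3, ?_⟩
      · exact isCyclic_of_surjective _ (X.equivMapOfInjective _
          (MulAut.conj (g : G)).injective).surjective
      · rw [← H72.cj_centralizer]
        exact H72.conj_mem_cj h4)
  have h3 := H81.card_modEq_fixed P.isPGroup'
    (fun (g : P) (z : Subgroup G × Unit) => (H72.cj (g : G) z.1, z.2))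
    (fun z => by simp [H72.cj_one]) (fun g h z => by simp [H72.cj_mul])
    (fun z => (IsCyclic z.1 ∧ Nat.card z.1 = p ^ s) ∧ z.1 ≤ P) (by
      rintro g ⟨X, y⟩ ⟨⟨h1, h2⟩, h3⟩
      refine ⟨⟨?_, (H72.card_cj _ _).trans h2⟩, H72.cj_le_of_mem g.2 h3⟩
      exact isCyclic_of_surjective _ (X.equivMapOfInjective _
          (MulAut.conj (g : G)).injective).surjective)
  have h4 := H81.card_elts_eq_card_cyclic (G := G) (β := Unit) (p ^ s) (fun X _ => X ≤ P)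
  have h5 : Nat.card {z : G × Unit // orderOf z.1 = p ^ s ∧ zpowers z.1 ≤ P} =
      Nat.card {x : (P : Subgroup G) // orderOf x = p ^ s} :=
    Nat.card_congr ⟨fun z => ⟨⟨z.1.1, zpowers_le.1 z.2.2⟩, by
        rw [Subgroup.orderOf_mk, z.2.1]⟩,
      fun x => ⟨(x.1.1, ()), by rw [Subgroup.orderOf_coe, x.2], zpowers_le.2 x.1.2⟩,
      fun _ => rfl, fun _ => rfl⟩
  rw [← h5, h4] at h6
  obtain ⟨t, rfl⟩ : ∃ t, s = t + 1 := ⟨s - 1, by omega⟩
  rw [Nat.totient_prime_pow_succ hp] at h6 ⊢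
  rw [pow_succ, mul_left_comm] at h6 ⊢
  refine Nat.mul_dvd_mul_left _ (Dvd.dvd.mul_right ?_ _)
  have h7 := (hp.dvd_mul.1 (Nat.dvd_of_mul_dvd_mul_left (pow_pos hp.pos t) h6)).resolve_right
    (fun h => by
      have := Nat.le_of_dvd (by have := hp.two_le; omega) h
      have := hp.pos
      omega)
  rw [← pow_succ] at h7 ⊢
  have h8 := (h3.dvd_iff (dvd_refl p)).1 h7
  refine (h2.dvd_iff (dvd_refl p)).2 ?_
  have h9 : ∀ X : Subgroup G, Nat.card X = p ^ (t + 1) → (∀ g : P, H72.cj (g : G) X = X) →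
      X ≤ P := fun X hX h => by
    have := P.is_maximal' (P.isPGroup'.to_sup_of_normal_right' (IsPGroup.of_card hX)
      (fun g hg => H72.cj_eq_iff.1 (h ⟨g, hg⟩))) le_sup_left
    exact this ▸ le_sup_right
  refine h8.trans (Dvd.intro (Nat.card {y : G // orderOf y = m ∧
    y ∈ centralizer ((P : Subgroup G) : Set G)}) ?_)
  rw [← Nat.card_prod]
  refine Nat.card_congr ⟨fun z => ⟨(z.1.1.1, z.2.1), ⟨z.1.2.1.1, z.2.2.1,
      centralizer_le (by exact z.1.2.1.2) z.2.2.2⟩, fun g => Prod.ext (Prod.ext_iff.1 (z.1.2.2 g)).1 ?_⟩,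
    fun z => ⟨⟨(z.1.1, ()), ⟨z.2.1.1, h9 _ z.2.1.1.2 fun g => (Prod.ext_iff.1 (z.2.2 g)).1⟩,
      fun g => Prod.ext (Prod.ext_iff.1 (z.2.2 g)).1 rfl⟩, ⟨z.1.2, z.2.1.2.1, fun g hg => ?_⟩⟩,
    fun _ => rfl, fun _ => rfl⟩
  · exact mul_inv_eq_iff_eq_mul.2 (z.2.2.2 g g.2)
  · exact mul_inv_eq_iff_eq_mul.1 (Prod.ext_iff.1 (z.2.2 ⟨g, hg⟩)).2

variable {G : Type*} [Group G] [Finite G]

theorem mul_sq_of_four (hG : IsPGroup 2 G) {A : Subgroup G} [A.Normal] (hAp : ∀ a ∈ A, a ^ 2 = 1)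
    (hA : Nat.card A = 2 ^ 2) (x : G) {a : G} (ha : a ∈ A) :
    (∃ c ∈ A, (x * a) ^ 2 = x ^ 2 * c) ∧ (x * a) ^ 4 = x ^ 4 := by
  haveI : Fact (Nat.Prime 2) := ⟨Nat.prime_two⟩
  have hA1 : A ≠ ⊥ := by
    rintro rfl
    rw [card_bot] at hA
    norm_num at hA
  have hn : ∀ B : Subgroup G, B.Normal → (⊤ : Subgroup G) ≤ normalizer (B : Set G) :=
    fun B _ => by rw [normalizer_eq_top]
  have h1 := H1.commutator_lt_of_pgroup (hG.to_subgroup A) (hG.to_subgroup ⊤) (hn A ‹_›) hA1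
  have h2 := H50.mul_card_le_of_lt (hG.to_subgroup A) h1
  rw [hA, pow_two] at h2
  have h3 := H50.cent_of_card_le_p (hG.to_subgroup ⊤) (hG.to_subgroup ⁅A, ⊤⁆)
    (hn _ inferInstance) (Nat.le_of_mul_le_mul_left h2 two_pos)
  have hc : ⁅a, x⁆ ∈ ⁅A, (⊤ : Subgroup G)⁆ := commutator_mem_commutator ha (mem_top x)
  have h4 := H3.mul_pow_of_commute_commutator (h3 (mem_top x) _ hc).symm (h3 (mem_top a) _ hc).symm
  constructor
  · refine ⟨⁅a, x⁆, h1.le hc, ?_⟩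
    rw [h4, hAp a ha, mul_one, show Nat.choose 2 2 = 1 from rfl, pow_one]
    exact h3 (mem_top (x ^ 2)) _ hc
  · rw [h4, show a ^ 4 = (a ^ 2) ^ 2 by rw [← pow_mul], hAp a ha, show Nat.choose 4 2 = 2 * 3 from rfl,
      pow_mul, hAp _ (h1.le hc)]
    simp

theorem two_pow_dvd_card (hG : IsPGroup 2 G) {A : Subgroup G} [A.Normal]
    (hAp : ∀ a ∈ A, a ^ 2 = 1) (hA : Nat.card A = 2 ^ 2) (t : ℕ) :
    2 ^ (t + 3) ∣ Nat.card {x : G // orderOf x = 2 ^ (t + 3)} := by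
  haveI : Fact (Nat.Prime 2) := ⟨Nat.prime_two⟩
  have hx2 : ∀ x : G, orderOf x = 2 ^ (t + 3) → orderOf (x ^ 2) = 2 ^ (t + 2) := fun x hx => by
    rw [orderOf_pow_of_dvd two_ne_zero (hx ▸ dvd_pow_self 2 (by omega)), hx, pow_succ,
      Nat.mul_div_cancel _ two_pos]
  have hx4 : ∀ x : G, orderOf x = 2 ^ (t + 3) → orderOf (x ^ 4) = 2 ^ (t + 1) := fun x hx => by
    have e : 2 ^ (t + 3) = 2 ^ (t + 1) * 4 := by ring
    rw [orderOf_pow_of_dvd four_ne_zero (by rw [hx, e]; exact Dvd.intro_left _ rfl), hx, e,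
      Nat.mul_div_cancel _ four_pos]
  have key0 : ∀ x y : G, orderOf x = 2 ^ (t + 3) → x⁻¹ * y ∈ zpowers (x ^ 2) ⊔ A →
      orderOf y = 2 ^ (t + 3) ∧ zpowers (y ^ 2) ⊔ A = zpowers (x ^ 2) ⊔ A := by
    intro x y hx hy
    rw [← SetLike.mem_coe, mul_normal] at hy
    obtain ⟨_, hu, a, ha, h1⟩ := hy
    obtain ⟨j, rfl⟩ := mem_powers_iff_mem_zpowers.2 hu
    have h2 : y = x ^ (1 + 2 * j) * a := by
      rw [pow_add, pow_one, pow_mul, mul_assoc]
      exact (inv_mul_eq_iff_eq_mul.1 h1.symm)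
    obtain ⟨⟨c, hc, h3⟩, h3'⟩ := mul_sq_of_four hG hAp hA (x ^ (1 + 2 * j)) ha
    rw [← h2, ← pow_mul, mul_comm, pow_mul] at h3 h3'
    have h4 : orderOf (y ^ 4) = 2 ^ (t + 1) := by
      rw [h3', Nat.Coprime.orderOf_pow, hx4 x hx]
      rw [hx4 x hx]
      exact Nat.Coprime.pow_left _ (by simp)
    refine ⟨orderOf_eq_prime_pow (fun h => ?_) ?_, ?_⟩
    · rw [show 2 ^ (t + 2) = 4 * 2 ^ t by ring, pow_mul, ← orderOf_dvd_iff_pow_eq_one, h4] at h
      have := (Nat.pow_dvd_pow_iff_le_right one_lt_two).1 h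
      omega
    · rw [show 2 ^ (t + 2 + 1) = 4 * 2 ^ (t + 1) by ring, pow_mul, ← h4, pow_orderOf_eq_one]
    · have h5 : zpowers ((x ^ 2) ^ (1 + 2 * j)) = zpowers (x ^ 2) := by
        refine eq_of_le_of_card_ge (zpowers_le.2 (npow_mem_zpowers _ _)) ?_
        rw [Nat.card_zpowers, Nat.card_zpowers]
        refine (Nat.Coprime.orderOf_pow ?_).ge
        rw [hx2 x hx]
        exact Nat.Coprime.pow_left _ (by simp)
      apply le_antisymm
      · refine sup_le (zpowers_le.2 ?_) le_sup_right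
        rw [h3]
        exact mul_mem (mem_sup_left (npow_mem_zpowers _ _)) (mem_sup_right hc)
      · refine sup_le ?_ le_sup_right
        rw [← h5, zpowers_le, ← mul_inv_eq_iff_eq_mul.2 h3]
        exact mul_mem (mem_sup_left (mem_zpowers _)) (mem_sup_right (inv_mem hc))
  refine H81.dvd_card_of_fibers (fun x : G => orderOf x = 2 ^ (t + 3))
    (fun x => {y | x⁻¹ * y ∈ zpowers (x ^ 2) ⊔ A}) _ fun x hx => ?_
  have h1 : Nat.card {y : G // orderOf y = 2 ^ (t + 3) ∧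
      {z | y⁻¹ * z ∈ zpowers (y ^ 2) ⊔ A} = {z | x⁻¹ * z ∈ zpowers (x ^ 2) ⊔ A}} =
      Nat.card ↥(zpowers (x ^ 2) ⊔ A) := by
    refine Nat.card_congr ⟨fun y => ⟨x⁻¹ * y.1, ?_⟩, fun k => ⟨x * k.1, ?_⟩, fun y => ?_,
      fun k => ?_⟩
    · have : y.1 ∈ {z | y.1⁻¹ * z ∈ zpowers (y.1 ^ 2) ⊔ A} := by
        show _ ∈ _ ⊔ A
        rw [inv_mul_cancel]
        exact one_mem _
      rw [y.2.2] at this
      exact this
    · obtain ⟨h2, h3⟩ := key0 x (x * k.1) hx (by rw [inv_mul_cancel_left]; exact k.2)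
      refine ⟨h2, ?_⟩
      ext z
      simp only [Set.mem_ofPred_eq, h3, mul_inv_rev, mul_assoc]
      exact mul_mem_cancel_left (inv_mem k.2)
    · exact Subtype.ext (mul_inv_cancel_left _ _)
    · exact Subtype.ext (inv_mul_cancel_left _ _)
  rw [h1]
  have h2 := H21.card_sup_mul_card_inf (X := A) (Y := zpowers (x ^ 2))
    (by rw [normalizer_eq_top]; exact le_top)
  have h3 : Nat.card ↥(A ⊓ zpowers (x ^ 2)) ∣ 2 := by
    have : IsCyclic ↥(A ⊓ zpowers (x ^ 2)) := Subgroup.isCyclic_of_le inf_le_right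
    rw [← IsCyclic.exponent_eq_card]
    exact Monoid.exponent_dvd_of_forall_pow_eq_one fun g => Subtype.ext (hAp _ g.2.1)
  rw [hA, Nat.card_zpowers, hx2 x hx, sup_comm] at h2
  obtain ⟨c, hc⟩ := h3
  refine ⟨c, Nat.eq_of_mul_eq_mul_right (Nat.card_pos (α := ↥(A ⊓ zpowers (x ^ 2)))) ?_⟩
  rw [h2, mul_assoc, mul_comm c, ← hc]
  ring

theorem step_two (h : ¬ Cfsg.PRankLE 2 2 G) {a m : ℕ} (ha : 2 ≤ a) (hm : ¬ 2 ∣ m)
    (hd : 2 ^ (a + 1) * m ∣ Nat.card G) : ell G (2 ^ a * m) ≠ 2 ^ a * m := by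
  haveI : Fact (Nat.Prime 2) := ⟨Nat.prime_two⟩
  simp only [Cfsg.PRankLE, not_forall, not_le] at h
  obtain ⟨E, h1, h2, h3⟩ := h
  have hE : IsPGroup 2 E := fun g => ⟨1, Subtype.ext (by simpa using h2 g g.2)⟩
  obtain ⟨P, hP⟩ := hE.exists_le_sylow
  obtain ⟨A, hAn, hA, hAc⟩ := H46.exists_normal_four P.isPGroup' (A := E.subgroupOf P)
    ⟨inferInstance, fun a ha => Subtype.ext (h2 a ha)⟩ (by rwa [H2.card_subgroupOf_of_le hP])
  obtain ⟨t, rfl⟩ : ∃ t, a = t + 2 := ⟨a - 2, by omega⟩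
  exact step Nat.prime_two hm hd fun m' hm' => dvd_card_of_sylow 2 P _ _ (by omega) hm'
    (two_pow_dvd_card P.isPGroup' hA.2 hAc t)

end Cfsg.Agent.H66.Fr
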