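import Cfsg.Agent.H66.OrthCnt
import Cfsg.Agent.H27.SkHInst

/-!
The symplectic group of the polar form of a quadratic form in characteristic two: the unipotent
radicals of the point stabilisers and the possible types of their intersection with a subgroup.
-/

set_option autoImplicit false
set_option linter.unusedSectionVars false

namespace Cfsg.Agent.H66

open Module QuadraticMap Cfsg.Agent.H11 Classical

variable {F V : Type*} [Field F] [AddCommGroup V] [Module F V] {Q : QuadraticForm F V}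

/-- The isometry group of the polar form. -/
abbrev SpQ (Q : QuadraticForm F V) : Subgroup (V ≃ₗ[F] V) :=
  H27.Iso (σ := RingHom.id F) (polarBilin Q)

def aq (g : SpQ Q) (x : V) : V := g.1 x

theorem aq_one (x : V) : aq (1 : SpQ Q) x = x := rfl
theorem aq_mul (g h : SpQ Q) (x : V) : aq (g * h) x = aq g (aq h x) := rfl
theorem aq_add (g : SpQ Q) (x y : V) : aq g (x + y) = aq g x + aq g y := map_add g.1 x y
theorem aq_smul (g : SpQ Q) (c : F) (x : V) : aq g (c • x) = c • aq g x := map_smul g.1 c x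
theorem aq_zero (g : SpQ Q) : aq g 0 = 0 := map_zero g.1
theorem aq_inv_aq (g : SpQ Q) (x : V) : aq g⁻¹ (aq g x) = x := by
  rw [← aq_mul, inv_mul_cancel, aq_one]
theorem aq_aq_inv (g : SpQ Q) (x : V) : aq g (aq g⁻¹ x) = x := by
  rw [← aq_mul, mul_inv_cancel, aq_one]
theorem aq_injective (g : SpQ Q) : Function.Injective (aq g) := g.1.injective
theorem aq_ne_zero (g : SpQ Q) {x : V} (h : x ≠ 0) : aq g x ≠ 0 :=
  fun h' => h (aq_injective g (by rw [h', aq_zero]))
theorem polar_aq (g : SpQ Q) (x y : V) : polar Q (aq g x) (aq g y) = polar Q x y := g.2 x y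
theorem polar_aq_left (g : SpQ Q) (x y : V) : polar Q (aq g x) y = polar Q x (aq g⁻¹ y) := by
  rw [← polar_aq g x, aq_aq_inv]
theorem SpQ_ext {g h : SpQ Q} (e : ∀ x, aq g x = aq h x) : g = h :=
  Subtype.ext (LinearEquiv.ext e)

theorem mem_span_aq {g : SpQ Q} {x v : V} :
    aq g x ∈ Submodule.span F {aq g v} ↔ x ∈ Submodule.span F {v} := by
  simp only [Submodule.mem_span_singleton]
  refine exists_congr fun c => ?_
  rw [← aq_smul, (aq_injective g).eq_iff]

def mkSp (f g : V →ₗ[F] V) (h1 : ∀ x, f (g x) = x) (h2 : ∀ x, g (f x) = x)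
    (h : ∀ x y, polar Q (f x) (f y) = polar Q x y) : SpQ Q :=
  ⟨LinearEquiv.ofLinearMap f g (LinearMap.ext h1) (LinearMap.ext h2), h⟩

variable [CharP F 2]

theorem polar_self2 (x : V) : polar Q x x = 0 := by rw [polar_self']; grind

theorem add_self2 (F : Type*) [Field F] [CharP F 2] [Module F V] (x : V) : x + x = 0 := by
  rw [← two_smul F, show (2 : F) = 0 by grind, zero_smul]

def esLin (Q : QuadraticForm F V) (v x : V) (t : F) : V →ₗ[F] V :=
  LinearMap.id + (polarBilin Q v).smulRight x + (polarBilin Q x + t • polarBilin Q v).smulRight v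

omit [CharP F 2] in
theorem esLin_apply (v x : V) (t : F) (z : V) :
    esLin Q v x t z = z + polar Q v z • x + (polar Q x z + t * polar Q v z) • v := rfl

theorem esLin_esLin {v x : V} (h : polar Q v x = 0) (t : F) (z : V) :
    esLin Q v x t (esLin Q v x t z) = z := by
  simp only [esLin_apply]
  qsimp
  rw [h, polar_comm Q x v, h]
  match_scalars <;> grind

/-- The element `z ↦ z + B(v,z) x + (B(x,z) + t B(v,z)) v`. -/
noncomputable def Es (Q : QuadraticForm F V) (v x : V) (t : F) : SpQ Q :=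
  if h : polar Q v x = 0 then mkSp (esLin Q v x t) (esLin Q v x t) (esLin_esLin h t)
    (esLin_esLin h t) fun a b => by
      simp only [esLin_apply]
      qsimp
      rw [h, polar_comm Q x v, h, polar_comm Q a x, polar_comm Q a v]
      grind
  else 1

theorem aq_Es {v x : V} (h : polar Q v x = 0) (t : F) (z : V) :
    aq (Es Q v x t) z = z + polar Q v z • x + (polar Q x z + t * polar Q v z) • v := by
  rw [Es, dif_pos h]; rfl

theorem aq_tv (v : V) (t : F) (z : V) : aq (Es Q v 0 t) z = z + (t * polar Q v z) • v := by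
  rw [aq_Es (polar_zero_right _ _), smul_zero, add_zero, polar_zero_left, zero_add]

theorem aq_Es_fix {v x z : V} (h : polar Q v x = 0) (t : F) (h1 : polar Q v z = 0)
    (h2 : polar Q x z = 0) : aq (Es Q v x t) z = z := by
  rw [aq_Es h, h1, h2]; simp

theorem Es_mul {v x y : V} (hx : polar Q v x = 0) (hy : polar Q v y = 0) (t s : F) :
    Es Q v x t * Es Q v y s = Es Q v (x + y) (t + s + polar Q x y) := SpQ_ext fun z => by
  rw [aq_mul, aq_Es hx, aq_Es hy, aq_Es (by rw [polar_add_right, hx, hy, add_zero])]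
  qsimp
  rw [hy, polar_comm Q x v, hx]
  match_scalars <;> grind

theorem Es_zero (v : V) : Es Q v 0 0 = 1 := SpQ_ext fun z => by rw [aq_tv]; simp [aq_one]

theorem Es_mul_self {v x : V} (hx : polar Q v x = 0) (t : F) : Es Q v x t * Es Q v x t = 1 := by
  rw [Es_mul hx hx, add_self2 F, polar_self2, show t + t + 0 = 0 by grind, Es_zero]

theorem Es_conj (g : SpQ Q) {v x : V} (hx : polar Q v x = 0) (t : F) :
    g * Es Q v x t = Es Q (aq g v) (aq g x) t * g := SpQ_ext fun z => by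
  rw [aq_mul, aq_mul, aq_Es hx, aq_Es (by rw [polar_aq, hx]), aq_add, aq_add, aq_smul, aq_smul,
    polar_aq, polar_aq]

theorem Es_smul {v x : V} (hx : polar Q v x = 0) (c t : F) :
    Es Q (c • v) x t = Es Q v (c • x) (c * c * t) := SpQ_ext fun z => by
  rw [aq_Es (by rw [polar_smul_left', hx, mul_zero]), aq_Es (by rw [polar_smul_right', hx, mul_zero])]
  qsimp
  match_scalars <;> grind

theorem Es_add_self {v x : V} (hx : polar Q v x = 0) (c t : F) :
    Es Q v (x + c • v) t = Es Q v x t := SpQ_ext fun z => by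
  rw [aq_Es hx, aq_Es (by rw [polar_add_right, polar_smul_right', hx, polar_self2]; simp)]
  qsimp
  match_scalars <;> grind

theorem Es_swap {v x : V} (hx : polar Q v x = 0) : Es Q x v 0 = Es Q v x 0 := SpQ_ext fun z => by
  rw [aq_Es hx, aq_Es (by rwa [polar_comm])]
  match_scalars <;> grind

def torLin (Q : QuadraticForm F V) (e f : V) (c : F) : V →ₗ[F] V :=
  LinearMap.id + ((c + 1) • polarBilin Q f).smulRight e + ((c⁻¹ + 1) • polarBilin Q e).smulRight f

omit [CharP F 2] in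
theorem torLin_apply (e f : V) (c : F) (z : V) :
    torLin Q e f c z = z + ((c + 1) * polar Q f z) • e + ((c⁻¹ + 1) * polar Q e z) • f := rfl

theorem torLin_torLin {e f : V} (h : polar Q e f = 1) {c d : F} (hc : c * d = 1) (z : V) :
    torLin Q e f c (torLin Q e f d z) = z := by
  simp only [torLin_apply]
  qsimp
  rw [h, polar_comm Q f e, h]
  have h1 := eq_inv_of_mul_eq_one_left hc
  have h2 := eq_inv_of_mul_eq_one_right hc
  rw [← h1, ← h2]
  match_scalars <;> grind

/-- There is an isometry `e ↦ c e`, `f ↦ c⁻¹ f` fixing the vectors orthogonal to `e` and `f`. -/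
theorem exists_tor {e f : V} (h : polar Q e f = 1) {c : F} (hc : c ≠ 0) : ∃ g : SpQ Q,
    aq g e = c • e ∧ aq g f = c⁻¹ • f ∧ ∀ z, polar Q e z = 0 → polar Q f z = 0 → aq g z = z := by
  refine ⟨mkSp (torLin Q e f c) (torLin Q e f c⁻¹) (torLin_torLin h (mul_inv_cancel₀ hc))
    (torLin_torLin h (inv_mul_cancel₀ hc)) fun a b => ?_, ?_, ?_, fun z h1 h2 => ?_⟩
  · simp only [torLin_apply]
    qsimp
    rw [h, polar_comm Q f e, h, polar_comm Q a e, polar_comm Q a f]
    have := mul_inv_cancel₀ hc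
    grind
  · show torLin Q e f c e = _
    rw [torLin_apply, polar_comm, h, polar_self2]
    match_scalars <;> grind
  · show torLin Q e f c f = _
    rw [torLin_apply, h, polar_self2]
    match_scalars <;> grind
  · show torLin Q e f c z = _
    rw [torLin_apply, h1, h2]; simp

theorem trans_of_tv (hQ : ND Q) (P : V → Prop)
    (h : ∀ y d (a : F), P y → P (y + (a * polar Q d y) • d)) {y y' : V} (hy : y ≠ 0) (hy' : y' ≠ 0)
    (hP : P y) : P y' := by
  have one : ∀ y y', polar Q y y' ≠ 0 → P y → P y' := fun y y' h0 hP => by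
    have := h y (y + y') (polar Q y y')⁻¹ hP
    rwa [polar_add_left, polar_self2, zero_add, polar_comm Q y', inv_mul_cancel₀ h0, one_smul,
      ← add_assoc, add_self2 F, zero_add] at this
  obtain ⟨z, h1, h2⟩ := hQ.exists_both_ne hy hy'
  exact one z y' (by rwa [polar_comm]) (one y z h1 hP)

theorem SpQ_trans (hQ : ND Q) {y y' : V} (hy : y ≠ 0) (hy' : y' ≠ 0) :
    ∃ g : SpQ Q, aq g y = y' :=
  trans_of_tv hQ (fun z => ∃ g : SpQ Q, aq g y = z) (by
    rintro _ d a ⟨g, rfl⟩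
    exact ⟨Es Q d 0 a * g, by rw [aq_mul, aq_tv]⟩) hy hy' ⟨1, rfl⟩

variable {Ω : Type*} [MulAction (SpQ Q) Ω]

/-- The element `Es v x t` fixes `ω`. -/
def Fs (Q : QuadraticForm F V) {Ω : Type*} [MulAction (SpQ Q) Ω] (ω : Ω) (v x : V) (t : F) : Prop :=
  polar Q v x = 0 ∧ Es Q v x t • ω = ω

variable {ω : Ω} {v x y : V} {t s : F}

theorem Fs.map (h : Fs Q ω v x t) (g : SpQ Q) : Fs Q (g • ω) (aq g v) (aq g x) t :=
  ⟨by rw [polar_aq, h.1], by rw [← mul_smul, ← Es_conj g h.1, mul_smul, h.2]⟩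

theorem Fs.map_fix (h : Fs Q ω v x t) {g : SpQ Q} (hg : g • ω = ω) :
    Fs Q ω (aq g v) (aq g x) t := by
  have := h.map g
  rwa [hg] at this

theorem fs_map_iff (g : SpQ Q) : Fs Q (g • ω) (aq g v) x t ↔ Fs Q ω v (aq g⁻¹ x) t := by
  constructor
  · intro h
    have := h.map g⁻¹
    rwa [inv_smul_smul, aq_inv_aq] at this
  · intro h
    have := h.map g
    rwa [aq_aq_inv] at this

theorem Fs.mul (h : Fs Q ω v x t) (h' : Fs Q ω v y s) :
    Fs Q ω v (x + y) (t + s + polar Q x y) :=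
  ⟨by rw [polar_add_right, h.1, h'.1, add_zero], by rw [← Es_mul h.1 h'.1, mul_smul, h'.2, h.2]⟩

theorem Fs.congr (h : Fs Q ω v x t) (e1 : x = y) (e2 : t = s) : Fs Q ω v y s := e1 ▸ e2 ▸ h

theorem Fs.cancel (h : Fs Q ω v x t) (h' : Fs Q ω v x s) : Fs Q ω v 0 (t + s) :=
  (h.mul h').congr (add_self2 F x) (by rw [polar_self2, add_zero])

theorem Fs.add_tv (h : Fs Q ω v x t) (h' : Fs Q ω v 0 s) : Fs Q ω v x (t + s) :=
  (h.mul h').congr (add_zero x) (by rw [polar_zero_right, add_zero])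

theorem fs_zero : Fs Q ω v 0 0 := ⟨polar_zero_right _ _, by rw [Es_zero, one_smul]⟩

theorem Fs.swap (h : Fs Q ω v x 0) : Fs Q ω x v 0 :=
  ⟨by rw [polar_comm, h.1], by rw [Es_swap h.1, h.2]⟩

theorem Fs.add_self (h : Fs Q ω v x t) (c : F) : Fs Q ω v (x + c • v) t :=
  ⟨by rw [polar_add_right, h.1, polar_smul_right', polar_self2]; simp,
    by rw [Es_add_self h.1, h.2]⟩

theorem Fs.of_add_self {c : F} (h : Fs Q ω v (x + c • v) t) : Fs Q ω v x t :=
  (h.add_self c).congr (by rw [add_assoc, add_self2 F, add_zero]) rfl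

theorem Fs.smul_left {c : F} (hx : polar Q v x = 0) (h : Fs Q ω v (c • x) (c * c * t)) :
    Fs Q ω (c • v) x t := ⟨by rw [polar_smul_left', hx, mul_zero], by rw [Es_smul hx, h.2]⟩

theorem Fs.smul_right {c : F} (hx : polar Q v x = 0) (h : Fs Q ω (c • v) x t) :
    Fs Q ω v (c • x) (c * c * t) :=
  ⟨by rw [polar_smul_right', hx, mul_zero], by rw [← Es_smul hx, h.2]⟩

theorem Fs.swap_smul (h : ∀ c : F, Fs Q ω v (c • x) 0) (c : F) : Fs Q ω x (c • v) 0 := by
  have h1 := (h 1).1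
  rw [one_smul] at h1
  exact (Fs.smul_left h1 (t := 0) (by rw [mul_zero]; exact h c)).swap

/-- All transvections with centre `v` fix `ω`. -/
def As (Q : QuadraticForm F V) {Ω : Type*} [MulAction (SpQ Q) Ω] (ω : Ω) (v : V) : Prop :=
  ∀ t, Fs Q ω v 0 t

def S0 (Q : QuadraticForm F V) {Ω : Type*} [MulAction (SpQ Q) Ω] (ω : Ω) (v : V) : Prop :=
  ∀ x t, polar Q v x = 0 → Fs Q ω v x t

def S1 (Q : QuadraticForm F V) {Ω : Type*} [MulAction (SpQ Q) Ω] (ω : Ω) (v : V) : Prop :=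
  ∃ z, polar Q v z = 0 ∧ ∀ x t, polar Q v x = 0 → polar Q z x = 0 → Fs Q ω v x t

def SZ (Q : QuadraticForm F V) {Ω : Type*} [MulAction (SpQ Q) Ω] (ω : Ω) (v : V) : Prop :=
  As Q ω v ∧ ∀ x t, Fs Q ω v x t → x ∈ Submodule.span F {v}

def S4 (Q : QuadraticForm F V) {Ω : Type*} [MulAction (SpQ Q) Ω] (ω : Ω) (v : V) : Prop :=
  ∀ x t, Fs Q ω v x t → x ∈ Submodule.span F {v} ∧ t = 0

def SQ (Q : QuadraticForm F V) {Ω : Type*} [MulAction (SpQ Q) Ω] (ω : Ω) (v : V) : Prop :=
  ∀ x, polar Q v x = 0 → ∃ t, Fs Q ω v x t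

def SL (Q : QuadraticForm F V) {Ω : Type*} [MulAction (SpQ Q) Ω] (ω : Ω) (v : V) : Prop :=
  (∃ y, y ∉ Submodule.span F {v} ∧ ∀ c : F, Fs Q ω v (c • y) 0) ∧ ¬ SQ Q ω v

theorem As.map (h : As Q ω v) (g : SpQ Q) : As Q (g • ω) (aq g v) := fun t =>
  ((h t).map g).congr (aq_zero g) rfl

theorem S0.map (h : S0 Q ω v) (g : SpQ Q) : S0 Q (g • ω) (aq g v) := fun x t hx =>
  (fs_map_iff g).2 (h _ _ (by rwa [← polar_aq_left]))

theorem S1.map (h : S1 Q ω v) (g : SpQ Q) : S1 Q (g • ω) (aq g v) := by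
  obtain ⟨z, h1, h2⟩ := h
  exact ⟨aq g z, by rwa [polar_aq], fun x t hx hz =>
    (fs_map_iff g).2 (h2 _ _ (by rwa [← polar_aq_left]) (by rwa [← polar_aq_left]))⟩

theorem SZ.map (h : SZ Q ω v) (g : SpQ Q) : SZ Q (g • ω) (aq g v) :=
  ⟨h.1.map g, fun x t hx => by
    have := h.2 _ _ ((fs_map_iff g).1 hx)
    rwa [← mem_span_aq (g := g), aq_aq_inv] at this⟩

theorem S4.map (h : S4 Q ω v) (g : SpQ Q) : S4 Q (g • ω) (aq g v) := fun x t hx => by
  have := h _ _ ((fs_map_iff g).1 hx)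
  rwa [← mem_span_aq (g := g), aq_aq_inv] at this

theorem SQ.map (h : SQ Q ω v) (g : SpQ Q) : SQ Q (g • ω) (aq g v) := fun x hx =>
  (h (aq g⁻¹ x) (by rwa [← polar_aq_left])).imp fun _ h => (fs_map_iff g).2 h

theorem SL.map (h : SL Q ω v) (g : SpQ Q) : SL Q (g • ω) (aq g v) := by
  obtain ⟨⟨y, h1, h2⟩, h3⟩ := h
  refine ⟨⟨aq g y, by rwa [mem_span_aq], fun c => ((h2 c).map g).congr (aq_smul g c y) rfl⟩,
    fun h => h3 ?_⟩
  have := h.map g⁻¹
  rwa [inv_smul_smul, aq_inv_aq] at this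

theorem As.smul (h : As Q ω v) (c : F) : As Q ω (c • v) := fun t =>
  Fs.smul_left (polar_zero_right _ _) (by rw [smul_zero]; exact h _)

theorem As.move (h : As Q ω v) (h' : As Q ω x) (c : F) : As Q ω (x + (c * polar Q v x) • v) := by
  have := h'.map (Es Q v 0 c)
  rwa [(h c).2, aq_tv] at this

theorem S0.as (h : S0 Q ω v) : As Q ω v := fun t => h 0 t (polar_zero_right _ _)

theorem S1.as (h : S1 Q ω v) : As Q ω v := fun t =>
  h.choose_spec.2 0 t (polar_zero_right _ _) (polar_zero_right _ _)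

theorem S0.smul (h : S0 Q ω v) {c : F} (hc : c ≠ 0) : S0 Q ω (c • v) := fun x t hx => by
  have h1 : polar Q v x = 0 := by simpa [polar_smul_left', hc] using hx
  exact Fs.smul_left h1 (h _ _ (by rw [polar_smul_right', h1, mul_zero]))

theorem As.s0 (h : As Q ω v) (h' : SQ Q ω v) : S0 Q ω v := fun x t hx => by
  obtain ⟨s, hs⟩ := h' x hx
  exact (hs.add_tv (h (s + t))).congr rfl (by grind)

theorem smul_eq_of_as [FiniteDimensional F V] (hQ : ND Q) (h : ∀ v, v ≠ 0 → As Q ω v)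
    (g : SpQ Q) : g • ω = ω := by
  have := H27.iso_le_of_alt (B := polarBilin Q) polar_self2 hQ
    ((MulAction.stabilizer (SpQ Q) ω).map (SpQ Q).subtype) (fun v c => by
      by_cases hv : v = 0
      · exact ⟨1, Subgroup.one_mem _, fun x => by simp [hv]⟩
      · exact ⟨_, ⟨Es Q v 0 c, (h v hv c).2, rfl⟩, fun x => aq_tv v c x⟩) g.2
  obtain ⟨k, hk, e⟩ := this
  exact Subtype.ext e ▸ hk

theorem all_of_one (hQ : ND Q) (P : Ω → V → Prop)
    (hP : ∀ ω v (g : SpQ Q), P ω v → P (g • ω) (aq g v)) {u : V} (hu : u ≠ 0) (h : ∀ ω, P ω u)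
    (ω : Ω) (v : V) (hv : v ≠ 0) : P ω v := by
  obtain ⟨g, e⟩ := SpQ_trans hQ hu hv
  have := hP _ _ g (h (g⁻¹ • ω))
  rwa [smul_inv_smul, e] at this

end Cfsg.Agent.H66
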