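import Cfsg.Agent.H66.SpRad

/-!
Counting with the annihilators for symplectic groups in characteristic two.
-/

set_option autoImplicit false
set_option linter.unusedSectionVars false

namespace Cfsg.Agent.H66

open Module QuadraticMap Cfsg.Agent.H11 Classical

section Forms

universe u

variable {F : Type*} [Field F] [CharP F 2] [Finite F]

theorem zero_bound (n : ℕ) : ∀ (V : Type u) [AddCommGroup V] [Module F V] [FiniteDimensional F V]
    (Q : QuadraticForm F V), ND Q → finrank F V = n → ∃ k, n = 2 * k ∧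
      (Nat.card F ^ k) ^ 2 ≤ Nat.card F * cnt Q 0 + (Nat.card F - 1) * Nat.card F ^ k := by
  induction n using Nat.strong_induction_on with
  | _ n ih =>
  intro V _ _ _ Q hQ hn
  have : Finite V := Module.finite_of_finite F
  obtain ⟨r, hr⟩ : ∃ k, Nat.card F = k + 1 := ⟨_, (Nat.sub_add_cancel Nat.card_pos).symm⟩
  by_cases h : ∃ u, Q u = 0 ∧ u ≠ 0
  · obtain ⟨u, hu, hu0⟩ := h
    obtain ⟨w, hw, huw⟩ := hQ.exists_partner hu hu0
    let S := hypSplit hu hw huw
    have hd := S.finrank_eq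
    have : Finite (perp2 Q u w) := inferInstance
    obtain ⟨k, hk, h⟩ := ih _ (by omega) _ _ (S.nd hQ) rfl
    refine ⟨k + 1, by omega, ?_⟩
    rw [cnt_split S, Module.natCard_eq_pow_finrank (K := F) (V := perp2 Q u w), hk, mul_comm 2 k,
      pow_mul, pow_succ' _ k]
    rw [hr] at h ⊢
    simp only [Nat.add_sub_cancel] at h ⊢
    nlinarith [Nat.mul_le_mul_left (r + 1) h]
  · have h3 : n < 3 := by
      by_contra h3
      exact h (exists_sing Q (by omega))
    have h1 : 1 ≤ cnt Q 0 := by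
      have : Nonempty {x // Q x = 0} := ⟨⟨0, map_zero _⟩⟩
      exact Nat.card_pos
    interval_cases n
    · exact ⟨0, rfl, by rw [hr]; nlinarith⟩
    · obtain ⟨v, hv, h2⟩ := finrank_eq_one_iff'.1 hn
      refine (hv (hQ v fun y => ?_)).elim
      obtain ⟨c, rfl⟩ := h2 y
      show polar Q v (c • v) = 0
      rw [polar_smul_right', polar_self2, mul_zero]
    · exact ⟨1, rfl, by rw [hr, Nat.add_sub_cancel]; nlinarith⟩

variable {V : Type*} [AddCommGroup V] [Module F V] {Q : QuadraticForm F V}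

theorem cnt_eq_cnt_one {t : F} (ht : t ≠ 0) : cnt Q t = cnt Q 1 := by
  obtain ⟨r, rfl⟩ := exists_sq_of_two_eq_zero (F := F) (by grind) t
  have hr : r ≠ 0 := left_ne_zero_of_mul ht
  exact Nat.card_congr
    { toFun := fun x => ⟨r⁻¹ • x.1, by rw [Q_smul, x.2]; field_simp⟩
      invFun := fun x => ⟨r • x.1, by rw [Q_smul, x.2, mul_one]⟩
      left_inv := fun x => Subtype.ext (smul_inv_smul₀ hr _)
      right_inv := fun x => Subtype.ext (inv_smul_smul₀ hr _) }

/-- The vectors whose value has the form `b² + b`. -/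
noncomputable def cD (Q : QuadraticForm F V) : ℕ := Nat.card {d : V // ∃ b : F, Q d = b * b + b}

theorem cD_bound [FiniteDimensional F V] :
    Nat.card F * cnt Q 0 + (Nat.card F - 2) * Nat.card V ≤ 2 * cD Q * (Nat.card F - 1) := by
  have : Finite V := Module.finite_of_finite F
  have := Fintype.ofFinite F
  have := Fintype.ofFinite V
  let P : Finset F := Finset.univ.image fun b : F => b * b + b
  have h0 : (0 : F) ∈ P := Finset.mem_image.2 ⟨0, Finset.mem_univ _, by ring⟩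
  have h1 : Nat.card F ≤ 2 * P.card := by
    rw [Nat.card_eq_fintype_card]
    refine Finset.card_le_mul_card_image (f := fun b : F => b * b + b) Finset.univ 2 fun t ht => ?_
    obtain ⟨b, -, rfl⟩ := Finset.mem_image.1 ht
    refine (Finset.card_le_card (t := {b, b + 1}) fun c hc => ?_).trans Finset.card_le_two
    have := (Finset.mem_filter.1 hc).2
    have h : (c + b) * (c + b + 1) = 0 := by grind
    rw [Finset.mem_insert, Finset.mem_singleton]
    grind
  have h2 : cD Q = cnt Q 0 + (P.card - 1) * cnt Q 1 := by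
    have := sum_cnt (Q₁ := Q) fun t => if t ∈ P then 1 else 0
    simp only [mul_ite, mul_one, mul_zero, Finset.sum_ite_mem, Finset.univ_inter] at this
    rw [← Finset.add_sum_erase _ _ h0, Finset.sum_congr rfl (s₁ := P.erase 0)
      (g := fun _ => cnt Q 1) fun t ht => cnt_eq_cnt_one (Finset.ne_of_mem_erase ht),
      Finset.sum_const, Finset.card_erase_of_mem h0, smul_eq_mul] at this
    rw [← this, cD, ← card_filter_eq, Finset.card_filter]
    refine Finset.sum_congr rfl fun d _ => if_congr ?_ rfl rfl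
    simp [P, eq_comm]
  have h3 : Nat.card V = cnt Q 0 + (Nat.card F - 1) * cnt Q 1 := by
    rw [← sum_cnt_eq_card (Q₁ := Q), ← Finset.add_sum_erase _ _ (Finset.mem_univ (0 : F)),
      Finset.sum_congr rfl (s₁ := Finset.univ.erase 0)
      (g := fun _ => cnt Q 1) fun t ht => cnt_eq_cnt_one (Finset.ne_of_mem_erase ht),
      Finset.sum_const, Finset.card_erase_of_mem (Finset.mem_univ _), smul_eq_mul,
      Finset.card_univ, Nat.card_eq_fintype_card]
  have hq : 2 ≤ Nat.card F := Finite.one_lt_card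
  obtain ⟨r, hr⟩ : ∃ r, Nat.card F = r + 2 := ⟨_, (Nat.sub_add_cancel hq).symm⟩
  obtain ⟨p, hp⟩ : ∃ p, P.card = p + 1 := ⟨P.card - 1, by omega⟩
  rw [h2, h3, hr, hp]
  rw [hr, hp] at h1
  simp only [Nat.add_sub_cancel, show r + 2 - 1 = r + 1 from rfl]
  have : r * ((r + 1) * cnt Q 1) ≤ 2 * p * ((r + 1) * cnt Q 1) := Nat.mul_le_mul_right _ (by omega)
  nlinarith

theorem cD_bound' [FiniteDimensional F V] (hQ : ND Q) {k : ℕ} (hk : finrank F V = 2 * k) :
    (Nat.card F ^ k) ^ 2 ≤ 2 * cD Q + Nat.card F ^ k := by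
  obtain ⟨k', h1, h2⟩ := zero_bound _ V Q hQ hk
  obtain rfl : k = k' := by omega
  have h3 := cD_bound (Q := Q)
  rw [Module.natCard_eq_pow_finrank (K := F) (V := V), hk, mul_comm 2 k, pow_mul] at h3
  have hq : 2 ≤ Nat.card F := Finite.one_lt_card
  obtain ⟨r, hr⟩ : ∃ r, Nat.card F = r + 2 := ⟨_, (Nat.sub_add_cancel hq).symm⟩
  rw [hr] at h2 h3 ⊢
  simp only [Nat.add_sub_cancel, show r + 2 - 1 = r + 1 from rfl] at h2 h3
  exact Nat.le_of_mul_le_mul_right (c := r + 1) (by nlinarith) (by omega)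

theorem cD_bound_plus [FiniteDimensional F V] (hQ : ND Q) (hk : finrank F V = 2) {y : V}
    (hy : Q y = 0) (hy0 : y ≠ 0) : Nat.card F ^ 2 + Nat.card F ≤ 2 * cD Q := by
  have : Finite V := Module.finite_of_finite F
  obtain ⟨w, hw, huw⟩ := hQ.exists_partner hy hy0
  have h1 := cnt_split (hypSplit hy hw huw) 0
  have h2 : 1 ≤ cnt (Q.comp (perp2 Q y w).subtype) 0 := by
    have : Nonempty {x // (Q.comp (perp2 Q y w).subtype) x = 0} := ⟨⟨0, map_zero _⟩⟩
    exact Nat.card_pos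
  have h4 : 1 ≤ Nat.card (perp2 Q y w) := Nat.card_pos
  have h3 := cD_bound (Q := Q)
  rw [Module.natCard_eq_pow_finrank (K := F) (V := V), hk] at h3
  have hq : 2 ≤ Nat.card F := Finite.one_lt_card
  obtain ⟨r, hr⟩ : ∃ r, Nat.card F = r + 2 := ⟨_, (Nat.sub_add_cancel hq).symm⟩
  rw [hr] at h1 h3 ⊢
  simp only [Nat.add_sub_cancel, show r + 2 - 1 = r + 1 from rfl] at h1 h3
  have h5 : 2 * r + 3 ≤ cnt Q 0 := by nlinarith
  exact Nat.le_of_mul_le_mul_right (c := r + 1) (by nlinarith) (by omega)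

/-- The form `Q + B(z,·)²`. -/
def Qc (Q : QuadraticForm F V) (z : V) : QuadraticForm F V :=
  Q + QuadraticMap.linMulLin (polarBilin Q z) (polarBilin Q z)

theorem Qc_apply (z x : V) : Qc Q z x = Q x + polar Q z x * polar Q z x := rfl

theorem polar_Qc (z x y : V) : polar (Qc Q z) x y = polar Q x y := by
  rw [polar, Qc_apply, Qc_apply, Qc_apply, Q_add, polar_add_right]
  grind

theorem nd_Qc (hQ : ND Q) (z : V) : ND (Qc Q z) := fun x h => hQ x fun y =>
  (polar_Qc z x y).symm.trans (h y)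

end Forms

variable {F V : Type*} [Field F] [AddCommGroup V] [Module F V] {Q : QuadraticForm F V}
variable {V₁ : Type*} [AddCommGroup V₁] [Module F V₁] {Q₁ : QuadraticForm F V₁}
variable [CharP F 2] [Finite F] (S : HypSplit Q Q₁) (h₁ : ND Q₁)
variable {Ω : Type*} [MulAction (SpQ Q) Ω] [Finite V₁] [Finite Ω]

/-- The number of characters in the annihilator which are trivial on the transvections. -/
noncomputable def a0 (O : (spRad S h₁).Orb Ω) : ℕ :=
  Nat.card {y : V₁ // (y, (0 : F)) ∈ (spRad S h₁).A O}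

theorem card_A (O : (spRad S h₁).Orb Ω) : ∃ l, Nat.card ((spRad S h₁).A O) = a0 S h₁ O * l ∧
    l ∣ Nat.card F ∧ ((∃ χ ∈ (spRad S h₁).A O, χ.2 ≠ 0) → 2 ≤ l) ∧
    (l = Nat.card F → ∀ c, ∃ y, (y, c) ∈ (spRad S h₁).A O) := by
  let f : (spRad S h₁).A O →+ F := (AddMonoidHom.snd V₁ F).comp ((spRad S h₁).A O).subtype
  refine ⟨Nat.card f.range, ?_, f.range.card_addSubgroup_dvd_card, ?_, fun h c => ?_⟩
  · rw [AddSubgroup.card_eq_card_quotient_mul_card_addSubgroup f.ker,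
      Nat.card_congr (QuotientAddGroup.quotientKerEquivRange f).toEquiv, mul_comm]
    congr 1
    exact Nat.card_congr
      { toFun := fun x => ⟨x.1.1.1, by rw [← show x.1.1.2 = 0 from x.2]; exact x.1.2⟩
        invFun := fun y => ⟨⟨(y.1, 0), y.2⟩, rfl⟩
        left_inv := fun x => Subtype.ext (Subtype.ext (Prod.ext rfl (Eq.symm x.2)))
        right_inv := fun _ => rfl }
  · rintro ⟨χ, h1, h2⟩
    have : Nontrivial f.range := ⟨⟨⟨_, ⟨χ, h1⟩, rfl⟩, 0, fun h => h2 (congrArg Subtype.val h)⟩⟩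
    exact Finite.one_lt_card
  · obtain ⟨χ, hχ⟩ : c ∈ f.range := by rw [AddSubgroup.eq_top_of_card_eq _ h]; trivial
    exact ⟨χ.1.1, by rw [← show χ.1.2 = c from hχ]; exact χ.2⟩

theorem card_A_le (O : (spRad S h₁).Orb Ω) :
    Nat.card ((spRad S h₁).A O) ≤ Nat.card F * a0 S h₁ O := by
  obtain ⟨l, h1, h2, -⟩ := card_A S h₁ O
  rw [h1, mul_comm]
  exact Nat.mul_le_mul_right _ (Nat.le_of_dvd Nat.card_pos h2)

theorem sum_C_eq (T : Finset ((spRad S h₁).Orb Ω)) (s : Finset (V₁ × F)) :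
    ∑ χ ∈ s, ((spRad S h₁).C T χ).card = ∑ O ∈ T, (s.filter (· ∈ (spRad S h₁).A O)).card := by
  simp only [AbRad.C, Finset.card_filter]
  exact Finset.sum_comm

theorem mul_card_le_sum_a0 (T : Finset ((spRad S h₁).Orb Ω)) (n : ℕ)
    (h : ∀ y, n ≤ ((spRad S h₁).C T (y, 0)).card) : n * Nat.card V₁ ≤ ∑ O ∈ T, a0 S h₁ O := by
  have := Fintype.ofFinite V₁
  have inj : Function.Injective fun y : V₁ => (y, (0 : F)) := fun a b h => congrArg Prod.fst h
  have h1 := sum_C_eq S h₁ T (Finset.univ.image fun y : V₁ => (y, (0 : F)))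
  rw [Finset.sum_image inj.injOn] at h1
  have h2 := Finset.card_nsmul_le_sum Finset.univ _ n fun y _ => h y
  rw [h1, smul_eq_mul, Finset.card_univ, ← Nat.card_eq_fintype_card, mul_comm] at h2
  refine h2.trans (Finset.sum_le_sum fun O _ => ?_)
  rw [Finset.filter_image, Finset.card_image_of_injective _ inj, a0, card_filter_eq]

theorem mul_card_add_le (T : Finset ((spRad S h₁).Orb Ω)) (n : ℕ) (s : Finset (V₁ × F))
    (hs : ∀ χ ∈ s, χ.2 ≠ 0) (h : ∀ χ ∈ s, n ≤ ((spRad S h₁).C T χ).card) :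
    n * s.card + ∑ O ∈ T, a0 S h₁ O ≤ ∑ O ∈ T, Nat.card ((spRad S h₁).A O) := by
  have h2 := Finset.card_nsmul_le_sum s _ n h
  rw [sum_C_eq, smul_eq_mul, mul_comm] at h2
  refine (Nat.add_le_add_right h2 _).trans ?_
  rw [← Finset.sum_add_distrib]
  refine Finset.sum_le_sum fun O _ => ?_
  rw [a0, ← Nat.card_eq_finsetCard, ← Nat.card_sum]
  refine Nat.card_le_card_of_injective (Sum.elim (fun χ => ⟨χ.1, (Finset.mem_filter.1 χ.2).2⟩)
    fun y => ⟨(y.1, 0), y.2⟩) ?_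
  rintro (a | a) (b | b) hab
  · exact congrArg _ (Subtype.ext (congrArg (fun t => t.1) hab))
  · exact (hs _ (Finset.mem_filter.1 a.2).1 (congrArg (fun t => t.1.2) hab)).elim
  · exact (hs _ (Finset.mem_filter.1 b.2).1 (congrArg (fun t => t.1.2) hab).symm).elim
  · exact congrArg _ (Subtype.ext (congrArg (fun t => t.1.1) hab))

theorem sum_a0_le (T : Finset ((spRad S h₁).Orb Ω)) :
    ∑ O ∈ T, a0 S h₁ O ≤ ∑ O ∈ T, Nat.card ((spRad S h₁).A O) := by
  simpa using mul_card_add_le S h₁ T 0 ∅ (by simp) (by simp)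

/-- A set of orbits invariant under the point stabiliser. -/
def Inv (T : Finset ((spRad S h₁).Orb Ω)) : Prop := ∀ g : Pu S, ∀ O ∈ T, g • O ∈ T

variable {S h₁} {T : Finset ((spRad S h₁).Orb Ω)}

theorem Inv.C_le (hT : Inv S h₁ T) (g : Pu S) {χ χ' : V₁ × F}
    (h : ∀ O : (spRad S h₁).Orb Ω, χ ∈ (spRad S h₁).A O → χ' ∈ (spRad S h₁).A (g • O)) :
    ((spRad S h₁).C T χ).card ≤ ((spRad S h₁).C T χ').card :=
  Finset.card_le_card_of_injOn (g • ·) (fun O hO => by
    have := (spRad S h₁).mem_C.1 (Finset.mem_coe.1 hO)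
    exact Finset.mem_coe.2 ((spRad S h₁).mem_C.2 ⟨hT g O this.1, h O this.2⟩))
    (MulAction.injective g).injOn

theorem memA0_tv (d : V₁) (a : F) {O : (spRad S h₁).Orb Ω} {y : V₁}
    (h : (y, (0 : F)) ∈ (spRad S h₁).A O) :
    (y + (a * polar Q₁ d y) • d, (0 : F)) ∈ (spRad S h₁).A (tvP S d a • O) :=
  memA0_map S h₁ _ (c := 1) (by
    show aq (Es Q _ 0 _) _ = _
    rw [aq_tv, S.ju, mul_zero, zero_smul, add_zero, one_smul]) (by rw [aq_tvP, one_smul]) h

theorem Inv.C0_le (hT : Inv S h₁ T) {y : V₁} (hy : y ≠ 0) (y' : V₁) :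
    ((spRad S h₁).C T (y, 0)).card ≤ ((spRad S h₁).C T (y', 0)).card := by
  by_cases hy' : y' = 0
  · rw [hy', Prod.mk_zero_zero, AbRad.C_zero]
    exact Finset.card_filter_le _ _
  exact trans_of_tv h₁ (fun z => ((spRad S h₁).C T (y, 0)).card ≤ ((spRad S h₁).C T (z, 0)).card)
    (fun z d a h => h.trans (hT.C_le (tvP S d a) fun O => memA0_tv d a)) hy hy' le_rfl

theorem Inv.bound0 (hT : Inv S h₁ T) {y : V₁} (hy : y ≠ 0) :
    ((spRad S h₁).C T (y, 0)).card * Nat.card V₁ ≤ ∑ O ∈ T, a0 S h₁ O :=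
  mul_card_le_sum_a0 S h₁ T _ (hT.C0_le hy)

theorem Inv.C_smul_le (hT : Inv S h₁ T) (χ : V₁ × F) {c : F} (hc : c ≠ 0) :
    ((spRad S h₁).C T χ).card ≤ ((spRad S h₁).C T (c • χ)).card := by
  obtain ⟨g, g1, -, g2⟩ := exists_torP S (inv_ne_zero hc)
  refine hT.C_le g fun O h => ?_
  have := (memA_tor S h₁ (inv_ne_zero hc) g1 g2).2 h
  rwa [inv_inv] at this

theorem Inv.bound1 (hT : Inv S h₁ T) (z : V₁) {μ : F} (hμ : μ ≠ 0) :
    Nat.card F * (((spRad S h₁).C T (μ • z, μ)).card * cD (Qc Q₁ z)) ≤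
      ∑ O ∈ T, Nat.card ((spRad S h₁).A O) := by
  have := Fintype.ofFinite V₁
  have := Fintype.ofFinite F
  let f : F × V₁ → V₁ × F := fun t => t.1 • (μ • (z + t.2), μ)
  let s := (Finset.univ.erase (0 : F)) ×ˢ (Finset.univ.filter fun d => ∃ b : F, Qc Q₁ z d = b * b + b)
  have h1 := mul_card_add_le S h₁ T ((spRad S h₁).C T (μ • z, μ)).card (s.image f) (fun χ h => by
    obtain ⟨t, ht, rfl⟩ := Finset.mem_image.1 h
    exact mul_ne_zero (Finset.ne_of_mem_erase (Finset.mem_product.1 ht).1) hμ) (fun χ h => by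
    obtain ⟨⟨c, d⟩, ht, rfl⟩ := Finset.mem_image.1 h
    obtain ⟨hc, hd⟩ := Finset.mem_product.1 ht
    refine le_trans ?_ (hT.C_smul_le _ (Finset.ne_of_mem_erase hc))
    obtain ⟨b, hb, hb1⟩ : ∃ b : F, Qc Q₁ z d = b * b + b ∧ b + 1 ≠ 0 := by
      obtain ⟨b, hb⟩ := (Finset.mem_filter.1 hd).2
      by_cases h : b + 1 = 0
      · exact ⟨0, by grind, by simp⟩
      · exact ⟨b, hb, h⟩
    obtain ⟨a, ha⟩ : ∃ a, (b + 1) * a = 1 := ⟨_, mul_inv_cancel₀ hb1⟩
    rw [Qc_apply] at hb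
    refine hT.C_le (tvP S d a) fun O h => ?_
    have := (memA_tv S h₁ d (a := a) (ρ := 1 + a * polar Q₁ z d) (by grind)).2 h
    convert this using 2
    rw [polar_smul_right', polar_comm Q₁ d z]
    match_scalars <;> grind)
  rw [Finset.card_image_of_injOn, Finset.card_product, Finset.card_erase_of_mem (Finset.mem_univ _),
    card_filter_eq, Finset.card_univ, ← Nat.card_eq_fintype_card, ← cD] at h1
  · have h2 : ∑ O ∈ T, Nat.card ((spRad S h₁).A O) ≤ Nat.card F * ∑ O ∈ T, a0 S h₁ O := by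
      rw [Finset.mul_sum]
      exact Finset.sum_le_sum fun O _ => card_A_le S h₁ O
    have hq : 2 ≤ Nat.card F := Finite.one_lt_card
    obtain ⟨r, hr⟩ : ∃ r, Nat.card F = r + 2 := ⟨_, (Nat.sub_add_cancel hq).symm⟩
    rw [hr] at h1 h2 ⊢
    rw [show r + 2 - 1 = r + 1 from rfl] at h1
    exact Nat.le_of_mul_le_mul_right (c := r + 1) (by nlinarith) (by omega)
  · rintro ⟨c, d⟩ h ⟨c', d'⟩ - e
    have hc := Finset.ne_of_mem_erase (Finset.mem_product.1 (Finset.mem_coe.1 h)).1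
    have e2 : c = c' := mul_right_cancel₀ hμ (congrArg Prod.snd e)
    subst e2
    have e1 : c • μ • (z + d) = c • μ • (z + d') := congrArg Prod.fst e
    rw [add_left_cancel (smul_right_injective _ hμ (smul_right_injective _ hc e1))]

variable (S h₁)

theorem card_eq_sum_A2 :
    Nat.card Ω = ∑ O : (spRad S h₁).Orb Ω, Nat.card ((spRad S h₁).A O) :=
  Nat.eq_of_mul_eq_mul_right Nat.card_pos ((spRad S h₁).card_eq_sum_A (Ω := Ω))

/-- The orbits consisting of points with the property `P`. -/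
noncomputable def TP (P : Ω → V → Prop) : Finset ((spRad S h₁).Orb Ω) :=
  Finset.univ.filter fun O => ∃ ω, (spRad S h₁).orb ω = O ∧ P ω S.u

/-- An equivariant property of points of `Ω` and points of the projective space. -/
structure Eqv (Q : QuadraticForm F V) {Ω : Type*} [MulAction (SpQ Q) Ω] (P : Ω → V → Prop) :
    Prop where
  map : ∀ ω v (g : SpQ Q), P ω v → P (g • ω) (aq g v)
  smul : ∀ ω v (c : F), c ≠ 0 → P ω v → P ω (c • v)

variable {S h₁} {P P' : Ω → V → Prop}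

theorem Eqv.not (h : Eqv Q P) : Eqv Q fun ω v => ¬ P ω v where
  map ω v g h1 h2 := h1 (by simpa [aq_inv_aq] using h.map _ _ g⁻¹ h2)
  smul ω v c hc h1 h2 := h1 (by simpa [smul_smul, hc] using h.smul _ _ c⁻¹ (inv_ne_zero hc) h2)

theorem Eqv.and (h : Eqv Q P) (h' : Eqv Q P') : Eqv Q fun ω v => P ω v ∧ P' ω v where
  map ω v g h1 := ⟨h.map _ _ g h1.1, h'.map _ _ g h1.2⟩
  smul ω v c hc h1 := ⟨h.smul _ _ c hc h1.1, h'.smul _ _ c hc h1.2⟩

theorem Eqv.mem (h : Eqv Q P) {ω : Ω} : (spRad S h₁).orb ω ∈ TP S h₁ P ↔ P ω S.u := by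
  refine ⟨fun h1 => ?_, fun h1 => Finset.mem_filter.2 ⟨Finset.mem_univ _, ω, rfl, h1⟩⟩
  obtain ⟨ω', h2, h3⟩ := (Finset.mem_filter.1 h1).2
  obtain ⟨x, rfl⟩ := (spRad S h₁).orb_eq_iff.1 h2
  have := h.map _ _ ((spRad S h₁).E x) h3
  rwa [spRad_E, aq_Es_fix (S.uj _) _ (polar_self2 _) (S.ju _), ← spRad_E S h₁] at this

theorem Eqv.inv (h : Eqv Q P) : Inv S h₁ (TP S h₁ P) := by
  intro g O hO
  obtain ⟨ω, rfl⟩ := (spRad S h₁).orb_surj O
  obtain ⟨c, hc, e⟩ := Pu_spec S g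
  rw [smul_orb, h.mem]
  have := h.smul _ _ c⁻¹ (inv_ne_zero hc) (h.map _ _ g.1 (h.mem.1 hO))
  rwa [e, inv_smul_smul₀ hc] at this

theorem sum_add_sum_le (h : Eqv Q P) (h' : Eqv Q P') (hd : ∀ ω, P ω S.u → P' ω S.u → False) :
    ∑ O ∈ TP S h₁ P, Nat.card ((spRad S h₁).A O) + ∑ O ∈ TP S h₁ P', Nat.card ((spRad S h₁).A O) ≤
      Nat.card Ω := by
  rw [← Finset.sum_union, card_eq_sum_A2 S h₁]
  · exact Finset.sum_le_sum_of_subset (Finset.subset_univ _)
  · refine Finset.disjoint_left.2 fun O h1 h2 => ?_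
    obtain ⟨ω, rfl⟩ := (spRad S h₁).orb_surj O
    exact hd ω (h.mem.1 h1) (h'.mem.1 h2)

theorem sum_le_card2 (T : Finset ((spRad S h₁).Orb Ω)) :
    ∑ O ∈ T, Nat.card ((spRad S h₁).A O) ≤ Nat.card Ω := by
  rw [card_eq_sum_A2 S h₁]
  exact Finset.sum_le_sum_of_subset (Finset.subset_univ _)

theorem Fs.unscale {ω : Ω} {v x : V} {t c : F} (hc : c ≠ 0) (h : Fs Q ω (c • v) x t) :
    Fs Q ω v (c • x) (c * c * t) :=
  h.smul_right (by simpa [polar_smul_left', hc] using h.1)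

theorem mem_span_smul {v x : V} {c : F} (hc : c ≠ 0) (h : c • x ∈ Submodule.span F {v}) :
    x ∈ Submodule.span F {c • v} := by
  rwa [Submodule.span_singleton_smul_eq hc.isUnit, ← Submodule.smul_mem_iff _ hc]

theorem eqv_as : Eqv Q (As Q (Ω := Ω)) := ⟨fun _ _ g h => h.map g, fun _ _ c _ h => h.smul c⟩

theorem eqv_s0 : Eqv Q (S0 Q (Ω := Ω)) := ⟨fun _ _ g h => h.map g, fun _ _ _ hc h => h.smul hc⟩

theorem eqv_sq : Eqv Q (SQ Q (Ω := Ω)) := ⟨fun _ _ g h => h.map g, fun _ v c hc h x hx => by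
  have h1 : polar Q v x = 0 := by simpa [polar_smul_left', hc] using hx
  obtain ⟨t, ht⟩ := h (c • x) (by rw [polar_smul_right', h1, mul_zero])
  exact ⟨c⁻¹ * c⁻¹ * t, Fs.smul_left h1 (ht.congr rfl (by field_simp))⟩⟩

theorem eqv_s4 : Eqv Q (S4 Q (Ω := Ω)) := ⟨fun _ _ g h => h.map g, fun _ v c hc h x t hx => by
  have := h _ _ (hx.unscale hc)
  exact ⟨mem_span_smul hc this.1, by simpa [hc] using this.2⟩⟩

/-- The stabiliser in the radical consists of transvections. -/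
def SX (Q : QuadraticForm F V) {Ω : Type*} [MulAction (SpQ Q) Ω] (ω : Ω) (v : V) : Prop :=
  ∀ x t, Fs Q ω v x t → x ∈ Submodule.span F {v}

theorem eqv_sx : Eqv Q (SX Q (Ω := Ω)) := ⟨fun _ _ g h x t hx => by
  have := h _ _ ((fs_map_iff g).1 hx)
  rwa [← mem_span_aq (g := g), aq_aq_inv] at this, fun _ v c hc h x t hx =>
    mem_span_smul hc (h _ _ (hx.unscale hc))⟩

end Cfsg.Agent.H66
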