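import Cfsg.Agent.H66.SpMain2
import Cfsg.Agent.H27.Sp

/-!
The minimal index of a proper subgroup of a symplectic group in characteristic two.
-/

set_option autoImplicit false
set_option linter.unusedSectionVars false

namespace Cfsg.Agent.H66

open Module QuadraticMap Cfsg.Agent.H11 Classical

theorem exists_smul_ne_quot {G : Type*} [Group G] {H : Subgroup G} (hH : H ≠ ⊤) (ω : G ⧸ H) :
    ∃ g : G, g • ω ≠ ω := by
  by_contra hc
  push Not at hc
  refine hH (Subgroup.index_eq_one.1 (Nat.card_eq_one_iff_unique.2 ⟨⟨fun a b => ?_⟩, ⟨ω⟩⟩))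
  obtain ⟨g, rfl⟩ := MulAction.exists_smul_eq G ω a
  obtain ⟨g', rfl⟩ := MulAction.exists_smul_eq G ω b
  rw [hc, hc]

variable {F V : Type*} [Field F] [AddCommGroup V] [Module F V] [FiniteDimensional F V]

theorem exists_quad_of_alt {B : V →ₗ[F] V →ₗ[F] F} (hA : ∀ x, B x x = 0) (h2 : (2 : F) = 0) :
    ∃ Q : QuadraticForm F V, polarBilin Q = B := by
  let b := Module.finBasis F V
  refine ⟨LinearMap.BilinMap.toQuadraticMap
    (b.constr F fun i => b.constr F fun j => if i < j then B (b i) (b j) else 0), ?_⟩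
  rw [LinearMap.BilinMap.polarBilin_toQuadraticMap]
  refine LinearMap.ext_basis b b fun i j => ?_
  simp only [LinearMap.add_apply, LinearMap.flip_apply, Module.Basis.constr_basis]
  rcases lt_trichotomy i j with h | rfl | h
  · rw [if_pos h, if_neg h.not_gt, add_zero]
  · rw [if_neg (lt_irrefl _), add_zero, hA]
  · rw [if_neg h.not_gt, if_pos h, zero_add, H27.alt_skew hA]
    linear_combination (-B (b i) (b j)) * h2

variable [Finite F]

theorem spQ_min_index [CharP F 2] {Q : QuadraticForm F V} (hQ : ND Q) (hq : 4 ≤ Nat.card F)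
    (h4 : 3 ≤ finrank F V) {H : Subgroup (SpQ Q)} (hH : H ≠ ⊤) :
    Nat.card V - 1 ≤ H.index * (Nat.card F - 1) := by
  have : Finite V := Module.finite_of_finite F
  have : Finite (V ≃ₗ[F] V) := Finite.of_injective _ (DFunLike.coe_injective (F := V ≃ₗ[F] V))
  obtain ⟨u, hu, hu0⟩ := exists_sing Q h4
  obtain ⟨w, hw, huw⟩ := hQ.exists_partner hu hu0
  let S := hypSplit hu hw huw
  have hd := S.finrank_eq
  obtain ⟨k, hk, -⟩ := zero_bound _ _ _ (S.nd hQ) rfl
  by_contra hlt
  refine Small.false (S := S) (Ω := SpQ Q ⧸ H) (k := k) ⟨hk, by omega, hq, inferInstance,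
    exists_smul_ne_quot hH, fun a b => MulAction.exists_smul_eq _ a b, ?_⟩ (S.nd hQ)
  rw [← card_eq_sq hk, ← card_split S, ← Subgroup.index_eq_card]
  omega

theorem sp_even_min_index {B : V →ₗ[F] V →ₗ[F] F} (hA : ∀ x, B x x = 0)
    (hB : ∀ x, (∀ y, B x y = 0) → x = 0) (h2 : (2 : F) = 0) (hq : 4 ≤ Nat.card F)
    (h4 : 3 ≤ finrank F V) {H : Subgroup (H27.GG (σ := RingHom.id F) B)} (hH : H ≠ ⊤) :
    Nat.card V - 1 ≤ H.index * (Nat.card F - 1) := by
  have : CharP F 2 := CharTwo.of_one_ne_zero_of_two_eq_zero one_ne_zero h2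
  obtain ⟨Q, rfl⟩ := exists_quad_of_alt hA h2
  revert H
  rw [H27.GG_alt hA hB]
  exact fun hH => spQ_min_index hB hq h4 hH

open Pointwise in
theorem exists_le_cnt [CharP F 2] {Q : QuadraticForm F V} (hQ : ND Q) (hq : Nat.card F = 2)
    (h3 : 3 ≤ finrank F V) {d₀ : V} (h0 : Q d₀ = 1) :
    ∃ H : Subgroup (SpQ Q), H ≠ ⊤ ∧ H.index ≤ cnt Q 1 := by
  have : Finite V := Module.finite_of_finite F
  let _ : MulAction (SpQ Q) (V → F) :=
    { smul := fun g f x => f (aq g⁻¹ x)
      one_smul := fun f => rfl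
      mul_smul := fun g h f => funext fun x => by
        show f (aq (g * h)⁻¹ x) = f (aq h⁻¹ (aq g⁻¹ x))
        rw [mul_inv_rev, aq_mul] }
  have sm : ∀ (v : V) (t : F) (f : V → F) x, (Es Q v 0 t • f) x = f (x + (t * polar Q v x) • v) :=
    fun v t f x => by
      show f (aq (Es Q v 0 t)⁻¹ x) = _
      rw [inv_eq_of_mul_eq_one_right (Es_mul_self (polar_zero_right _ _) t), aq_tv]
  have h2 := eq_of_card_two hq
  have idem : ∀ a : F, a * a = a := fun a => by rcases h2 a with h | h <;> simp [h]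
  let X : Set (V → F) := (fun d => ⇑(Qc Q d)) '' {d | Q d = 1}
  have sub : ∀ v t, Es Q v 0 t • X ⊆ X := by
    rintro v t _ ⟨_, ⟨d, hd, rfl⟩, rfl⟩
    refine ⟨d + (t * (Q v + 1 + polar Q d v)) • v, ?_, funext fun x => ?_⟩
    · show Q _ = 1
      rw [Q_add, Q_smul, polar_smul_right', show Q d = 1 from hd]
      have := idem t
      have := idem (Q v)
      have := idem (polar Q d v)
      grind
    · show Qc Q _ x = (Es Q v 0 t • ⇑(Qc Q d)) x
      rw [sm, Qc_apply, Qc_apply, idem, idem]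
      qsimp
      rw [polar_comm Q x v]
      have := idem t
      have := idem (polar Q v x)
      grind
  have hX : ∀ g : SpQ Q, g • X = X := smul_eq_of_as hQ fun v _ t => ⟨polar_zero_right _ _,
    (sub v t).antisymm (by
      conv_lhs => rw [← one_smul (SpQ Q) X, ← Es_mul_self (polar_zero_right Q v) t, mul_smul]
      exact Set.smul_set_mono (sub v t))⟩
  refine ⟨MulAction.stabilizer (SpQ Q) ⇑(Qc Q d₀), fun h => ?_, ?_⟩
  · obtain ⟨v, hv, hv0⟩ := exists_sing (Qc Q d₀) h3
    obtain ⟨z, hz⟩ := hQ.exists_eq hv0 1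
    have : Es Q v 0 1 • ⇑(Qc Q d₀) = ⇑(Qc Q d₀) := by
      rw [← MulAction.mem_stabilizer_iff, h]; trivial
    have := congrFun this z
    rw [sm, hz, Q_add, Q_smul, hv, polar_Qc, polar_smul_right', polar_comm, hz] at this
    grind
  · rw [MulAction.index_stabilizer, cnt]
    refine (Set.ncard_le_ncard (t := X) ?_).trans (Set.ncard_image_le)
    rintro _ ⟨g, rfl⟩
    rw [← hX g]
    exact Set.smul_mem_smul_set ⟨d₀, h0, rfl⟩

theorem polar_qPlus_symp [CharP F 2] {m : ℕ} (u v : Fin m ⊕ Fin m → F) :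
    polar (qPlus F m) u v = Cfsg.sympForm m F u v := by
  rw [H27.sympForm_eq, polar, qPlus_apply, qPlus_apply, qPlus_apply, ← Finset.sum_sub_distrib,
    ← Finset.sum_sub_distrib]
  refine Finset.sum_congr rfl fun i _ => ?_
  simp only [Pi.add_apply]
  grind

theorem exists_toSp (F : Type*) [Field F] [Finite F] [CharP F 2] (m : ℕ) :
    ∃ φ : SpQ (qPlus F m) →* Matrix.symplecticGroup (Fin m) F, Function.Bijective φ := by
  refine ⟨{ toFun := fun g => ⟨LinearMap.toMatrix' (g.1 : _ →ₗ[F] _), H27.mem_sp_iff.2 fun u v => by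
              simp only [LinearMap.toMatrix'_mulVec, ← polar_qPlus_symp]
              exact g.2 u v⟩
            map_one' := Subtype.ext LinearMap.toMatrix'_id
            map_mul' := fun g h => Subtype.ext (LinearMap.toMatrix'_comp _ _) },
    fun g h e => Subtype.ext (LinearEquiv.toLinearMap_injective
      (LinearMap.toMatrix'.injective (congrArg Subtype.val e))), fun A => ?_⟩
  exact ⟨mkSp (Matrix.toLin' A.1) (Matrix.toLin' (A⁻¹).1) (H27.sp_mulVec_inv_mulVec A)
    (H27.sp_inv_mulVec_mulVec A) fun x y => by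
      rw [polar_qPlus_symp, polar_qPlus_symp]; exact H27.sp_sympForm A x y,
    Subtype.ext (LinearMap.toMatrix'_toLin' _)⟩

theorem sp_two_index [CharP F 2] (hq : Nat.card F = 2) {k : ℕ} (hk : 2 ≤ k)
    {H : Subgroup (SpQ (qPlus F (k + 1)))} (hH : H ≠ ⊤) : 2 ^ k * (2 ^ (k + 1) - 1) ≤ H.index := by
  have : Finite ((Fin (k + 1) ⊕ Fin (k + 1) → F) ≃ₗ[F] (Fin (k + 1) ⊕ Fin (k + 1) → F)) :=
    Finite.of_injective _ (DFunLike.coe_injective (F := _ ≃ₗ[F] _))
  have := sp_two (splitPlus F k) (nd_qPlus F k) (Ω := _ ⧸ H) (exists_smul_ne_quot hH) (k := k)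
    (by simp; omega) hk hq
  rw [← Subgroup.index_eq_card] at this
  rw [Nat.mul_sub_one, pow_succ]
  generalize 2 ^ k = X at *
  rw [Nat.sub_le_iff_le_add]
  nlinarith

theorem sp_two_exists [CharP F 2] (hq : Nat.card F = 2) {k : ℕ} (hk : 2 ≤ k) :
    ∃ H : Subgroup (SpQ (qPlus F (k + 1))), H.index = 2 ^ k * (2 ^ (k + 1) - 1) := by
  obtain ⟨H, h1, h2⟩ := exists_le_cnt (nd_qPlus F (k + 1)) hq (by simp; omega)
    (d₀ := (1 : F) • (splitPlus F k).u + (1 : F) • (splitPlus F k).w + (splitPlus F k).j 0)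
    (by rw [HypSplit.Q_mk]; simp)
  refine ⟨H, le_antisymm (h2.trans ?_) (sp_two_index hq hk h1)⟩
  have := cnt_plus (1 : F) k
  rw [cnt_plus_base one_ne_zero, hq] at this
  rw [Nat.mul_sub_one, pow_succ]
  generalize 2 ^ k = X at *
  refine Nat.le_sub_of_add_le ?_
  nlinarith

end Cfsg.Agent.H66
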