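import Cfsg.Agent.H66.SpBase

/-!
Geometric arguments on the types of point stabilisers for symplectic groups in characteristic two.
-/

set_option autoImplicit false
set_option linter.unusedSectionVars false

namespace Cfsg.Agent.H66

open Module QuadraticMap Cfsg.Agent.H11 Classical

variable {F V : Type*} [Field F] [AddCommGroup V] [Module F V] {Q : QuadraticForm F V}
variable [CharP F 2] [FiniteDimensional F V]
variable {Ω : Type*} [MulAction (SpQ Q) Ω] {ω : Ω}

theorem S0.opp {u x x' : V} (h : S0 Q ω u) (h' : S0 Q ω x) (h1 : polar Q u x ≠ 0)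
    (h2 : polar Q u x' ≠ 0) : S0 Q ω x' := by
  obtain ⟨i, hi⟩ : ∃ i, polar Q u x * i = 1 := ⟨_, mul_inv_cancel₀ h1⟩
  obtain ⟨i', hi'⟩ : ∃ i, polar Q u x' * i = 1 := ⟨_, mul_inv_cancel₀ h2⟩
  have hd : polar Q u (i • x + i' • x') = 0 := by qsimp; grind
  have := (h'.map (Es Q u (i • x + i' • x') (i * i' * polar Q x' x))).smul
    (c := polar Q u x' * i) (mul_ne_zero h2 (right_ne_zero_of_mul_eq_one hi))
  rw [(h _ _ hd).2, aq_Es hd] at this
  convert this using 1
  qsimp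
  match_scalars <;> grind

theorem S0.perp (hQ : ND Q) (hω : ∃ g : SpQ Q, g • ω ≠ ω) {u x : V} (h : S0 Q ω u)
    (h' : S0 Q ω x) : polar Q u x = 0 := by
  by_contra h1
  have hu0 : u ≠ 0 := by rintro rfl; exact h1 (polar_zero_left _ _)
  obtain ⟨g, hg⟩ := hω
  refine hg (smul_eq_of_as hQ (fun z hz => S0.as ?_) g)
  obtain ⟨t, t1, t2⟩ := hQ.exists_both_ne hu0 hz
  exact (h.opp h' h1 t1).opp h (by rwa [polar_comm]) (by rwa [polar_comm])

theorem S0.perp_as (hQ : ND Q) (hω : ∃ g : SpQ Q, g • ω ≠ ω) {u v : V} (h : S0 Q ω u)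
    (h' : As Q ω v) : polar Q v u = 0 := by
  have h1 := h.map (Es Q v 0 1)
  rw [(h' 1).2, aq_tv] at h1
  have := h.perp hQ hω h1
  qsimp at this
  rw [polar_comm Q u v] at this
  exact mul_self_eq_zero.1 (by grind)

theorem S0.add (hQ : ND Q) (hω : ∃ g : SpQ Q, g • ω ≠ ω) {u x : V} (h : S0 Q ω u)
    (h' : S0 Q ω x) (hx : x ∉ Submodule.span F {u}) (c : F) : S0 Q ω (x + c • u) := by
  obtain ⟨t, t1, t2⟩ := exists_polar_one hQ hx c
  have t3 := t2 u rfl
  have := h'.map (Es Q u t 0)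
  rwa [(h _ _ t3).2, aq_Es t3, h.perp hQ hω h', polar_comm, t1, zero_smul, add_zero, mul_zero,
    add_zero] at this

omit [CharP F 2] in
theorem exists_perp_not_mem (hQ : ND Q) (s : Finset V) (t : Finset V)
    (h : s.card + t.card < finrank F V) :
    ∃ x, (∀ a ∈ s, polar Q a x = 0) ∧ x ∉ Submodule.span F (t : Set V) := by
  obtain ⟨x, m1, m2⟩ := exists_not_mem_of_finrank_lt (F := F) t
    (H28.perp Q (Submodule.span F (s : Set V))) (by
      have := finrank_perp_ge hQ s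
      omega)
  exact ⟨x, mem_perp_span.1 m1, m2⟩

omit [CharP F 2] in
theorem exists_pair_perp (hQ : ND Q) (h3 : 3 ≤ finrank F V) (v : V) (c : F) :
    ∃ x y, polar Q v x = 0 ∧ polar Q v y = 0 ∧ polar Q x y = c := by
  obtain ⟨x, h1, h2⟩ := exists_perp_not_mem hQ {v} {v} (by simp; omega)
  rw [Finset.coe_singleton] at h2
  obtain ⟨y, y1, y2⟩ := exists_polar_one hQ h2 c
  exact ⟨x, y, h1 v (by simp), y2 v rfl, y1⟩

theorem as_of_zero (hQ : ND Q) (h3 : 3 ≤ finrank F V) {v : V}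
    (h : ∀ x, polar Q v x = 0 → Fs Q ω v x 0) : As Q ω v := fun t => by
  obtain ⟨x, y, h1, h2, h3⟩ := exists_pair_perp hQ h3 v t
  have := ((h x h1).mul (h y h2)).cancel (h (x + y) (by rw [polar_add_right, h1, h2, add_zero]))
  exact this.congr rfl (by rw [h3]; ring)

theorem fs_of_mem {v x : V} (h : x ∈ Submodule.span F {v}) : Fs Q ω v x 0 := by
  obtain ⟨c, rfl⟩ := Submodule.mem_span_singleton.1 h
  exact (fs_zero.add_self c).congr (zero_add _) rfl

theorem S0.not_SQ (hQ : ND Q) (h3 : 3 ≤ finrank F V) (hω : ∃ g : SpQ Q, g • ω ≠ ω) {u v : V}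
    (h : S0 Q ω u) (h' : SQ Q ω v) : polar Q v u = 0 := by
  by_contra h0
  obtain ⟨x, y, h1, h2, h4⟩ := exists_pair_perp hQ h3 v 1
  obtain ⟨t, ht⟩ := h' x h1
  obtain ⟨s, hs⟩ := h' y h2
  have a1 := h.map (Es Q v x t)
  have a2 := h.map (Es Q v y s)
  rw [ht.2, aq_Es h1] at a1
  rw [hs.2, aq_Es h2] at a2
  have b1 := h.perp hQ hω a1
  have b2 := h.perp hQ hω a2
  have b3 := a1.perp hQ hω a2
  qsimp at b1 b2 b3
  rw [polar_comm Q u x, polar_comm Q u v] at b1
  rw [polar_comm Q u y, polar_comm Q u v] at b2 b3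
  rw [h2, h4, polar_comm Q x v, h1] at b3
  exact h0 (mul_self_eq_zero.1 (by grind))

theorem fs_of_act (hQ : ND Q) {v a : V} (h : SQ Q ω v) (ha : a ∉ Submodule.span F {v}) {s : F}
    {g : SpQ Q} (g1 : g • ω = ω) (g2 : aq g v = v)
    (g3 : ∀ z, polar Q v z = 0 → ∃ r : F, aq g z = z + (s * polar Q a z) • a + r • v) (d : F) :
    Fs Q ω v ((s * d) • a) (s * d * d) := by
  obtain ⟨z, z1, z2⟩ := exists_polar_one hQ ha d
  obtain ⟨t, ht⟩ := h z (z2 v rfl)
  obtain ⟨r, hr⟩ := g3 z (z2 v rfl)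
  have h1 := ht.map_fix g1
  rw [g2, hr, z1] at h1
  refine (h1.of_add_self.mul ht).congr ?_ ?_
  · match_scalars <;> grind
  · qsimp; rw [z1]; grind

theorem as_of_all {e : F} (he0 : e ≠ 0) (he1 : e ≠ 1) {v a : V}
    (h : ∀ s d : F, Fs Q ω v ((s * d) • a) (s * d * d)) : As Q ω v := fun t => by
  have h0 : 1 + e ≠ 0 := by grind
  have h1 := h (t * (1 + e)⁻¹) 1
  have h2 := h (t * (1 + e)⁻¹ * e⁻¹) e
  rw [inv_mul_cancel_right₀ he0] at h2
  rw [mul_one] at h1
  refine (h1.cancel h2).congr rfl ?_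
  have := mul_inv_cancel₀ h0
  grind

/-- The types cannot all be `As` or `SQ` over a field with more than two elements. -/
theorem not_as_SQ [Finite F] (hQ : ND Q) (h3 : 3 ≤ finrank F V) (hω : ∃ g : SpQ Q, g • ω ≠ ω)
    {e : F} (he0 : e ≠ 0) (he1 : e ≠ 1) (ty : ∀ v, v ≠ 0 → As Q ω v ∨ SQ Q ω v) : False := by
  obtain ⟨v, hv0, hv⟩ : ∃ v, v ≠ 0 ∧ ¬ As Q ω v := by
    by_contra hn
    push Not at hn
    obtain ⟨g, hg⟩ := hω
    exact hg (smul_eq_of_as hQ hn g)
  have sv := (ty v hv0).resolve_left hv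
  have act : ∀ v x, SQ Q ω v → x ∉ Submodule.span F {v} → polar Q x v = 0 → ∀ (c t : F),
      Fs Q ω x (c • v) t → ∀ d, Fs Q ω v ((t * d) • x) (t * d * d) := by
    intro v x sv hx xv c t h
    refine fs_of_act hQ sv hx h.2 (aq_Es_fix h.1 t xv (by qsimp; grind)) fun z hz =>
      ⟨polar Q x z * c, ?_⟩
    rw [aq_Es h.1]
    qsimp
    rw [hz]
    module
  refine hv (as_of_zero hQ h3 fun x vx => ?_)
  by_cases hx : x ∈ Submodule.span F {v}
  · exact fs_of_mem hx
  have xv : polar Q x v = 0 := by rwa [polar_comm]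
  have nx : ¬ As Q ω x := fun h => hv (as_of_all he0 he1 fun s =>
    act v x sv hx xv 0 s ((h s).congr (zero_smul F v).symm rfl))
  have sx := (ty x (ne_zero_of_not_mem hx)).resolve_left nx
  obtain ⟨t, ht⟩ := sx ((1 : F) • v) (by rwa [one_smul])
  by_cases ht0 : t = 0
  · rw [ht0, one_smul] at ht
    exact ht.swap
  refine (nx (as_of_all he0 he1 (a := v) fun s => ?_)).elim
  obtain ⟨d, hd⟩ := exists_sq_of_two_eq_zero (F := F) (by grind) (s / t)
  refine act x v sx (not_mem_span_swap hv0 hx) vx (t * d) s ((act v x sv hx xv 1 t ht d).congr rfl ?_)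
  rw [mul_assoc, hd, mul_div_cancel₀ _ ht0]

/-- Over the field with two elements the types cannot all be `SQ`. -/
theorem not_all_SQ (hQ : ND Q) (h5 : 5 ≤ finrank F V) (hω : ∃ g : SpQ Q, g • ω ≠ ω)
    (h2 : ∀ a : F, a = 0 ∨ a = 1) (ty : ∀ v, v ≠ 0 → SQ Q ω v) : False := by
  have na : ∀ v x, v ≠ 0 → Fs Q ω v x 0 → Fs Q ω v x 1 → False := by
    intro v x hv h h'
    have h1 : As Q ω v := fun t => by
      rcases h2 t with rfl | rfl
      · exact fs_zero
      · exact (h.cancel h').congr rfl (zero_add _)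
    obtain ⟨z, hz⟩ := hQ.exists_ne hv
    refine hz ?_
    rw [polar_comm]
    exact (h1.s0 (ty v hv)).not_SQ hQ (by omega) hω
      (ty z (by rintro rfl; exact hz (polar_zero_right _ _)))
  have ex : ∀ v x, v ≠ 0 → polar Q v x = 0 → ¬ Fs Q ω v x 0 → Fs Q ω v x 1 := by
    intro v x hv h h'
    obtain ⟨t, ht⟩ := ty v hv x h
    rcases h2 t with rfl | rfl
    · exact (h' ht).elim
    · exact ht
  have R : ∀ v y z t, v ≠ 0 → Fs Q ω v y 0 → y ∉ Submodule.span F {v} → polar Q z v = 0 →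
      Fs Q ω y z t → Fs Q ω v z t := by
    intro v y z t hv h hy zv h'
    obtain ⟨x, x1, x2⟩ := exists_polar_one hQ hy 1
    obtain ⟨r, hr⟩ := ty v hv x (x2 v rfl)
    have h1 := hr.map_fix h'.2
    rw [aq_Es_fix h'.1 t (by rw [polar_comm, h.1]) zv, aq_Es h'.1, x1] at h1
    have h3 : Fs Q ω v ((polar Q z x + t * 1) • y) 0 := by
      rcases h2 (polar Q z x + t * 1) with e | e
      · rw [e, zero_smul]; exact fs_zero
      · rwa [e, one_smul]
    refine ((h1.mul hr).mul h3).congr ?_ ?_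
    · match_scalars <;> grind
    · qsimp
      rw [x1, polar_comm Q x y, x1, polar_comm Q z y, h'.1]
      grind
  obtain ⟨v, -, hv⟩ := exists_perp_not_mem hQ ∅ ∅ (by simp; omega)
  replace hv := ne_zero_of_not_mem hv
  obtain ⟨x, vx, hx⟩ : ∃ x, polar Q v x = 0 ∧ ¬ Fs Q ω v x 0 := by
    by_contra hn
    push Not at hn
    exact na v 0 hv fs_zero (as_of_zero hQ (by omega) hn 1)
  have hx1 := ex v x hv vx hx
  have xv : polar Q x v = 0 := by rwa [polar_comm]
  have hx0 : x ≠ 0 := by rintro rfl; exact hx fs_zero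
  obtain ⟨y, vy, xy, hy, fy⟩ : ∃ y, polar Q v y = 0 ∧ polar Q x y = 0 ∧
      y ∉ Submodule.span F {v, x} ∧ Fs Q ω v y 0 := by
    obtain ⟨y, y1, y2⟩ := exists_perp_not_mem hQ {v, x} {v, x}
      (by have := Finset.card_le_two (a := v) (b := x); omega)
    rw [Finset.coe_pair] at y2
    have vy := y1 v (by simp)
    have xy := y1 x (by simp)
    by_cases h : Fs Q ω v y 0
    · exact ⟨y, vy, xy, y2, h⟩
    · refine ⟨x + y, by qsimp; grind, by qsimp; grind, fun h => y2 ?_,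
        (hx1.mul (ex v y hv vy h)).congr rfl (by grind)⟩
      exact (Submodule.add_mem_iff_right _ (Submodule.subset_span (by simp))).1 h
  have hy' : y ∉ Submodule.span F {v} := fun h => hy (Submodule.span_mono (by simp) h)
  have hy0 := ne_zero_of_not_mem hy
  have a1 := ex x v hx0 xv fun h => hx h.swap
  have a2 := ex y x hy0 (by rwa [polar_comm]) fun h => hx (R v y x 0 hv fy hy' xv h)
  have a3 := ex x y hx0 xy fun h => na y x hy0 h.swap a2
  have a4 : Fs Q ω x (v + y) 0 := (a1.mul a3).congr rfl (by grind)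
  have hvy : v + y ≠ 0 := fun h => hy' (by
    rw [eq_neg_of_add_eq_zero_right h]
    exact Submodule.neg_mem _ (Submodule.mem_span_singleton_self v))
  refine na (v + y) v hvy ((fy.add_self 1).congr (by module) rfl).swap
    (R (v + y) x v 1 hvy a4.swap (fun h => ?_) (by qsimp; grind) a1)
  obtain ⟨c, hc⟩ := Submodule.mem_span_singleton.1 h
  rcases h2 c with rfl | rfl
  · exact hx0 (by rw [← hc, zero_smul])
  · exact hy (Submodule.mem_span_pair.2 ⟨-1, 1, by rw [← hc]; module⟩)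

theorem as_triple {e : F} (he0 : e ≠ 0) (he1 : e ≠ 1) {a b c : V} (ha : As Q ω a) (hb : As Q ω b)
    (hc : As Q ω c) (ab : polar Q a b = 0) (ac : polar Q c a = 1) (bc : polar Q c b = 1) :
    Fs Q ω b (e • a) 0 := by
  have h0 : 1 + e ≠ 0 := by grind
  have h1 := hc.move (hb.move (hc.move ha 1) e) (1 + e)⁻¹
  have h2 : As Q ω (a + e • b) := by
    convert h1 using 1
    have := mul_inv_cancel₀ h0
    qsimp
    rw [ac, polar_comm Q b a, ab, polar_comm Q b c, bc]
    match_scalars <;> grind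
  have ba : polar Q b (e • a) = 0 := by qsimp; rw [polar_comm, ab, mul_zero]
  have h3 : Es Q b (e • a) 0 = Es Q (a + e • b) 0 1 * Es Q a 0 1 * Es Q b 0 (e * e) :=
    SpQ_ext fun z => by
      rw [aq_mul, aq_mul, aq_tv, aq_tv, aq_tv, aq_Es ba]
      qsimp
      rw [ab, polar_comm Q b a, ab]
      match_scalars <;> grind
  exact ⟨ba, by rw [h3, mul_smul, mul_smul, (hb _).2, (ha _).2, (h2 _).2]⟩

theorem S0.uniq (hQ : ND Q) (hω : ∃ g : SpQ Q, g • ω ≠ ω)
    (ty : ∀ v, v ≠ 0 → As Q ω v ∨ S4 Q ω v) {u u' : V} (hu : u ≠ 0) (h : S0 Q ω u)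
    (h' : S0 Q ω u') : u' ∈ Submodule.span F {u} := by
  by_contra hn
  obtain ⟨v, v1, v2⟩ := exists_polar_one hQ (not_mem_span_swap hu hn) 1
  rcases ty v (ne_zero_of_polar_eq_one ((polar_comm _ _ _).trans v1)) with t | t
  · have := h.perp_as hQ hω t
    rw [polar_comm, v1] at this
    exact one_ne_zero this
  · obtain ⟨c, hc⟩ := Submodule.mem_span_singleton.1 (t _ _ (h' v 0 (v2 u' rfl)).swap).1
    have := h.perp hQ hω h'
    rw [← hc, polar_smul_right', v1, mul_one] at this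
    exact ne_zero_of_not_mem hn (by rw [← hc, this, zero_smul])

variable {V₁ : Type*} [AddCommGroup V₁] [Module F V₁] {Q₁ : QuadraticForm F V₁}

theorem not_SZ (S : HypSplit Q Q₁) (h₁ : ND Q₁) (h3 : 3 ≤ finrank F V)
    (hω : ∃ g : SpQ Q, g • ω ≠ ω) {e : F} (he0 : e ≠ 0) (he1 : e ≠ 1)
    (ty : ∀ v, v ≠ 0 → S0 Q ω v ∨ SZ Q ω v ∨ S4 Q ω v) (hj : ∀ y, As Q ω (S.j y))
    (hl : ∀ v, v ≠ 0 → S4 Q ω v → ∀ x, polar Q v x = 0 → x ∉ Submodule.span F {v} →
      ∃ c : F, As Q ω (x + c • v)) {y : V₁} (hy : y ≠ 0) : False := by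
  have hQ := S.nd_of h₁
  have jne : ∀ x, x ≠ 0 → S.j x ≠ 0 := fun x hx h => hx (S.j_injective (by rw [h, map_zero]))
  have n0 : ∀ a, a ≠ 0 → ¬ S0 Q ω a := by
    intro a ha h
    have all : ∀ v, v ≠ 0 → polar Q a v = 0 → S0 Q ω v := by
      intro v hv av
      by_cases hm : a ∈ Submodule.span F {v}
      · obtain ⟨c, rfl⟩ := Submodule.mem_span_singleton.1 hm
        have hc : c ≠ 0 := left_ne_zero_of_smul ha
        simpa [smul_smul, hc] using h.smul (inv_ne_zero hc)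
      rcases ty v hv with t | t | t
      · exact t
      · exact (hm (t.2 _ _ (h v 0 av).swap)).elim
      · exact (hm (t _ _ (h v 0 av).swap).1).elim
    obtain ⟨x, y, h1, h2, h4⟩ := exists_pair_perp hQ h3 a 1
    have := (all x (ne_zero_of_polar_eq_one h4) h1).perp hQ hω
      (all y (ne_zero_of_polar_eq_one ((polar_comm _ _ _).trans h4)) h2)
    exact one_ne_zero (h4.symm.trans this)
  have sz : ∀ v, v ≠ 0 → As Q ω v → SZ Q ω v := fun v hv h =>
    ((ty v hv).resolve_left (n0 v hv)).resolve_right fun t => one_ne_zero (t _ _ (h 1)).2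
  have mixed : ∀ (x : V₁) (a b : F), x ≠ 0 → (a ≠ 0 ∨ b ≠ 0) →
      ¬ As Q ω (a • S.u + b • S.w + S.j x) := by
    intro x a b hx hab h
    obtain ⟨x', hx'⟩ := h₁.exists_eq hx 1
    have h1 := as_triple he0 he1 h (hj x) (hj x')
      (by qsimp; rw [S.uj, S.wj, S.Qj]; grind)
      (by qsimp; rw [S.ju, S.jw, S.polar_j, polar_comm, hx']; ring)
      (by rw [S.polar_j, polar_comm, hx'])
    obtain ⟨c, hc⟩ := Submodule.mem_span_singleton.1 ((sz _ (jne x hx) (hj x)).2 _ _ h1)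
    have e1 := congrArg (polar Q S.u) hc
    have e2 := congrArg (polar Q S.w) hc
    qsimp at e1 e2
    rw [S.uj, S.huw, S.hu] at e1
    rw [S.wj, S.hwu, S.hw] at e2
    grind
  obtain ⟨y', hy'⟩ := h₁.exists_eq hy 1
  have p0 : S.u + S.j y ≠ 0 := ne_zero_of_polar_eq_one (w := S.w) (Q := Q)
    (by qsimp; rw [S.huw, S.jw, add_zero])
  have s4 : S4 Q ω (S.u + S.j y) := ((ty _ p0).resolve_left (n0 _ p0)).resolve_left fun t =>
    mixed y 1 0 hy (Or.inl one_ne_zero) (by simpa using t.1)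
  obtain ⟨c, hc⟩ := hl _ p0 s4 (S.w + S.j y')
    (by qsimp; rw [S.huw, S.uj, S.jw, S.polar_j, hy']; grind) (fun h => by
      obtain ⟨c, hc⟩ := Submodule.mem_span_singleton.1 h
      have e1 := congrArg (polar Q S.u) hc
      qsimp at e1
      rw [S.uj, S.uj, S.huw, S.hu] at e1
      grind)
  refine mixed (y' + c • y) c 1 (fun h => ?_) (Or.inr one_ne_zero) (by
    convert hc using 1
    rw [map_add, map_smul]
    module)
  have := congrArg (polar Q₁ y) h
  qsimp at this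
  grind

theorem S0_of_levi (S : HypSplit Q Q₁) (h3 : 3 ≤ finrank F V) (hQ : ND Q) {c : F}
    (hc0 : c ≠ 0) (hc1 : c ≠ 1) {h : SpQ Q} (h0 : h • ω = ω) (hu : aq h S.u = c • S.u)
    (hw : aq h S.w = c⁻¹ • S.w) (hj : ∀ y, aq h (S.j y) = S.j y) (s4 : S4 Q ω S.u)
    (s1 : ∀ y, y ≠ 0 → S1 Q ω (S.j y)) : S0 Q ω S.w := by
  have key : ∀ y, Fs Q ω S.w (S.j y) 0 := by
    intro y
    by_cases hy : y = 0
    · rw [hy, map_zero]; exact fs_zero
    obtain ⟨z, -, hz⟩ := s1 y hy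
    refine (hz S.w 0 (S.jw y) ?_).swap
    by_contra hα
    have h1 : c * c + 1 ≠ 0 := fun h => hc1 (by
      have : (c + 1) * (c + 1) = 0 := by grind
      grind)
    obtain ⟨a, ha⟩ : ∃ a, (c * c + 1) * a = 1 := ⟨_, mul_inv_cancel₀ h1⟩
    obtain ⟨i, hi⟩ : ∃ i, polar Q z S.w * i = 1 := ⟨_, mul_inv_cancel₀ hα⟩
    have hc := mul_inv_cancel₀ hc0
    have f1 := hz (a • S.u + (a * polar Q z S.u * i) • S.w) 0
      (by qsimp; rw [S.ju, S.jw]; ring) (by qsimp; grind)
    have f2 := (hz (((1 + a) * c⁻¹) • S.u + (a * polar Q z S.u * i * c) • S.w)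
      (a * polar Q z S.u * i) (by qsimp; rw [S.ju, S.jw]; ring) (by qsimp; grind)).map_fix h0
    rw [hj, aq_add, aq_smul, aq_smul, hu, hw] at f2
    have f3 : Fs Q ω (S.j y) S.u 0 := by
      refine (f1.mul f2).congr ?_ ?_
      · match_scalars <;> grind
      · qsimp; rw [S.hu, S.hw, S.huw, S.hwu]; grind
    obtain ⟨d, hd⟩ := Submodule.mem_span_singleton.1 (s4 _ _ f3.swap).1
    have := congrArg S.p hd
    rw [map_smul, S.p_u, smul_zero, S.pj] at this
    exact hy this.symm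
  have key2 : ∀ x, polar Q S.w x = 0 → Fs Q ω S.w x 0 := fun x hx =>
    ((key (S.p x)).add_self (polar Q x S.u)).congr (by
      conv_rhs => rw [S.decomp x, polar_comm Q x S.w, hx]
      module) rfl
  exact (as_of_zero hQ h3 key2).s0 fun x hx => ⟨0, key2 x hx⟩

end Cfsg.Agent.H66
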