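import Cfsg.Agent.H66.SpGeo

/-!
The spread argument in dimension four and double counting of the centres of full radicals.
-/

set_option autoImplicit false
set_option linter.unusedSectionVars false

namespace Cfsg.Agent.H66

open Module QuadraticMap Cfsg.Agent.H11 Classical

variable {F V : Type*} [Field F] [AddCommGroup V] [Module F V] {Q : QuadraticForm F V}
variable [CharP F 2] [FiniteDimensional F V]
variable {Ω : Type*} [MulAction (SpQ Q) Ω] {ω : Ω}

theorem mem_span_three (hQ : ND Q) (h4 : finrank F V ≤ 4) {p b b' x : V} (hp : p ≠ 0)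
    (hb : b ∉ Submodule.span F {p}) (hb' : b' ∉ Submodule.span F {p, b}) (h1 : polar Q p b = 0)
    (h2 : polar Q p b' = 0) (h3 : polar Q p x = 0) : x ∈ Submodule.span F {p, b, b'} := by
  by_contra hx
  have step : ∀ (s t : Set V) (a : V), s ⊆ t → a ∈ t → a ∉ Submodule.span F s →
      finrank F (Submodule.span F s) < finrank F (Submodule.span F t) := fun s t a h h1 h2 =>
    Submodule.finrank_lt_finrank_of_lt (lt_of_le_of_ne (Submodule.span_mono h) fun e =>
      h2 (e ▸ Submodule.subset_span h1))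
  obtain ⟨z, hz⟩ := hQ.exists_ne hp
  have a0 := finrank_span_singleton (K := F) hp
  have a1 := step {p} {p, b} b (by simp) (by simp) hb
  have a2 := step {p, b} {p, b, b'} b' (by intro a; simp; tauto) (by simp) hb'
  have a3 := step {p, b, b'} {p, b, b', x} x (by intro a; simp; tauto) (by simp) hx
  have a4 := step {p, b, b', x} Set.univ z (by simp) (by simp) fun h => hz (by
    rw [polar_comm]
    refine polar_span ?_ h
    rintro a (rfl | rfl | rfl | rfl)
    · exact polar_self2 _
    all_goals rwa [polar_comm])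
  have a5 := Submodule.finrank_le (Submodule.span F (Set.univ : Set V))
  omega

theorem mem_span_two (hQ : ND Q) (h4 : finrank F V ≤ 4) {v e x : V} (hv : v ≠ 0)
    (he : e ∉ Submodule.span F {v}) (h1 : polar Q v e = 0) (h2 : polar Q v x = 0)
    (h3 : polar Q e x = 0) : x ∈ Submodule.span F {v, e} := by
  by_contra hx
  obtain ⟨z, z1, z2⟩ := exists_polar_one hQ he 1
  have := polar_span (Q := Q) (y := e) (by
    rintro a (rfl | rfl | rfl)
    · exact h1
    · exact polar_self2 _
    · rwa [polar_comm]) (mem_span_three hQ h4 hv he hx h1 h2 (z2 v rfl))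
  rw [polar_comm, z1] at this
  exact one_ne_zero this

theorem not_all_SL [Finite F] (hQ : ND Q) (h4 : finrank F V ≤ 4) (h1 : 1 ≤ finrank F V)
    (ty : ∀ v, v ≠ 0 → SL Q ω v) : False := by
  let R : V → V → Prop := fun a b => ∀ c : F, Fs Q ω a (c • b) 0
  have perp : ∀ a b, R a b → polar Q a b = 0 := fun a b h => by simpa using (h 1).1
  have sw : ∀ a b, R a b → R b a := fun a b h => Fs.swap_smul h
  have lin : ∀ a b (α β : F), R a b → R a (α • a + β • b) := fun a b α β h c =>
    ((h (c * β)).add_self (c * α)).congr (by module) rfl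
  have U : ∀ p b b', p ≠ 0 → R p b → R p b' → b ∉ Submodule.span F {p} →
      b' ∈ Submodule.span F {p, b} := by
    intro p b b' hp h h' hb
    by_contra hb'
    refine (ty p hp).2 fun x hx => ?_
    obtain ⟨α, β, γ, e⟩ := Submodule.mem_span_triple.1
      (mem_span_three hQ h4 hp hb hb' (perp _ _ h) (perp _ _ h') hx)
    exact ⟨_, (((h β).mul (h' γ)).add_self α).congr (by rw [← e]; module) rfl⟩
  obtain ⟨v, -, hv⟩ := exists_perp_not_mem hQ ∅ ∅ (by simp; omega)
  replace hv := ne_zero_of_not_mem hv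
  obtain ⟨⟨e, he, ve⟩, -⟩ := ty v hv
  have pve := perp _ _ ve
  have part : ∀ a, polar Q v a = 1 → polar Q e a = 0 →
      ∃ b, R a b ∧ polar Q v b = 0 ∧ polar Q e b = 1 := by
    intro a a1 a2
    have ha : a ≠ 0 := by rintro rfl; simp at a1
    obtain ⟨⟨b, hb, ab⟩, -⟩ := ty a ha
    have r1 := lin a b (polar Q v b) 1 ab
    have p1 : polar Q v (polar Q v b • a + (1 : F) • b) = 0 := by qsimp; grind
    have n1 : polar Q v b • a + (1 : F) • b ∉ Submodule.span F {a} := fun h => hb (by
      rwa [Submodule.add_mem_iff_right _ (Submodule.smul_mem _ _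
        (Submodule.mem_span_singleton_self a)), one_smul] at h)
    generalize polar Q v b • a + (1 : F) • b = b' at r1 p1 n1
    have p2 : polar Q e b' ≠ 0 := by
      intro p2
      obtain ⟨α, β, rfl⟩ := Submodule.mem_span_pair.1 (mem_span_two hQ h4 hv he pve p1 p2)
      have p3 := perp _ _ r1
      qsimp at p3
      rw [polar_comm Q a v, polar_comm Q a e, a1, a2] at p3
      have hα : α = 0 := by grind
      have := U _ v a (ne_zero_of_not_mem n1) (sw _ _ (lin v e α β ve)) (sw _ _ r1) (fun h => by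
        obtain ⟨c, hc⟩ := Submodule.mem_span_singleton.1 h
        have := congrArg (fun t => polar Q t a) hc
        qsimp at this
        grind)
      have h3 := polar_span (Q := Q) (y := v) (by
        rintro t (rfl | rfl)
        · rwa [polar_comm]
        · exact polar_self2 _) this
      rw [polar_comm, a1] at h3
      exact one_ne_zero h3
    refine ⟨(0 : F) • a + (polar Q e b')⁻¹ • b', lin _ _ _ _ r1, by qsimp; rw [p1]; ring, ?_⟩
    qsimp
    rw [zero_mul, zero_add, inv_mul_cancel₀ p2]
  obtain ⟨a, a1, a2⟩ := exists_polar_one hQ (not_mem_span_swap hv he) 1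
  replace a2 := a2 e rfl
  have a3 : polar Q v (a + v) = 1 := by qsimp; grind
  have a4 : polar Q e (a + v) = 0 := by qsimp; rw [polar_comm Q e v]; grind
  obtain ⟨b, r1, b1, b2⟩ := part a a1 a2
  obtain ⟨b', r2, b3, b4⟩ := part (a + v) a3 a4
  obtain ⟨α, β, hb⟩ := Submodule.mem_span_pair.1 (mem_span_two hQ h4 (x := b + b') hv he pve
    (by qsimp; grind) (by qsimp; grind))
  have hb' : b' = b + α • v + β • e := by
    rw [add_assoc, hb, ← add_assoc, add_self2 F, zero_add]
  have hα : α = 0 := by
    have h1 := perp _ _ r2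
    have h2 := perp _ _ r1
    rw [hb'] at h1
    qsimp at h1
    rw [polar_comm Q a v, polar_comm Q a e] at h1
    grind
  obtain ⟨c, hc⟩ := exists_sq_of_two_eq_zero (F := F) (by grind) β
  have g0 := ve c
  have g1 : aq (Es Q v (c • e) 0) a = a + c • e := by
    rw [aq_Es g0.1]; qsimp; rw [a1, a2]; module
  have g2 : aq (Es Q v (c • e) 0) b = b + c • v := by
    rw [aq_Es g0.1]; qsimp; rw [b1, b2]; module
  have r3 : R (a + c • e) (b + c • v) := fun d => by
    have := (r1 d).map_fix g0.2
    rwa [aq_smul, g1, g2] at this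
  have r4 := sw _ _ (lin _ _ c 1 r3)
  have r5 := sw _ _ (lin _ _ c 1 r2)
  have e1 : c • (a + c • e) + (1 : F) • (b + c • v) = c • (a + v) + (1 : F) • b' := by
    rw [hb', hα, ← hc]; module
  rw [e1] at r4
  have p1 : polar Q e (c • (a + v) + (1 : F) • b') = 1 := by
    rw [polar_add_right, polar_smul_right', polar_smul_right', a4, b4]; ring
  have p2 : polar Q v (c • (a + v) + (1 : F) • b') = c := by
    rw [polar_add_right, polar_smul_right', polar_smul_right', a3, b3]; ring
  generalize c • (a + v) + (1 : F) • b' = p at r4 r5 p1 p2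
  obtain ⟨γ, δ, h⟩ := Submodule.mem_span_pair.1 (U p _ _ (by rintro rfl; simp at p1) r5 r4 (fun h => by
    obtain ⟨d, hd⟩ := Submodule.mem_span_singleton.1 h
    have q1 := congrArg (polar Q e) hd
    have q2 := congrArg (polar Q v) hd
    rw [polar_smul_right', p1, a4] at q1
    rw [polar_smul_right', p2, a3] at q2
    grind))
  have q1 := congrArg (polar Q e) h
  have q2 := congrArg (polar Q v) h
  rw [polar_add_right, polar_smul_right', polar_smul_right', p1, a4] at q1
  rw [polar_add_right, polar_smul_right', polar_smul_right', p2, a3] at q2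
  qsimp at q1 q2
  have hγ : γ = 0 := by grind
  have hδ : δ = 1 := by grind
  rw [hγ, hδ, zero_smul, zero_add, one_smul, add_right_inj] at h
  have hc0 : c ≠ 0 := by rintro rfl; exact hv (by rw [h, zero_smul])
  exact he (Submodule.mem_span_singleton.2 ⟨c⁻¹, by rw [h, smul_smul, inv_mul_cancel₀ hc0, one_smul]⟩)

theorem card_ne_zero' (V : Type*) [Zero V] [Finite V] :
    Nat.card {x : V // x ≠ 0} + 1 = Nat.card V := by
  have := Fintype.ofFinite V
  rw [← card_filter_eq, Finset.filter_ne', Finset.card_erase_add_one (Finset.mem_univ _),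
    Finset.card_univ, Nat.card_eq_fintype_card]

variable [Finite F] [Finite Ω]

theorem bound_S0 (hQ : ND Q) {ω₀ : Ω} {v₀ : V} (hv0 : v₀ ≠ 0) (h : S0 Q ω₀ v₀)
    (hs : ∀ (ω : Ω) u u', u ≠ 0 → S0 Q ω u → S0 Q ω u' → u' ∈ Submodule.span F {u}) :
    Nat.card V ≤ Nat.card Ω * (Nat.card F - 1) + 1 := by
  have : Finite V := Module.finite_of_finite F
  have := card_mul_le_of_rel (X := {x : V // x ≠ 0}) (Ω := Ω)
    (fun x ω => S0 Q ω x.1) (a := 1) (b := Nat.card F - 1) (fun x => by
      obtain ⟨g, e⟩ := SpQ_trans hQ hv0 x.2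
      have : Nonempty {ω // S0 Q ω x.1} := ⟨⟨_, e ▸ h.map g⟩⟩
      exact Nat.card_pos) (fun ω => by
      by_cases hne : Nonempty {x : {x : V // x ≠ 0} // S0 Q ω x.1}
      · obtain ⟨u⟩ := hne
        have := fun x : {x : {x : V // x ≠ 0} // S0 Q ω x.1} =>
          Submodule.mem_span_singleton.1 (hs ω u.1 x.1 u.1.2 u.2 x.2)
        choose c hc using this
        rw [← Nat.card_units]
        refine Nat.card_le_card_of_injective (fun x => Units.mk0 (c x) fun h => x.1.2 (by
          rw [← hc x, h, zero_smul])) fun a b hab => Subtype.ext (Subtype.ext ?_)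
        have e : c a = c b := congrArg Units.val hab
        rw [← hc a, ← hc b, e]
      · rw [not_nonempty_iff] at hne
        rw [Nat.card_of_isEmpty]
        exact Nat.zero_le _)
  rw [← card_ne_zero' V]
  omega

theorem bound_S0_big (hQ : ND Q) (htr : ∀ ω ω' : Ω, ∃ g : SpQ Q, g • ω = ω')
    (hω : ∀ ω : Ω, ∃ g : SpQ Q, g • ω ≠ ω) {ω₀ : Ω} {a b : V} (ha0 : a ≠ 0) (ha : S0 Q ω₀ a)
    (hb : S0 Q ω₀ b) (hab : b ∉ Submodule.span F {a}) {u : V} (hu : u ≠ 0) :
    Nat.card Ω * (Nat.card F ^ 2 - 1) ≤ Nat.card {ω : Ω // S0 Q ω u} * (Nat.card V - 1) := by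
  have : Finite V := Module.finite_of_finite F
  have all : ∀ t : F × F, t ≠ 0 → t.1 • a + t.2 • b ≠ 0 ∧ S0 Q ω₀ (t.1 • a + t.2 • b) := by
    rintro ⟨c, d⟩ ht
    by_cases hd : d = 0
    · have hc : c ≠ 0 := fun h => ht (Prod.ext h hd)
      simpa [hd] using ⟨⟨hc, ha0⟩, ha.smul hc⟩
    · have hm : d • b ∉ Submodule.span F {a} := by rwa [Submodule.smul_mem_iff _ hd]
      refine ⟨fun h => hm ?_, by
        rw [add_comm]; exact ha.add hQ (hω ω₀) (hb.smul hd) hm c⟩
      rw [eq_neg_of_add_eq_zero_right h]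
      exact Submodule.neg_mem _ (Submodule.smul_mem _ _ (Submodule.mem_span_singleton_self a))
  have := card_mul_le_of_rel (X := Ω) (Ω := {x : V // x ≠ 0})
    (fun ω x => S0 Q ω x.1) (a := Nat.card F ^ 2 - 1) (b := Nat.card {ω : Ω // S0 Q ω u})
    (fun ω => by
      obtain ⟨g, rfl⟩ := htr ω₀ ω
      have h1 := card_ne_zero' (F × F)
      rw [Nat.card_prod, ← pow_two] at h1
      rw [← h1, Nat.add_sub_cancel]
      refine Nat.card_le_card_of_injective (fun t => ⟨⟨aq g (t.1.1 • a + t.1.2 • b),
        aq_ne_zero g (all _ t.2).1⟩, (all _ t.2).2.map g⟩) fun s t hst => ?_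
      have e : s.1.1 • a + s.1.2 • b = t.1.1 • a + t.1.2 • b :=
        aq_injective g (congrArg (fun z => z.1.1) hst)
      by_contra hne
      refine (all (s.1 - t.1) (sub_ne_zero.2 fun h => hne (Subtype.ext h))).1 ?_
      rw [← sub_eq_zero] at e
      rw [← e, Prod.fst_sub, Prod.snd_sub]
      module) (fun x => by
      obtain ⟨g, e⟩ := SpQ_trans hQ x.2 hu
      exact Nat.card_le_card_of_injective (fun ω => ⟨g • ω.1, e ▸ ω.2.map g⟩) fun a b hab =>
          Subtype.ext (MulAction.injective _ (congrArg Subtype.val hab)))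
  rw [← card_ne_zero' V, Nat.add_sub_cancel, mul_comm _ (Nat.card {x : V // x ≠ 0})]
  exact this

end Cfsg.Agent.H66
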