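import Cfsg.Agent.H66.SpCnt

/-!
Types of the point stabilisers in small actions of symplectic groups in characteristic two.
-/

set_option autoImplicit false
set_option linter.unusedSectionVars false

namespace Cfsg.Agent.H66

open Module QuadraticMap Cfsg.Agent.H11 Classical

variable {F V : Type*} [Field F] [AddCommGroup V] [Module F V] {Q : QuadraticForm F V}
variable {V₁ : Type*} [AddCommGroup V₁] [Module F V₁] {Q₁ : QuadraticForm F V₁}
variable [CharP F 2] [Finite F] {S : HypSplit Q Q₁} {h₁ : ND Q₁}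
variable {Ω : Type*} [MulAction (SpQ Q) Ω] [Finite V₁] [Finite Ω]
variable [FiniteDimensional F V] [FiniteDimensional F V₁]

theorem one_le_C {T : Finset ((spRad S h₁).Orb Ω)} {O : (spRad S h₁).Orb Ω} (hO : O ∈ T)
    {χ : V₁ × F} (h : χ ∈ (spRad S h₁).A O) : 1 ≤ ((spRad S h₁).C T χ).card :=
  Finset.card_pos.2 ⟨O, (spRad S h₁).mem_C.2 ⟨hO, h⟩⟩

theorem exists_of_not_as {ω : Ω} (h : ¬ As Q ω S.u) :
    ∃ z μ, μ ≠ 0 ∧ (μ • z, μ) ∈ (spRad S h₁).A ((spRad S h₁).orb ω) := by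
  rw [as_iff S h₁] at h
  push Not at h
  obtain ⟨⟨y, μ⟩, h1, h2⟩ := h
  exact ⟨μ⁻¹ • y, μ, h2, by rwa [smul_inv_smul₀ h2]⟩

theorem Eqv.bound {P : Ω → V → Prop} (hP : Eqv Q P) {k : ℕ} (hk : finrank F V₁ = 2 * k) {ω : Ω}
    (h : P ω S.u) (h' : ¬ As Q ω S.u) : Nat.card F * (Nat.card F ^ k) ^ 2 ≤
      2 * ∑ O ∈ TP S h₁ P, Nat.card ((spRad S h₁).A O) + Nat.card F * Nat.card F ^ k := by
  obtain ⟨z, μ, hμ, hz⟩ := exists_of_not_as (h₁ := h₁) h'
  have h1 := (hP.inv (S := S) (h₁ := h₁)).bound1 z hμ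
  have h2 := Nat.mul_le_mul_right (cD (Qc Q₁ z)) (one_le_C (hP.mem.2 h) hz)
  have h3 := Nat.mul_le_mul_left (Nat.card F) (cD_bound' (nd_Qc h₁ z) hk)
  have h4 := Nat.mul_le_mul_left (Nat.card F) h2
  nlinarith

theorem two_sum_a0_le {P : Ω → V → Prop} (hP : Eqv Q P) (h : ∀ ω, P ω S.u → ¬ As Q ω S.u) :
    2 * ∑ O ∈ TP S h₁ P, a0 S h₁ O ≤ ∑ O ∈ TP S h₁ P, Nat.card ((spRad S h₁).A O) := by
  rw [Finset.mul_sum]
  refine Finset.sum_le_sum fun O hO => ?_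
  obtain ⟨ω, rfl⟩ := (spRad S h₁).orb_surj O
  obtain ⟨l, h1, -, h2, -⟩ := card_A S h₁ ((spRad S h₁).orb ω)
  obtain ⟨z, μ, hμ, hz⟩ := exists_of_not_as (h₁ := h₁) (h ω (hP.mem.1 hO))
  rw [h1, mul_comm]
  exact Nat.mul_le_mul_left _ (h2 ⟨_, hz, hμ⟩)

theorem card_eq_sq {k : ℕ} (hk : finrank F V₁ = 2 * k) : Nat.card V₁ = (Nat.card F ^ k) ^ 2 := by
  rw [Module.natCard_eq_pow_finrank (K := F), hk, mul_comm, pow_mul]

variable (S h₁)

include h₁ in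
theorem exists_not_as [Nonempty Ω] (hω : ∀ ω : Ω, ∃ g : SpQ Q, g • ω ≠ ω) :
    ∃ ω : Ω, ¬ As Q ω S.u := by
  by_contra hn
  push Not at hn
  obtain ⟨ω⟩ := ‹Nonempty Ω›
  obtain ⟨g, hg⟩ := hω ω
  exact hg (smul_eq_of_as (S.nd_of h₁) (all_of_one (S.nd_of h₁) _ eqv_as.map
    (ne_zero_of_polar_eq_one S.huw) hn ω) g)

include S h₁ in
theorem sp_two [Nonempty Ω] (hω : ∀ ω : Ω, ∃ g : SpQ Q, g • ω ≠ ω) {k : ℕ}
    (hk : finrank F V₁ = 2 * k) (h2 : 2 ≤ k) (hq : Nat.card F = 2) :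
    2 * (2 ^ k) ^ 2 ≤ Nat.card Ω + 2 ^ k := by
  by_contra hlt
  have hd := S.finrank_eq
  obtain ⟨ω₀, h0⟩ := exists_not_as S h₁ hω
  refine not_all_SQ (S.nd_of h₁) (by omega) (hω ω₀) (eq_of_card_two hq) (all_of_one (S.nd_of h₁) _
    eqv_sq.map (ne_zero_of_polar_eq_one S.huw) (fun ω => (sq_iff S h₁).2 fun y hy => ?_) ω₀)
  by_contra hy0
  have hV := card_eq_sq hk
  have e1 := sum_add_sum_le (S := S) (h₁ := h₁) (Ω := Ω) eqv_as eqv_as.not fun _ a b => b a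
  by_cases h : As Q ω S.u
  · have a1 := (eqv_as.inv (S := S) (h₁ := h₁) (Ω := Ω)).bound0 hy0
    have a2 := Nat.mul_le_mul_right (Nat.card V₁) (one_le_C (eqv_as.mem.2 h) hy)
    have a3 := sum_a0_le S h₁ (TP S h₁ (As Q (Ω := Ω)))
    have a4 := eqv_as.not.bound (h₁ := h₁) hk h0 h0
    rw [hq] at a4 hV
    omega
  · have a1 := (eqv_as.not.inv (S := S) (h₁ := h₁) (Ω := Ω)).bound0 hy0
    have a2 := Nat.mul_le_mul_right (Nat.card V₁) (one_le_C (eqv_as.not.mem.2 h) hy)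
    have a3 := two_sum_a0_le (S := S) (h₁ := h₁) (Ω := Ω) eqv_as.not fun _ h => h
    rw [hq] at hV
    generalize 2 ^ k = X at *
    omega

/-- The standing hypotheses: a nontrivial transitive action with fewer points than the projective
space, over a field with at least four elements. -/
structure Small (S : HypSplit Q Q₁) (Ω : Type*) [MulAction (SpQ Q) Ω] (k : ℕ) : Prop where
  hk : finrank F V₁ = 2 * k
  k1 : 1 ≤ k
  hq : 4 ≤ Nat.card F
  ne : Nonempty Ω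
  hω : ∀ ω : Ω, ∃ g : SpQ Q, g • ω ≠ ω
  htr : ∀ ω ω' : Ω, ∃ g : SpQ Q, g • ω = ω'
  lt : Nat.card Ω * (Nat.card F - 1) + 1 < Nat.card F ^ 2 * (Nat.card F ^ k) ^ 2

variable {S} {k : ℕ}

theorem Small.exists_e (hs : Small S Ω k) : ∃ e : F, e ≠ 0 ∧ e ≠ 1 := by
  by_contra hn
  push Not at hn
  have := Fintype.ofFinite F
  have h1 := Finset.card_le_card (s := Finset.univ) (t := ({0, 1} : Finset F)) fun c _ => by
    by_cases h : c = 0
    · simp [h]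
    · simp [hn c h]
  have h2 : ({0, 1} : Finset F).card ≤ 2 := Finset.card_le_two
  rw [Finset.card_univ, ← Nat.card_eq_fintype_card] at h1
  have := hs.hq
  omega

theorem Small.num (hs : Small S Ω k) : ∃ r d, Nat.card F = r + 4 ∧ Nat.card F ^ k = r + 4 + d ∧
    Nat.card Ω * (r + 3) + 1 < (r + 4) ^ 2 * (r + 4 + d) ^ 2 := by
  obtain ⟨r, hr⟩ := Nat.exists_eq_add_of_le' hs.hq
  obtain ⟨d, hd⟩ := Nat.exists_eq_add_of_le (Nat.le_self_pow (n := k) (by have := hs.k1; omega)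
    (Nat.card F))
  have := hs.lt
  rw [hd, hr] at this
  exact ⟨r, d, hr, by rw [hd, hr], this⟩

theorem Small.lt1 (hs : Small S Ω k) :
    2 * Nat.card Ω + Nat.card F * Nat.card F ^ k < 3 * (Nat.card F * (Nat.card F ^ k) ^ 2) := by
  obtain ⟨r, d, h1, h2, h3⟩ := hs.num
  rw [h2, h1]
  refine Nat.lt_of_mul_lt_mul_right (a := r + 3) ?_
  have : 2 * ((r + 4) ^ 2 * (r + 4 + d) ^ 2) + (r + 4) * (r + 4 + d) * (r + 3) ≤
      3 * ((r + 4) * (r + 4 + d) ^ 2) * (r + 3) := by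
    ring_nf
    omega
  nlinarith

theorem Small.lt2 (hs : Small S Ω k) :
    Nat.card Ω < Nat.card F * (Nat.card F ^ k) ^ 2 + 2 * (Nat.card F ^ k) ^ 2 := by
  obtain ⟨r, d, h1, h2, h3⟩ := hs.num
  rw [h2, h1]
  generalize (r + 4 + d) ^ 2 = Y at *
  refine Nat.lt_of_mul_lt_mul_right (a := r + 3) ?_
  nlinarith

theorem Small.C0_lt (hs : Small S Ω k) {y : V₁} (hy : y ≠ 0) (ω : Ω) :
    ∃ T : Finset ((spRad S h₁).Orb Ω), Inv S h₁ T ∧ (spRad S h₁).orb ω ∈ T ∧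
      ((spRad S h₁).C T (y, 0)).card < Nat.card F := by
  have := hs.ne
  obtain ⟨ω₀, h0⟩ := exists_not_as S h₁ hs.hω
  have hV := card_eq_sq hs.hk
  have e1 := sum_add_sum_le (S := S) (h₁ := h₁) (Ω := Ω) eqv_as eqv_as.not fun _ a b => b a
  have e2 := hs.lt1
  by_cases h : As Q ω S.u
  · refine ⟨_, eqv_as.inv, eqv_as.mem.2 h, not_le.1 fun hc => ?_⟩
    have a1 := (eqv_as.inv (S := S) (h₁ := h₁) (Ω := Ω)).bound0 hy
    have a2 := Nat.mul_le_mul_right (Nat.card V₁) hc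
    have a3 := sum_a0_le S h₁ (TP S h₁ (As Q (Ω := Ω)))
    have a4 := eqv_as.not.bound (h₁ := h₁) hs.hk h0 h0
    rw [hV] at a1 a2
    omega
  · refine ⟨_, eqv_as.not.inv, eqv_as.not.mem.2 h, not_le.1 fun hc => ?_⟩
    have a1 := (eqv_as.not.inv (S := S) (h₁ := h₁) (Ω := Ω)).bound0 hy
    have a2 := Nat.mul_le_mul_right (Nat.card V₁) hc
    have a3 := two_sum_a0_le (S := S) (h₁ := h₁) (Ω := Ω) eqv_as.not fun _ h => h
    rw [hV] at a1 a2
    omega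

theorem Small.tv_fix (hs : Small S Ω k) {O : (spRad S h₁).Orb Ω} {y x : V₁} (hy : y ≠ 0)
    (h : (y, (0 : F)) ∈ (spRad S h₁).A O) (hx : polar Q₁ x y = 0) (a : F) :
    tvP S x a • O = O := by
  obtain ⟨ω, rfl⟩ := (spRad S h₁).orb_surj O
  obtain ⟨T, hT, h1, h2⟩ := hs.C0_lt h₁ hy ω
  refine fix_of_card_lt _ (tvP S x) (tvP_add S x) (fun s O hO => ?_) (fun c hc => ?_) h2 a
    ((spRad S h₁).mem_C.2 ⟨h1, h⟩)
  · rw [AbRad.mem_C] at hO ⊢
    have := memA0_tv x s hO.2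
    rw [hx, mul_zero, zero_smul, add_zero] at this
    exact ⟨hT _ _ hO.1, this⟩
  obtain ⟨e, rfl⟩ := exists_sq_of_two_eq_zero (F := F) (by grind) c
  have he : e ≠ 0 := left_ne_zero_of_mul hc
  obtain ⟨g, c, g1, g2, g3⟩ : ∃ (g : SpQ Q) (c : F), aq g S.u = c • S.u ∧
      aq g (S.j y) = c • S.j y ∧ aq g (S.j x) = e • S.j x := by
    by_cases hm : x ∈ Submodule.span F {y}
    · obtain ⟨b, rfl⟩ := Submodule.mem_span_singleton.1 hm
      obtain ⟨y', hy'⟩ := h₁.exists_eq hy 1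
      obtain ⟨t, t1, -, t2⟩ := exists_tor (Q := Q) (e := S.j y) (f := S.j y')
        (by rw [S.polar_j, hy']) he
      obtain ⟨g, g1, -, g2⟩ := exists_torP S he
      refine ⟨g.1 * t, e, ?_, ?_, ?_⟩
      · rw [aq_mul, t2 _ (S.ju _) (S.ju _), g1]
      · rw [aq_mul, t1, aq_smul, g2]
      · rw [map_smul, aq_smul, aq_mul, t1, aq_smul, g2, smul_comm]
    · obtain ⟨x', x1, x2⟩ := exists_polar_one h₁ hm 1
      obtain ⟨t, t1, -, t2⟩ := exists_tor (Q := Q) (e := S.j x) (f := S.j x')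
        (by rw [S.polar_j, x1]) he
      refine ⟨t, 1, ?_, ?_, t1⟩
      · rw [t2 _ (S.ju _) (S.ju _), one_smul]
      · rw [t2 _ (by rw [S.polar_j, hx]) (by rw [S.polar_j, polar_comm, x2 y rfl]), one_smul]
  refine ⟨⟨g, c, g1⟩, fun O hO => ?_, fun s => Subtype.ext ?_⟩
  · rw [AbRad.mem_C] at hO ⊢
    exact ⟨hT _ _ hO.1, memA0_map S h₁ ⟨g, c, g1⟩ g1 g2 hO.2⟩
  · show g * Es Q _ 0 _ = Es Q _ 0 _ * g
    rw [Es_conj _ (polar_zero_right _ _), g3, aq_zero, Es_smul (polar_zero_right _ _), smul_zero]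

theorem Small.add_mem (hs : Small S Ω k) {O : (spRad S h₁).Orb Ω} {y x z : V₁} (hy : y ≠ 0)
    (h : (y, (0 : F)) ∈ (spRad S h₁).A O) (hx : polar Q₁ x y = 0) {a ρ μ : F}
    (hρ : ρ * ρ = a + a * a * Q₁ x) (hz : (z, μ) ∈ (spRad S h₁).A O) :
    ((a * polar Q₁ x z + μ * ρ) • x, (0 : F)) ∈ (spRad S h₁).A O := by
  have h1 := (memA_tv S h₁ x hρ).2 hz
  rw [hs.tv_fix h₁ hy h hx] at h1
  simpa using ((spRad S h₁).A O).sub_mem h1 hz

theorem Small.line_or_all (hs : Small S Ω k) (O : (spRad S h₁).Orb Ω) :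
    (∀ y z, y ≠ 0 → (y, (0 : F)) ∈ (spRad S h₁).A O → (z, (0 : F)) ∈ (spRad S h₁).A O →
      z ∈ Submodule.span F {y}) ∨ ∀ z, (z, (0 : F)) ∈ (spRad S h₁).A O := by
  have add : ∀ a b : V₁, (a, (0 : F)) ∈ (spRad S h₁).A O → (b, (0 : F)) ∈ (spRad S h₁).A O →
      (a + b, (0 : F)) ∈ (spRad S h₁).A O := fun a b ha hb => by
    simpa using ((spRad S h₁).A O).add_mem ha hb
  have key : ∀ y z, y ≠ 0 → (y, (0 : F)) ∈ (spRad S h₁).A O → (z, (0 : F)) ∈ (spRad S h₁).A O →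
      z ∉ Submodule.span F {y} → ∀ x, polar Q₁ y x = 0 → (x, (0 : F)) ∈ (spRad S h₁).A O := by
    intro y z hy h hz hm
    have one : ∀ x, polar Q₁ y x = 0 → polar Q₁ z x ≠ 0 → (x, (0 : F)) ∈ (spRad S h₁).A O := by
      intro x x1 x2
      obtain ⟨ρ, hρ⟩ := exists_sq_of_two_eq_zero (F := F) (by grind)
        ((polar Q₁ z x)⁻¹ + (polar Q₁ z x)⁻¹ * (polar Q₁ z x)⁻¹ * Q₁ x)
      have := hs.add_mem h₁ hy h (by rwa [polar_comm]) hρ hz
      rwa [polar_comm Q₁ x, inv_mul_cancel₀ x2, zero_mul, add_zero, one_smul] at this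
    intro x hx
    by_cases h0 : polar Q₁ z x = 0
    · obtain ⟨t, t1, t2⟩ := exists_polar_one h₁ hm 1
      have := add _ _ (one (x + t) (by rw [polar_add_right, hx, t2 y rfl, add_zero])
        (by rw [polar_add_right, h0, t1, zero_add]; exact one_ne_zero))
        (one t (t2 y rfl) (by rw [t1]; exact one_ne_zero))
      rwa [add_assoc, add_self2 F, add_zero] at this
    · exact one x hx h0
  rw [or_iff_not_imp_left]
  intro hn x
  push Not at hn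
  obtain ⟨y, z, hy, h, hz, hm⟩ := hn
  have hm' := not_mem_span_swap hy hm
  obtain ⟨t, t1, t2⟩ := exists_polar_one h₁ hm' (polar Q₁ y x)
  have := add _ _ (key y z hy h hz hm (x + t) (by rw [polar_add_right, t1]; grind))
    (key z y (ne_zero_of_not_mem hm) hz h hm' t (t2 z rfl))
  rwa [add_assoc, add_self2 F, add_zero] at this

include h₁ in
theorem Small.s4_of_sx (hs : Small S Ω k) {ω : Ω} (h : ¬ As Q ω S.u) (h' : SX Q ω S.u) :
    S4 Q ω S.u := by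
  by_contra h4
  have := Fintype.ofFinite V₁
  have := Fintype.ofFinite F
  have hP := (eqv_sx (Q := Q) (Ω := Ω)).and eqv_s4.not
  obtain ⟨z, μ, hμ, hz⟩ := exists_of_not_as (h₁ := h₁) h
  have a1 := mul_card_add_le S h₁ (TP S h₁ fun (ω : Ω) v => SX Q ω v ∧ ¬ S4 Q ω v) 1
    (Finset.univ ×ˢ Finset.univ.erase 0)
    (fun χ hχ => Finset.ne_of_mem_erase (Finset.mem_product.1 hχ).2) fun χ hχ => by
      have h0 := Finset.ne_of_mem_erase (Finset.mem_product.1 hχ).2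
      obtain ⟨O, hO⟩ := Finset.card_pos.1 ((one_le_C (hP.mem.2 ⟨h', h4⟩) hz).trans
        (hP.inv.C_smul_le _ (div_ne_zero h0 hμ)))
      obtain ⟨ω', rfl⟩ := (spRad S h₁).orb_surj O
      rw [AbRad.mem_C] at hO
      refine one_le_C hO.1 ?_
      convert ((spRad S h₁).A _).add_mem hO.2
        (all_of_sx S h₁ (hP.mem.1 hO.1).1 (χ.1 - (χ.2 / μ) • μ • z)) using 1
      ext
      · simp
      · simp [hμ]
  have a2 : 2 * ∑ O ∈ TP S h₁ fun (ω : Ω) v => SX Q ω v ∧ ¬ S4 Q ω v, Nat.card ((spRad S h₁).A O) ≤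
      Nat.card F * ∑ O ∈ TP S h₁ fun (ω : Ω) v => SX Q ω v ∧ ¬ S4 Q ω v, a0 S h₁ O := by
    rw [Finset.mul_sum, Finset.mul_sum]
    refine Finset.sum_le_sum fun O hO => ?_
    obtain ⟨ω', rfl⟩ := (spRad S h₁).orb_surj O
    obtain ⟨l, h1, ⟨m, hm⟩, -, h2⟩ := card_A S h₁ ((spRad S h₁).orb ω')
    have hm1 : m ≠ 1 := fun e => (hP.mem.1 hO).2 ((s4_iff S h₁).2 fun χ => by
      obtain ⟨y, hy⟩ := h2 (by rw [hm, e, mul_one]) χ.2
      simpa using ((spRad S h₁).A _).add_mem hy (all_of_sx S h₁ (hP.mem.1 hO).1 (χ.1 - y)))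
    have hm0 : m ≠ 0 := fun e => by have := hs.hq; rw [hm, e] at this; omega
    rw [h1, hm]
    have : 2 ≤ m := by omega
    nlinarith [Nat.mul_le_mul_left (a0 S h₁ ((spRad S h₁).orb ω') * l) this]
  have a3 := sum_le_card2 (TP S h₁ fun (ω : Ω) v => SX Q ω v ∧ ¬ S4 Q ω v)
  rw [Finset.card_product, Finset.card_erase_of_mem (Finset.mem_univ _), Finset.card_univ,
    Finset.card_univ, ← Nat.card_eq_fintype_card, ← Nat.card_eq_fintype_card, card_eq_sq hs.hk] at a1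
  obtain ⟨r, d, h1, h2, h3⟩ := hs.num
  rw [h2, h1, show r + 4 - 1 = r + 3 from rfl] at a1
  rw [h1] at a2
  generalize (r + 4 + d) ^ 2 = Y at *
  have a4 : (r + 4) * (Y * (r + 3)) ≤ (r + 2) * Nat.card Ω := by nlinarith
  have a5 := Nat.mul_le_mul_left (r + 3) a4
  have a6 := Nat.mul_le_mul_left (r + 2) h3.le
  nlinarith

include h₁ in
theorem Small.s1_or_sz (hs : Small S Ω k) {ω : Ω} (h : As Q ω S.u) : S1 Q ω S.u ∨ SZ Q ω S.u := by
  rcases hs.line_or_all h₁ ((spRad S h₁).orb ω) with h1 | h1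
  · left
    by_cases h2 : ∃ y, y ≠ 0 ∧ (y, (0 : F)) ∈ (spRad S h₁).A ((spRad S h₁).orb ω)
    · obtain ⟨y, hy, h2⟩ := h2
      exact s1_of_line S h₁ h fun z hz => h1 y z hy h2 hz
    · push Not at h2
      refine s1_of_line S h₁ h (y := 0) fun z hz => ?_
      rw [show z = 0 from by_contra fun h0 => h2 z h0 hz]
      exact Submodule.zero_mem _
  · exact Or.inr ⟨h, fun x t hx => sx_of_all S h₁ h1 hx⟩

include h₁ in
theorem Small.sq_or_s4 (hs : Small S Ω k) (h2 : 2 ≤ k) {ω : Ω} (h : ¬ As Q ω S.u) :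
    SQ Q ω S.u ∨ S4 Q ω S.u := by
  refine (hs.line_or_all h₁ ((spRad S h₁).orb ω)).imp (fun h1 => (sq_iff S h₁).2 fun y hy => ?_)
    fun h1 => hs.s4_of_sx h₁ h fun x t hx => sx_of_all S h₁ h1 hx
  by_contra hy0
  obtain ⟨x, x1, x2⟩ := exists_perp_not_mem h₁ {y} {y} (by simp [hs.hk]; omega)
  rw [Finset.coe_singleton] at x2
  obtain ⟨z, μ, hμ, hz⟩ := exists_of_not_as (h₁ := h₁) h
  have key : ∀ a : F, a ≠ 0 → a * (polar Q₁ x z * polar Q₁ x z + Q₁ x) = 1 := by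
    intro a ha
    obtain ⟨ρ, hρ⟩ := exists_sq_of_two_eq_zero (F := F) (by grind) (a + a * a * Q₁ x)
    have h3 := h1 y _ hy0 hy (hs.add_mem h₁ hy0 hy ((polar_comm _ _ _).trans (x1 y (by simp))) hρ hz)
    have h4 : a * polar Q₁ x (μ • z) + μ * ρ = 0 := by
      by_contra h4
      exact x2 ((Submodule.smul_mem_iff _ h4).1 h3)
    rw [polar_smul_right'] at h4
    have h5 : ρ = a * polar Q₁ x z := mul_left_cancel₀ hμ (by grind)
    exact mul_left_cancel₀ ha (by grind)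
  obtain ⟨e, he0, he1⟩ := hs.exists_e
  have := key e he0
  rw [← one_mul (_ + _), key 1 one_ne_zero, mul_one] at this
  exact he1 this

end Cfsg.Agent.H66
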