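import Cfsg.Agent.H66.SpMain

/-!
Small actions of symplectic groups over fields of characteristic two with at least four elements
do not exist.
-/

set_option autoImplicit false
set_option linter.unusedSectionVars false

namespace Cfsg.Agent.H66

open Module QuadraticMap Cfsg.Agent.H11 Classical

variable {F V : Type*} [Field F] [AddCommGroup V] [Module F V] {Q : QuadraticForm F V}
variable {V₁ : Type*} [AddCommGroup V₁] [Module F V₁] {Q₁ : QuadraticForm F V₁}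
variable [CharP F 2] [Finite F] {S : HypSplit Q Q₁} (h₁ : ND Q₁)
variable {Ω : Type*} [MulAction (SpQ Q) Ω] [Finite V₁] [Finite Ω]
variable [FiniteDimensional F V] [FiniteDimensional F V₁] {k : ℕ}

theorem Small.card_V (hs : Small S Ω k) :
    ¬ Nat.card V ≤ Nat.card Ω * (Nat.card F - 1) + 1 := by
  rw [card_split S, card_eq_sq hs.hk]
  exact not_le.2 hs.lt

theorem Small.sum_s4 (hs : Small S Ω k) :
    ∑ O ∈ TP S h₁ (S4 Q (Ω := Ω)), Nat.card ((spRad S h₁).A O) =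
      (TP S h₁ (S4 Q (Ω := Ω))).card * (Nat.card F * (Nat.card F ^ k) ^ 2) := by
  rw [← smul_eq_mul, ← Finset.sum_const]
  refine Finset.sum_congr rfl fun O hO => ?_
  obtain ⟨ω, rfl⟩ := (spRad S h₁).orb_surj O
  rw [(AddSubgroup.eq_top_iff' _).2 ((s4_iff S h₁).1 (eqv_s4.mem.1 hO)), AddSubgroup.card_top,
    Nat.card_prod, card_eq_sq hs.hk, mul_comm]

include h₁ in
theorem Small.not_s4 (hs : Small S Ω k) (ω₀ : Ω) : ¬ S4 Q ω₀ S.u := by
  intro h0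
  have hQ := S.nd_of h₁
  have hu := ne_zero_of_polar_eq_one S.huw
  have hd := S.finrank_eq
  have h3 : 3 ≤ finrank F V := by have := hs.hk; have := hs.k1; omega
  have c1 : Nat.card F * (Nat.card F ^ k) ^ 2 ≤
      ∑ O ∈ TP S h₁ (S4 Q (Ω := Ω)), Nat.card ((spRad S h₁).A O) := by
    rw [hs.sum_s4]
    exact Nat.le_mul_of_pos_left _ (Finset.card_pos.2 ⟨_, eqv_s4.mem.2 h0⟩)
  have R1 : ∀ ω : Ω, As Q ω S.u ∨ S4 Q ω S.u := fun ω => by
    by_contra hn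
    push Not at hn
    have hP := (eqv_as (Q := Q) (Ω := Ω)).not.and eqv_s4.not
    have a1 := hP.bound (h₁ := h₁) hs.hk hn hn.1
    have a2 := sum_add_sum_le (S := S) (h₁ := h₁) hP eqv_s4 fun _ a b => a.2 b
    have a3 := hs.lt1
    omega
  have R2 : ∀ ω ω' : Ω, S4 Q ω S.u → S4 Q ω' S.u → ∃ x, (spRad S h₁).E x • ω = ω' := by
    intro ω ω' h h'
    rw [← AbRad.orb_eq_iff]
    refine Finset.card_le_one.1 (not_lt.1 fun hc => ?_) _ (eqv_s4.mem.2 h) _ (eqv_s4.mem.2 h')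
    have a1 := sum_le_card2 (TP S h₁ (S4 Q (Ω := Ω)))
    have a2 := Nat.mul_le_mul_right (Nat.card F * (Nat.card F ^ k) ^ 2) hc
    have a3 := hs.lt1
    rw [hs.sum_s4] at a1
    have := hs.hq
    have a4 : Nat.card F * (Nat.card F ^ k) ^ 2 > 0 := by positivity
    omega
  obtain ⟨e, he0, he1⟩ := hs.exists_e
  have he2 : 1 + e ≠ 0 := fun h => he1 (by grind)
  obtain ⟨g, g1, g2, g3⟩ := exists_torP S he0
  have gE : ∀ x, g.1 * (spRad S h₁).E x = (spRad S h₁).E (e • x) * g.1 := fun x => by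
    rw [spRad_E, spRad_E, Es_conj _ (S.uj _), g1, g3, Es_smul (S.uj _), Prod.smul_fst, map_smul,
      Prod.smul_snd, Q_smul, smul_eq_mul]
    congr 2
    ring
  have s4P : ∀ (g : Pu S) (ω : Ω), S4 Q ω S.u → S4 Q (g.1 • ω) S.u := fun g ω h =>
    (eqv_s4.mem (h₁ := h₁)).1 (eqv_s4.inv g _ (eqv_s4.mem.2 h))
  have add2 : ∀ x : V₁ × F, x + x = 0 := add_self2 F
  obtain ⟨ω₁, s4, hg⟩ : ∃ ω₁ : Ω, S4 Q ω₁ S.u ∧ g.1 • ω₁ = ω₁ := by
    obtain ⟨x, hx⟩ := R2 _ _ h0 (s4P g _ h0)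
    refine ⟨(spRad S h₁).E ((1 + e)⁻¹ • x) • ω₀, (eqv_s4.mem (h₁ := h₁)).1 ?_, ?_⟩
    · rw [← (spRad S h₁).orb_eq_iff.2 ⟨_, rfl⟩]
      exact eqv_s4.mem.2 h0
    · rw [← mul_smul, gE, mul_smul, ← hx, ← mul_smul, ← AbRad.E_add]
      congr 2
      have := mul_inv_cancel₀ he2
      match_scalars
      grind
  have hj : ∀ y, As Q ω₁ (S.j y) := fun y a => by
    obtain ⟨x, hx⟩ := R2 _ _ s4 (s4P (tvP S y a) _ s4)
    have h1 : g.1 • (tvP S y a).1 • ω₁ = (tvP S y a).1 • ω₁ := by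
      have : g.1 * (tvP S y a).1 = (tvP S y a).1 * g.1 := by
        show g.1 * Es Q _ 0 _ = Es Q _ 0 _ * g.1
        rw [Es_conj _ (polar_zero_right _ _), g3, aq_zero]
      rw [← mul_smul, this, mul_smul, hg]
    rw [← hx, ← mul_smul, gE, mul_smul, hg] at h1
    have h2 : (spRad S h₁).E ((1 + e) • x) • ω₁ = ω₁ := by
      rw [add_smul, one_smul, AbRad.E_add, mul_smul, h1, ← mul_smul, ← AbRad.E_add, add2,
        AbRad.E_zero, one_smul]
    obtain ⟨h4, h5⟩ := s4 _ _ ⟨S.uj _, h2⟩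
    have h6 := eq_zero_of_j_mem S h4
    rw [h6, map_zero, zero_add, mul_self_eq_zero] at h5
    have h7 : x = 0 := (smul_eq_zero.1 (Prod.ext h6 h5)).resolve_left he2
    rw [h7, AbRad.E_zero, one_smul] at hx
    exact ⟨polar_zero_right _ _, hx.symm⟩
  have ty := all_of_one hQ (fun (ω : Ω) v => As Q ω v ∨ S4 Q ω v)
    (fun ω v g h => h.imp (·.map g) (·.map g)) hu R1
  have s1 : ∀ y, y ≠ 0 → S1 Q ω₁ (S.j y) := by
    intro y hy
    have hjy : S.j y ≠ 0 := fun h => hy (eq_zero_of_j_mem S (h ▸ Submodule.zero_mem _))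
    refine (all_of_one hQ (fun (ω : Ω) v => As Q ω v → S1 Q ω v ∨ SZ Q ω v) (fun ω v g h h' =>
      (h (by simpa [aq_inv_aq] using h'.map g⁻¹)).imp (·.map g) (·.map g)) hu
      (fun ω => hs.s1_or_sz h₁) ω₁ _ hjy (hj y)).resolve_right fun hz => ?_
    obtain ⟨t, ht⟩ := SpQ_trans hQ hjy hu
    have hz' := hz.map t
    rw [ht] at hz'
    refine not_SZ S h₁ h3 (hs.hω ω₁) he0 he1 (all_of_one hQ
      (fun (ω : Ω) v => S0 Q ω v ∨ SZ Q ω v ∨ S4 Q ω v)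
      (fun ω v g h => h.imp (·.map g) (·.imp (·.map g) (·.map g))) hu (fun ω => ?_) ω₁) hj
      (all_of_one hQ (fun (ω : Ω) v => S4 Q ω v → ∀ x, polar Q v x = 0 →
        x ∉ Submodule.span F {v} → ∃ c : F, As Q ω (x + c • v)) (fun ω v g h h' x hx hm => ?_) hu
        (fun ω h x hx _ => ?_) ω₁) hy
    · refine (R1 ω).elim (fun ha => ?_) fun h => Or.inr (Or.inr h)
      by_contra hn
      push Not at hn
      obtain ⟨y, h1, h2⟩ : ∃ y, (y, (0 : F)) ∈ (spRad S h₁).A ((spRad S h₁).orb ω) ∧ y ≠ 0 := by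
        by_contra h
        push Not at h
        exact hn.1 (ha.s0 ((sq_iff S h₁).2 h))
      have a1 := (eqv_as.inv (S := S) (h₁ := h₁) (Ω := Ω)).bound0 h2
      have a2 : 2 ≤ ((spRad S h₁).C (TP S h₁ (As Q (Ω := Ω))) (y, 0)).card :=
        Finset.one_lt_card.2 ⟨_, (spRad S h₁).mem_C.2 ⟨eqv_as.mem.2 ha, h1⟩, _,
          (spRad S h₁).mem_C.2 ⟨eqv_as.mem.2 hz'.1, all_of_sx S h₁ hz'.2 y⟩, fun e =>
            hn.2.1 ⟨ha, (eqv_sx.mem (h₁ := h₁)).1 (e ▸ eqv_sx.mem.2 hz'.2)⟩⟩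
      have a3 := Nat.mul_le_mul_right (Nat.card V₁) a2
      have a4 := sum_a0_le S h₁ (TP S h₁ (As Q (Ω := Ω)))
      have a5 := sum_add_sum_le (S := S) (h₁ := h₁) (Ω := Ω) eqv_as eqv_s4 fun _ a b =>
        one_ne_zero (b _ _ (a 1)).2
      have a6 := hs.lt2
      rw [card_eq_sq hs.hk] at a1 a3
      omega
    · obtain ⟨c, hc⟩ := h (by simpa [aq_inv_aq] using h'.map g⁻¹) (aq g⁻¹ x)
        (by rwa [← polar_aq_left]) (by rwa [← mem_span_aq (g := g), aq_aq_inv])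
      have := hc.map g
      rw [aq_add, aq_aq_inv, aq_smul] at this
      exact ⟨c, this⟩
    · obtain ⟨z, rfl⟩ := R2 _ _ s4 h
      have := (hj (S.p x)).map ((spRad S h₁).E z)
      rw [spRad_E S h₁ z, aq_Es (S.uj _), S.uj, ← spRad_E S h₁ z] at this
      generalize polar Q (S.j z.1) (S.j (S.p x)) = b at this
      rw [S.jp, polar_comm Q x S.u, hx] at this
      refine ⟨b - polar Q x S.w, ?_⟩
      convert this using 1
      module
  have := hs.card_V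
  exact this (bound_S0 hQ (ne_zero_of_polar_eq_one ((polar_comm _ _ _).trans S.huw))
    (S0_of_levi S h3 hQ he0 he1 hg g1 g2 g3 s4 s1) fun ω u u' hu => S0.uniq hQ (hs.hω ω) (ty ω) hu)

omit [CharP F 2] [Finite F] [Finite V₁] in
include h₁ in
theorem mem_span_of_dim_two (h2 : finrank F V₁ ≤ 2) {y b : V₁} (hy : y ≠ 0) (hyy : polar Q₁ y y = 0)
    (h : polar Q₁ y b = 0) : b ∈ Submodule.span F {y} := by
  by_contra hb
  have step : ∀ (s t : Set V₁) (a : V₁), s ⊆ t → a ∈ t → a ∉ Submodule.span F s →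
      finrank F (Submodule.span F s) < finrank F (Submodule.span F t) := fun s t a h h1 h2 =>
    Submodule.finrank_lt_finrank_of_lt (lt_of_le_of_ne (Submodule.span_mono h) fun e =>
      h2 (e ▸ Submodule.subset_span h1))
  obtain ⟨z, hz⟩ := h₁.exists_ne hy
  have a0 := finrank_span_singleton (K := F) hy
  have a1 := step {y} {y, b} b (by simp) (by simp) hb
  have a4 := step {y, b} Set.univ z (by simp) (by simp) fun h' => hz (by
    rw [polar_comm]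
    refine polar_span ?_ h'
    rintro a (rfl | rfl)
    · exact hyy
    · rwa [polar_comm])
  have a5 := Submodule.finrank_le (Submodule.span F (Set.univ : Set V₁))
  omega

theorem Inv.refl_mem {T : Finset ((spRad S h₁).Orb Ω)} (hT : Inv S h₁ T) {z y y' : V₁} {μ : F}
    {O : (spRad S h₁).Orb Ω} (hO : O ∈ (spRad S h₁).C T (μ • z, μ))
    (hy : (y, (0 : F)) ∈ (spRad S h₁).A O) (h1 : Qc Q₁ z y' = Qc Q₁ z y)
    (h2 : polar Q₁ y y' ≠ 0) :
    ∃ O' ∈ (spRad S h₁).C T (μ • z, μ), (y', (0 : F)) ∈ (spRad S h₁).A O' := by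
  rw [AbRad.mem_C] at hO
  obtain ⟨a, ha⟩ : ∃ a, polar Q₁ y y' * a = 1 := ⟨_, mul_inv_cancel₀ h2⟩
  refine ⟨tvP S (y + y') a • O, (spRad S h₁).mem_C.2 ⟨hT _ _ hO.1, ?_⟩, ?_⟩
  · have := (memA_tv S h₁ (y + y') (a := a) (ρ := a * polar Q₁ z (y + y')) (by
      rw [Qc_apply, Qc_apply] at h1
      qsimp
      grind)).2 hO.2
    convert this using 2
    rw [polar_smul_right', polar_comm Q₁ _ z]
    match_scalars <;> grind
  · have := memA0_tv (y + y') a hy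
    convert this using 2
    rw [polar_add_left, polar_self2, polar_comm Q₁ y' y]
    match_scalars <;> grind

/-- Neither all transvections nor a complement to them. -/
def SN (Q : QuadraticForm F V) {Ω : Type*} [MulAction (SpQ Q) Ω] (ω : Ω) (v : V) : Prop :=
  ¬ As Q ω v ∧ ¬ SQ Q ω v

theorem eqv_sn : Eqv Q (SN Q (Ω := Ω)) := eqv_as.not.and eqv_sq.not

theorem Small.line (hs : Small S Ω k) {O : (spRad S h₁).Orb Ω} (hO : O ∈ TP S h₁ (SN Q)) {y z : V₁}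
    (hy : y ≠ 0) (h : (y, (0 : F)) ∈ (spRad S h₁).A O) (h' : (z, (0 : F)) ∈ (spRad S h₁).A O) :
    z ∈ Submodule.span F {y} := by
  obtain ⟨ω, rfl⟩ := (spRad S h₁).orb_surj O
  exact (hs.line_or_all h₁ _).resolve_right (fun h => hs.not_s4 h₁ ω
    (hs.s4_of_sx h₁ (eqv_sn.mem.1 hO).1 fun x t hx => sx_of_all S h₁ h hx)) y z hy h h'

theorem Small.fam (hs : Small S Ω k) {O : (spRad S h₁).Orb Ω} {z y b : V₁} {μ : F}
    (hO : O ∈ (spRad S h₁).C (TP S h₁ (SN Q)) (μ • z, μ)) (hy : (y, (0 : F)) ∈ (spRad S h₁).A O)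
    (h0 : Qc Q₁ z y ≠ 0) (hb : polar Q₁ y b ≠ 0) (J : Finset F)
    (hJ : ∀ s ∈ J, Qc Q₁ z (y + s • b) ≠ 0) :
    J.card ≤ ((spRad S h₁).C (TP S h₁ (SN Q (Ω := Ω))) (μ • z, μ)).card := by
  have key : ∀ s ∈ J, ∃ O' ∈ (spRad S h₁).C (TP S h₁ (SN Q (Ω := Ω))) (μ • z, μ), ∃ c : F, c ≠ 0 ∧
      (c • (y + s • b), (0 : F)) ∈ (spRad S h₁).A O' := by
    intro s hs
    replace hs := hJ s hs
    by_cases h : s = 0
    · exact ⟨O, hO, 1, one_ne_zero, by simpa [h] using hy⟩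
    obtain ⟨c, hc⟩ := exists_sq_of_two_eq_zero (F := F) (by grind)
      (Qc Q₁ z y / Qc Q₁ z (y + s • b))
    have hc0 : c ≠ 0 := left_ne_zero_of_mul (hc ▸ div_ne_zero h0 hs)
    obtain ⟨O', h1, h2⟩ := eqv_sn.inv.refl_mem h₁ hO hy
      (y' := c • (y + s • b)) (by rw [Q_smul, hc, div_mul_cancel₀ _ hs]) (by
        rw [polar_smul_right', polar_add_right, polar_self2, zero_add, polar_smul_right']
        exact mul_ne_zero hc0 (mul_ne_zero h hb))
    exact ⟨O', h1, c, hc0, h2⟩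
  have : Nonempty ((spRad S h₁).Orb Ω) := ⟨O⟩
  choose! f f1 c c0 f2 using key
  refine Finset.card_le_card_of_injOn f f1 fun s ht s' hs' e => ?_
  obtain ⟨d, hd⟩ := Submodule.mem_span_singleton.1 (hs.line h₁ ((spRad S h₁).mem_C.1 (f1 s ht)).1
    (smul_ne_zero (c0 s ht) fun h => hJ s ht (by rw [h, map_zero])) (f2 s ht) (e ▸ f2 s' hs'))
  have e1 := congrArg (polar Q₁ y) hd
  have e2 := congrArg (polar Q₁ b) hd
  simp only [polar_smul_right', polar_add_right, polar_self2, polar_comm Q₁ b y] at e1 e2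
  have e3 : d * c s = c s' := mul_right_cancel₀ hb (by grind)
  exact mul_left_cancel₀ (mul_ne_zero (c0 s' hs') hb) (by grind)

theorem Small.le_one (hs : Small S Ω 1) {r : ℕ} (hr : Nat.card F = r + 4) :
    Nat.card Ω ≤ (r + 4) ^ 3 + (r + 4) ^ 2 + (r + 4) := by
  have hlt := hs.lt
  rw [hr, show r + 4 - 1 = r + 3 from rfl] at hlt
  refine Nat.le_of_lt_succ (Nat.lt_of_mul_lt_mul_right (a := r + 3) ?_)
  rw [Nat.succ_eq_add_one]
  nlinarith

theorem Small.sing (hs : Small S Ω 1) {O : (spRad S h₁).Orb Ω} (hO : O ∈ TP S h₁ (SN Q))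
    {z y : V₁} {μ : F} (hμ : μ ≠ 0) (hz : (μ • z, μ) ∈ (spRad S h₁).A O)
    (hy : (y, (0 : F)) ∈ (spRad S h₁).A O) : Qc Q₁ z y = 0 := by
  by_contra h0
  have hk := hs.hk
  have := Fintype.ofFinite F
  have hy0 : y ≠ 0 := fun h => h0 (by rw [h, map_zero])
  obtain ⟨r, hr⟩ := Nat.exists_eq_add_of_le' hs.hq
  have a1 := ((eqv_sn.inv (S := S) (h₁ := h₁) (Ω := Ω)).bound1 z hμ).trans
    ((sum_le_card2 _).trans (hs.le_one hr))
  by_cases hb : ∃ b, Qc Q₁ z b = 0 ∧ b ≠ 0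
  · obtain ⟨b, b1, b2⟩ := hb
    have b3 : polar Q₁ y b ≠ 0 := fun h => by
      obtain ⟨c, rfl⟩ := Submodule.mem_span_singleton.1 (mem_span_of_dim_two h₁ (by omega) b2
        (polar_self2 _) ((polar_comm _ _ _).trans h))
      exact h0 (by rw [Q_smul, b1, mul_zero])
    have a2 := cD_bound_plus (nd_Qc h₁ z) hk b1 b2
    have a3 := hs.fam h₁ ((spRad S h₁).mem_C.2 ⟨hO, hz⟩) hy h0 b3
      (Finset.univ.erase (Qc Q₁ z y / polar Q₁ y b)) fun s hs h => Finset.ne_of_mem_erase hs (by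
        rw [Q_add, Q_smul, b1, polar_smul_right', polar_Qc] at h
        rw [eq_div_iff b3]
        grind)
    rw [Finset.card_erase_of_mem (Finset.mem_univ _), Finset.card_univ,
      ← Nat.card_eq_fintype_card, hr, show r + 4 - 1 = r + 3 from rfl] at a3
    rw [hr] at a1 a2
    have a4 := Nat.mul_le_mul_right (cD (Qc Q₁ z)) (show 3 ≤ _ from le_trans (by omega) a3)
    have a5 := (Nat.mul_le_mul_left (r + 4) a4).trans a1
    have a6 := Nat.mul_le_mul_left (r + 4) a2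
    clear a1 a3 a4
    nlinarith
  · push Not at hb
    obtain ⟨b, b3⟩ := h₁.exists_ne hy0
    have a2 := cD_bound' (nd_Qc h₁ z) hk
    have a3 := hs.fam h₁ ((spRad S h₁).mem_C.2 ⟨hO, hz⟩) hy h0 b3 Finset.univ fun s _ h => b3 (by
      have := congrArg (polar Q₁ b) (hb _ h)
      rwa [polar_add_right, polar_smul_right', polar_self2, mul_zero, add_zero, polar_zero_right,
        polar_comm] at this)
    rw [Finset.card_univ, ← Nat.card_eq_fintype_card, hr] at a3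
    rw [hr] at a1 a2
    have a4 := Nat.mul_le_mul_right (cD (Qc Q₁ z)) (show 4 ≤ _ from le_trans (by omega) a3)
    have a5 := (Nat.mul_le_mul_left (r + 4) a4).trans a1
    have a6 := Nat.mul_le_mul_left (r + 4) a2
    clear a1 a3 a4
    nlinarith

theorem exists_of_not_sq {ω : Ω} (hn : ¬ SQ Q ω S.u) :
    ∃ y, (y, (0 : F)) ∈ (spRad S h₁).A ((spRad S h₁).orb ω) ∧ y ≠ 0 := by
  by_contra h
  push Not at h
  exact hn ((sq_iff S h₁).2 h)

include h₁ in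
theorem Small.sl (hs : Small S Ω 1) {ω : Ω} (h : SN Q ω S.u) : SL Q ω S.u := by
  obtain ⟨y, y1, y0⟩ := exists_of_not_sq h₁ h.2
  obtain ⟨ρ, hρ⟩ := exists_sq_of_two_eq_zero (F := F) (by grind) (Q₁ y)
  refine ⟨⟨S.j y, fun hm => y0 (eq_zero_of_j_mem S hm), fun c => fs_of_memA S h₁ (r := c * ρ)
    (by rw [polar_smul_right', S.uj, mul_zero]) (by rw [map_smul, S.pj, Q_smul]; grind)
    fun χ hχ => ?_⟩, h.2⟩
  rw [map_smul, S.pj, polar_smul_left']
  by_cases h0 : χ.2 = 0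
  · obtain ⟨d, hd⟩ := Submodule.mem_span_singleton.1
      (hs.line h₁ (eqv_sn.mem.2 h) (z := χ.1) y0 y1 (by rw [← h0]; exact hχ))
    rw [h0, ← hd, polar_smul_right', polar_self2]
    ring
  · have := hs.sing h₁ (eqv_sn.mem.2 h) (z := χ.2⁻¹ • χ.1) h0 (by rwa [smul_inv_smul₀ h0]) y1
    rw [Qc_apply, polar_smul_left', polar_comm] at this
    have h2 := mul_inv_cancel₀ h0
    have h3 : (ρ * χ.2 + polar Q₁ y χ.1) * (ρ * χ.2 + polar Q₁ y χ.1) = 0 := by grind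
    rw [mul_self_eq_zero] at h3
    grind

theorem Small.sum_sn (hs : Small S Ω 1) {ω : Ω} (h : SN Q ω S.u) {r : ℕ} (hr : Nat.card F = r + 4) :
    (r + 4) ^ 3 + (r + 4) ^ 2 ≤ ∑ O ∈ TP S h₁ (SN Q (Ω := Ω)), Nat.card ((spRad S h₁).A O) := by
  obtain ⟨y, y1, y0⟩ := exists_of_not_sq h₁ h.2
  obtain ⟨z, μ, hμ, hz⟩ := exists_of_not_as (h₁ := h₁) h.1
  have h0 := hs.sing h₁ (eqv_sn.mem.2 h) hμ hz y1
  obtain ⟨y', y2, y3⟩ := (nd_Qc h₁ z).exists_partner h0 y0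
  rw [polar_Qc] at y3
  obtain ⟨O', h1, h2⟩ := eqv_sn.inv.refl_mem h₁ ((spRad S h₁).mem_C.2 ⟨eqv_sn.mem.2 h, hz⟩) y1
    (y2.trans h0.symm) (by rw [y3]; exact one_ne_zero)
  have a1 := (eqv_sn.inv (S := S) (h₁ := h₁) (Ω := Ω)).bound1 z hμ
  have a2 := cD_bound_plus (nd_Qc h₁ z) hs.hk h0 y0
  have a3 : 2 ≤ ((spRad S h₁).C (TP S h₁ (SN Q (Ω := Ω))) (μ • z, μ)).card :=
    Finset.one_lt_card.2 ⟨_, (spRad S h₁).mem_C.2 ⟨eqv_sn.mem.2 h, hz⟩, _, h1, fun e => by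
      obtain ⟨c, rfl⟩ := Submodule.mem_span_singleton.1
        (hs.line h₁ (eqv_sn.mem.2 h) y0 y1 (e ▸ h2))
      rw [polar_smul_right', polar_self2, mul_zero] at y3
      exact zero_ne_one y3⟩
  rw [hr] at a1 a2
  have a4 := (Nat.mul_le_mul_left (r + 4) (Nat.mul_le_mul_right (cD (Qc Q₁ z)) a3)).trans a1
  have a6 := Nat.mul_le_mul_left (r + 4) a2
  clear a1 a3
  nlinarith

include h₁ in
theorem Small.sl_or_s0 (hs : Small S Ω 1) {ω₀ : Ω} (n0 : SN Q ω₀ S.u) (ω : Ω) :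
    SL Q ω S.u ∨ S0 Q ω S.u := by
  obtain ⟨r, hr⟩ := Nat.exists_eq_add_of_le' hs.hq
  have hΩ := hs.le_one hr
  have L3 := hs.sum_sn h₁ n0 hr
  by_cases h : As Q ω S.u
  · refine Or.inr (h.s0 (by_contra fun h' => ?_))
    obtain ⟨y, y1, y0⟩ := exists_of_not_sq h₁ h'
    have a1 := (eqv_as.inv (S := S) (h₁ := h₁) (Ω := Ω)).bound0 y0
    have a2 := Nat.mul_le_mul_right (Nat.card V₁) (one_le_C (eqv_as.mem.2 h) y1)
    have a3 := (a2.trans a1).trans (sum_a0_le S h₁ (TP S h₁ (As Q (Ω := Ω))))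
    have a4 := (Nat.add_le_add L3 a3).trans
      ((sum_add_sum_le (S := S) (h₁ := h₁) (Ω := Ω) eqv_sn eqv_as fun _ a b => a.1 b).trans hΩ)
    rw [card_eq_sq hs.hk, hr] at a4
    clear a1 a2 a3 L3 hΩ
    nlinarith
  · refine Or.inl (hs.sl h₁ ⟨h, fun h' => ?_⟩)
    have a1 := (eqv_as.not.and eqv_sq).bound (h₁ := h₁) hs.hk ⟨h, h'⟩ h
    have a4 := (Nat.add_le_add_right L3 _).trans ((sum_add_sum_le (S := S) (h₁ := h₁) (Ω := Ω)
      eqv_sn (eqv_as.not.and eqv_sq) fun _ a b => a.2 b.2).trans hΩ)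
    rw [hr] at a1
    clear L3 hΩ
    nlinarith

theorem card_s0_le : Nat.card {ω : Ω // S0 Q ω S.u} ≤
    ∑ O ∈ TP S h₁ (S0 Q (Ω := Ω)), Nat.card ((spRad S h₁).A O) := by
  refine le_trans ?_ (Finset.card_nsmul_le_sum _ _ 1 fun O _ => Nat.card_pos)
  rw [smul_eq_mul, mul_one, ← Nat.card_eq_finsetCard]
  refine Nat.card_le_card_of_injective (fun ω => ⟨(spRad S h₁).orb ω.1, eqv_s0.mem.2 ω.2⟩)
    fun ω ω' e => ?_
  obtain ⟨x, hx⟩ := (spRad S h₁).orb_eq_iff.1 (congrArg Subtype.val e)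
  exact Subtype.ext (hx.symm.trans (ω.2 _ _ (S.uj _)).2).symm

theorem spread_arith {r n f : ℕ} (a1 : n * ((r + 4) ^ 2 - 1) ≤ f * ((r + 4) ^ 2 * ((r + 4) ^ 1) ^ 2 - 1))
    (a5 : f ≤ r + 4) (a7 : (r + 4) ^ 3 + (r + 4) ^ 2 ≤ n) : False := by
  have e1 : (r + 4) ^ 2 - 1 = (r + 3) * (r + 5) := Nat.sub_eq_of_eq_add (by ring)
  have e2 : (r + 4) ^ 2 * ((r + 4) ^ 1) ^ 2 - 1 = ((r + 4) ^ 2 + 1) * ((r + 3) * (r + 5)) :=
    Nat.sub_eq_of_eq_add (by ring)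
  rw [e1, e2] at a1
  have a6 := Nat.le_of_mul_le_mul_right (a1.trans ((Nat.mul_le_mul_right _ a5).trans
    (mul_assoc _ _ _).ge)) (by positivity)
  nlinarith

theorem Small.false (hs : Small S Ω k) (h₁ : ND Q₁) : False := by
  have hQ := S.nd_of h₁
  have hu := ne_zero_of_polar_eq_one S.huw
  have hd := S.finrank_eq
  have hk := hs.hk
  have h3 : 3 ≤ finrank F V := by have := hs.k1; omega
  obtain ⟨e, he0, he1⟩ := hs.exists_e
  obtain ⟨ω₀, n0⟩ : ∃ ω : Ω, SN Q ω S.u := by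
    by_contra hn
    obtain ⟨ω⟩ := hs.ne
    refine not_as_SQ hQ h3 (hs.hω ω) he0 he1 (all_of_one hQ (fun (ω : Ω) v => As Q ω v ∨ SQ Q ω v)
      (fun ω v g h => h.imp (·.map g) (·.map g)) hu (fun ω => ?_) ω)
    by_contra h
    exact hn ⟨ω, not_or.1 h⟩
  obtain rfl : k = 1 := by
    by_contra h
    exact (hs.sq_or_s4 h₁ (by have := hs.k1; omega) n0.1).elim n0.2 (hs.not_s4 h₁ ω₀)
  obtain ⟨r, hr⟩ := Nat.exists_eq_add_of_le' hs.hq
  have hΩ := hs.le_one hr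
  have L3 := hs.sum_sn h₁ n0 hr
  obtain ⟨ω₁, s0⟩ : ∃ ω : Ω, S0 Q ω S.u := by
    by_contra hn
    push Not at hn
    exact not_all_SL hQ (by omega) (by omega) (all_of_one hQ (SL Q) (fun ω v g h => SL.map h g) hu
      (fun ω => (hs.sl_or_s0 h₁ n0 ω).resolve_right (hn ω)) ω₀)
  refine hs.card_V (bound_S0 hQ hu s0 fun ω a b ha0 ha hb => by_contra fun hab => ?_)
  have a1 := bound_S0_big hQ hs.htr hs.hω ha0 ha hb hab hu
  have a2 := card_s0_le (S := S) (Ω := Ω) h₁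
  have a4 := sum_add_sum_le (S := S) (h₁ := h₁) (Ω := Ω) eqv_sn eqv_s0 fun _ a b => a.1 b.as
  rw [card_split S, card_eq_sq hk, hr] at a1
  exact spread_arith a1 (Nat.le_of_add_le_add_left ((Nat.add_le_add L3 a2).trans (a4.trans hΩ)))
    (L3.trans (sum_le_card2 _))

end Cfsg.Agent.H66
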