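import Cfsg.Agent.H66.SpGeo2

/-!
The abelian unipotent radical of a point stabiliser of a symplectic group in characteristic two.
-/

set_option autoImplicit false
set_option linter.unusedSectionVars false

namespace Cfsg.Agent.H66

open Module QuadraticMap Cfsg.Agent.H11 Classical

/-- An action of the additive group of a finite field, normalised by a transitive torus, on fewer
than `q` points is trivial. -/
theorem fix_of_card_lt {F N α : Type*} [Field F] [Finite F] [Group N] [MulAction N α]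
    (C : Finset α) (f : F → N) (hf : ∀ s t, f (s + t) = f s * f t)
    (hC : ∀ s, ∀ a ∈ C, f s • a ∈ C)
    (hτ : ∀ c, c ≠ 0 → ∃ g : N, (∀ a ∈ C, g • a ∈ C) ∧ ∀ s, g * f s = f (c * s) * g)
    (hlt : C.card < Nat.card F) (s : F) {a : α} (ha : a ∈ C) : f s • a = a := by
  have := Fintype.ofFinite F
  have f0 : f 0 = 1 := by simpa using hf 0 0
  by_cases hs : s = 0
  · rw [hs, f0, one_smul]
  let _ : MulAction (Multiplicative F) C :=
    { smul := fun s a => ⟨f s.toAdd • a.1, hC _ _ a.2⟩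
      one_smul := fun a => Subtype.ext (by
        show f 0 • a.1 = a.1
        rw [f0, one_smul])
      mul_smul := fun s t a => Subtype.ext (by
        show f (s.toAdd + t.toAdd) • a.1 = f s.toAdd • f t.toAdd • a.1
        rw [hf, mul_smul]) }
  let m : F → ℕ := fun s => (C.filter fun a => f s • a = a).card
  have le : ∀ s t, s ≠ 0 → t ≠ 0 → m s ≤ m t := by
    intro s t hs ht
    obtain ⟨g, g1, g2⟩ := hτ (t / s) (div_ne_zero ht hs)
    refine Finset.card_le_card_of_injOn (g • ·) (fun a ha => ?_) (MulAction.injective g).injOn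
    rw [Finset.coe_filter] at ha ⊢
    refine ⟨g1 a ha.1, ?_⟩
    have := g2 s
    rw [div_mul_cancel₀ _ hs] at this
    rw [← mul_smul, ← this, mul_smul, ha.2]
  have := Fintype.ofFinite (Quotient (MulAction.orbitRel (Multiplicative F) C))
  have h1 := MulAction.sum_card_fixedBy_eq_card_orbits_mul_card_group (Multiplicative F) C
  have h2 : ∀ t : Multiplicative F, Fintype.card (MulAction.fixedBy C t) = m t.toAdd := fun t => by
    refine Eq.trans ?_ (Fintype.card_coe _)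
    exact Fintype.card_congr
      { toFun := fun x => ⟨x.1.1, Finset.mem_filter.2 ⟨x.1.2, congrArg Subtype.val x.2⟩⟩
        invFun := fun x => ⟨⟨x.1, (Finset.mem_filter.1 x.2).1⟩,
          Subtype.ext (Finset.mem_filter.1 x.2).2⟩
        left_inv := fun _ => rfl
        right_inv := fun _ => rfl }
  simp only [h2] at h1
  have h0 : ∑ x ∈ Finset.univ.erase (1 : Multiplicative F), m x.toAdd =
      ∑ _x ∈ Finset.univ.erase (1 : Multiplicative F), m s :=
    Finset.sum_congr rfl fun t ht => le_antisymm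
      (le _ _ (Finset.ne_of_mem_erase ht) hs) (le _ _ hs (Finset.ne_of_mem_erase ht))
  rw [← Finset.add_sum_erase _ _ (Finset.mem_univ (1 : Multiplicative F)), h0,
    Finset.sum_const, Finset.card_erase_of_mem (Finset.mem_univ _), Finset.card_univ,
    Fintype.card_multiplicative, ← Nat.card_eq_fintype_card (α := F), smul_eq_mul] at h1
  have h3 : m (Multiplicative.toAdd (1 : Multiplicative F)) = C.card := by
    show (C.filter fun a => f 0 • a = a).card = _
    rw [Finset.filter_true_of_mem fun a _ => by rw [f0, one_smul]]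
  have h4 : m s ≤ C.card := Finset.card_filter_le _ _
  obtain ⟨d, hd⟩ := Nat.exists_eq_add_of_le h4
  have h5 : Nat.card F ∣ d := by
    refine (Nat.dvd_add_right (Dvd.intro (m s) rfl)).1
      ⟨Fintype.card (Quotient (MulAction.orbitRel (Multiplicative F) C)), ?_⟩
    obtain ⟨k, hk⟩ : ∃ k, Nat.card F = k + 1 := ⟨Nat.card F - 1, by omega⟩
    rw [mul_comm _ (Fintype.card _), ← h1, h3, hd, hk, Nat.add_sub_cancel]
    ring
  have h6 : d = 0 := Nat.eq_zero_of_dvd_of_lt h5 (by omega)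
  have h7 := Finset.eq_of_subset_of_card_le (Finset.filter_subset (fun a => f s • a = a) C)
    (by show C.card ≤ m s; omega)
  rw [← h7] at ha
  exact (Finset.mem_filter.1 ha).2

variable {F V : Type*} [Field F] [AddCommGroup V] [Module F V] {Q : QuadraticForm F V}
variable {V₁ : Type*} [AddCommGroup V₁] [Module F V₁] {Q₁ : QuadraticForm F V₁}

/-- The bilinear pairing on `V₁ × F`. -/
def bil (Q₁ : QuadraticForm F V₁) : (V₁ × F) →ₗ[F] (V₁ × F) →ₗ[F] F :=
  (polarBilin Q₁).compl₁₂ (LinearMap.fst F V₁ F) (LinearMap.fst F V₁ F) +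
    (LinearMap.mul F F).compl₁₂ (LinearMap.snd F V₁ F) (LinearMap.snd F V₁ F)

theorem bil_apply (x y : V₁ × F) : bil Q₁ x y = polar Q₁ x.1 y.1 + x.2 * y.2 := rfl

variable [CharP F 2] [Finite F]

/-- The unipotent radical of the stabiliser of `S.u`. -/
noncomputable def spRad (S : HypSplit Q Q₁) (h₁ : ND Q₁) : AbRad (SpQ Q) (V₁ × F) (V₁ × F) where
  E x := Es Q S.u (S.j x.1) (Q₁ x.1 + x.2 * x.2)
  E_add x y := by
    rw [Es_mul (S.uj _) (S.uj _), Prod.fst_add, map_add, S.polar_j, Q_add, Prod.snd_add]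
    congr 1
    grind
  P := Pairing.ofBilin (bil Q₁) fun x h => Prod.ext (h₁ _ fun y => by simpa [bil_apply] using h (y, 0))
    (by simpa [bil_apply] using h (0, 1))

variable (S : HypSplit Q Q₁) (h₁ : ND Q₁)

theorem spRad_k (x y : V₁ × F) : (spRad S h₁).P.k x y = psi F (polar Q₁ x.1 y.1 + x.2 * y.2) := rfl

theorem spRad_E (x : V₁ × F) : (spRad S h₁).E x = Es Q S.u (S.j x.1) (Q₁ x.1 + x.2 * x.2) := rfl

theorem Es_jp {x : V} (hx : polar Q S.u x = 0) (t : F) :
    Es Q S.u (S.j (S.p x)) t = Es Q S.u x t := by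
  rw [← Es_add_self (S.uj _) (polar Q x S.w)]
  congr 1
  conv_rhs => rw [S.decomp x, polar_comm Q x S.u, hx]
  module

theorem exists_E {x : V} (hx : polar Q S.u x = 0) (t : F) :
    ∃ r, Q₁ (S.p x) + r * r = t ∧ (spRad S h₁).E (S.p x, r) = Es Q S.u x t := by
  obtain ⟨r, hr⟩ := exists_sq_of_two_eq_zero (F := F) (by grind) (t + Q₁ (S.p x))
  have e : Q₁ (S.p x) + r * r = t := by grind
  exact ⟨r, e, by rw [spRad_E, e, Es_jp S hx]⟩

/-- The stabiliser of the point spanned by `S.u`. -/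
def Pu (S : HypSplit Q Q₁) : Subgroup (SpQ Q) where
  carrier := {g | ∃ c : F, aq g S.u = c • S.u}
  one_mem' := ⟨1, by rw [aq_one, one_smul]⟩
  mul_mem' := by
    rintro a b ⟨c, hc⟩ ⟨d, hd⟩
    exact ⟨d * c, by rw [aq_mul, hd, aq_smul, hc, smul_smul]⟩
  inv_mem' := by
    rintro a ⟨c, hc⟩
    have h0 : c ≠ 0 := fun h => aq_ne_zero a (ne_zero_of_polar_eq_one S.huw) (by rw [hc, h, zero_smul])
    refine ⟨c⁻¹, aq_injective a ?_⟩
    rw [aq_aq_inv, aq_smul, hc, smul_smul, inv_mul_cancel₀ h0, one_smul]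

theorem Pu_spec (g : Pu S) : ∃ c : F, c ≠ 0 ∧ aq g.1 S.u = c • S.u := by
  obtain ⟨c, hc⟩ := g.2
  exact ⟨c, fun h => aq_ne_zero g.1 (ne_zero_of_polar_eq_one S.huw) (by rw [hc, h, zero_smul]), hc⟩

theorem Pu_nrm (g : Pu S) (x : V₁ × F) :
    ∃ x', g.1 * (spRad S h₁).E x = (spRad S h₁).E x' * g.1 := by
  obtain ⟨c, hc0, hc⟩ := Pu_spec S g
  have h0 : polar Q S.u (aq g.1 (S.j x.1)) = 0 := by
    have := polar_aq g.1 S.u (S.j x.1)
    rw [hc, polar_smul_left', S.uj] at this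
    exact (mul_eq_zero.1 this).resolve_left hc0
  obtain ⟨r, -, hr⟩ := exists_E S h₁ (x := c • aq g.1 (S.j x.1))
    (by rw [polar_smul_right', h0, mul_zero]) (c * c * (Q₁ x.1 + x.2 * x.2))
  exact ⟨_, by rw [hr, spRad_E, Es_conj _ (S.uj _), hc, Es_smul h0]⟩

variable {Ω : Type*} [MulAction (SpQ Q) Ω]

/-- The stabiliser of the point acts on the orbits of the radical. -/
noncomputable instance orbAct : MulAction (Pu S) ((spRad S h₁).Orb Ω) where
  smul g := Quotient.map (sa := (spRad S h₁).rel Ω) (sb := (spRad S h₁).rel Ω) (fun ω => g.1 • ω) (by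
    rintro a b ⟨x, rfl⟩
    obtain ⟨x', hx⟩ := Pu_nrm S h₁ g x
    exact ⟨x', by rw [← mul_smul, ← hx, mul_smul]⟩)
  one_smul O := by
    obtain ⟨ω, rfl⟩ := (spRad S h₁).orb_surj O
    exact congrArg (spRad S h₁).orb (one_smul _ ω)
  mul_smul g h O := by
    obtain ⟨ω, rfl⟩ := (spRad S h₁).orb_surj O
    exact congrArg (spRad S h₁).orb (mul_smul g.1 h.1 ω)

theorem smul_orb (g : Pu S) (ω : Ω) : g • (spRad S h₁).orb ω = (spRad S h₁).orb (g.1 • ω) := rfl

/-- The transvection with centre in `V₁`. -/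
noncomputable def tvP (d : V₁) (a : F) : Pu S :=
  ⟨Es Q (S.j d) 0 a, 1, by rw [aq_tv, S.ju, mul_zero, zero_smul, add_zero, one_smul]⟩

theorem tvP_add (d : V₁) (a b : F) : tvP S d (a + b) = tvP S d a * tvP S d b := Subtype.ext (by
  show Es Q _ 0 _ = Es Q _ 0 _ * Es Q _ 0 _
  rw [Es_mul (polar_zero_right _ _) (polar_zero_right _ _), add_zero, polar_zero_right, add_zero])

theorem aq_tvP (d : V₁) (a : F) (x : V₁) :
    aq (tvP S d a).1 (S.j x) = S.j (x + (a * polar Q₁ d x) • d) := by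
  show aq (Es Q _ 0 _) _ = _
  rw [aq_tv, S.polar_j, map_add, map_smul]

variable [Finite V₁] [Finite Ω]

theorem memA_of_compat {g : Pu S} {φ : V₁ × F → V₁ × F} (h : (spRad S h₁).Compat g.1 φ)
    {O : (spRad S h₁).Orb Ω} {χ : V₁ × F} :
    φ χ ∈ (spRad S h₁).A (g • O) ↔ χ ∈ (spRad S h₁).A O := by
  obtain ⟨σ, h1, h2⟩ := h.exists_perm (Ω := Ω)
  obtain ⟨ω, rfl⟩ := (spRad S h₁).orb_surj O
  rw [smul_orb, ← h1, h2]

theorem memA_tv (d : V₁) {a ρ : F} (hρ : ρ * ρ = a + a * a * Q₁ d) {O : (spRad S h₁).Orb Ω}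
    {y : V₁} {μ : F} : (y + (a * polar Q₁ d y + μ * ρ) • d, μ) ∈ (spRad S h₁).A (tvP S d a • O) ↔
      (y, μ) ∈ (spRad S h₁).A O := by
  refine memA_of_compat S h₁ (φ := fun χ => (χ.1 + (a * polar Q₁ d χ.1 + χ.2 * ρ) • d, χ.2))
    (χ := (y, μ)) ⟨fun x => (x.1 + (a * polar Q₁ d x.1) • d, x.2 + ρ * polar Q₁ d x.1),
      fun x => ⟨(x.1 + (a * polar Q₁ d x.1) • d, x.2 + ρ * polar Q₁ d x.1), Prod.ext ?_ ?_⟩,
      fun x => ?_, fun x y => ?_⟩
  · qsimp
    match_scalars <;> grind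
  · qsimp
    grind
  · rw [spRad_E, spRad_E, Es_conj _ (S.uj _), aq_tvP]
    congr 2
    · show aq (Es Q _ 0 _) _ = _
      rw [aq_tv, S.ju, mul_zero, zero_smul, add_zero]
    · qsimp
      rw [polar_comm Q₁ x.1 d]
      grind
  · rw [spRad_k, spRad_k]
    congr 1
    qsimp
    rw [polar_comm Q₁ x.1 d]
    grind

theorem memA_tor {g : Pu S} {c : F} (hc : c ≠ 0) (hu : aq g.1 S.u = c • S.u)
    (hj : ∀ y, aq g.1 (S.j y) = S.j y) {O : (spRad S h₁).Orb Ω} {χ : V₁ × F} :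
    c⁻¹ • χ ∈ (spRad S h₁).A (g • O) ↔ χ ∈ (spRad S h₁).A O := by
  refine memA_of_compat S h₁ (φ := fun χ => c⁻¹ • χ) ⟨fun x => c • x,
      fun x => ⟨c⁻¹ • x, smul_inv_smul₀ hc x⟩, fun x => ?_, fun x y => ?_⟩
  · rw [spRad_E, spRad_E, Es_conj _ (S.uj _), hu, hj, Es_smul (S.uj _), Prod.smul_fst, map_smul,
      Prod.smul_snd, Q_smul, smul_eq_mul]
    congr 2
    ring
  · rw [spRad_k, spRad_k, Prod.smul_fst, Prod.smul_snd, Prod.smul_fst, Prod.smul_snd]
    congr 1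
    qsimp
    simp only [smul_eq_mul]
    field_simp

omit [Finite V₁] [Finite Ω] in
theorem exists_torP {c : F} (hc : c ≠ 0) : ∃ g : Pu S, aq g.1 S.u = c • S.u ∧
    aq g.1 S.w = c⁻¹ • S.w ∧ ∀ y, aq g.1 (S.j y) = S.j y := by
  obtain ⟨g, h1, h2, h3⟩ := exists_tor S.huw hc
  exact ⟨⟨g, c, h1⟩, h1, h2, fun y => h3 _ (S.uj y) (S.wj y)⟩

variable {ω : Ω}

theorem memA0_iff {y : V₁} : (y, (0 : F)) ∈ (spRad S h₁).A ((spRad S h₁).orb ω) ↔
    ∀ x t, Fs Q ω S.u x t → psi F (polar Q x (S.j y)) = 1 := by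
  rw [AbRad.mem_A_orb]
  constructor
  · intro h x t hx
    obtain ⟨r, -, hr⟩ := exists_E S h₁ hx.1 t
    have := h _ (by rw [hr, hx.2])
    rwa [spRad_k, mul_zero, add_zero, S.polar_p] at this
  · intro h x hx
    rw [spRad_k, mul_zero, add_zero, ← S.polar_j]
    exact h _ _ ⟨S.uj _, hx⟩

theorem memA0_map (g : Pu S) {c : F} (hu : aq g.1 S.u = c • S.u) {y y' : V₁}
    (hy : aq g.1 (S.j y) = c • S.j y') {O : (spRad S h₁).Orb Ω}
    (h : (y, (0 : F)) ∈ (spRad S h₁).A O) : (y', (0 : F)) ∈ (spRad S h₁).A (g • O) := by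
  obtain ⟨ω, rfl⟩ := (spRad S h₁).orb_surj O
  have hc : c ≠ 0 := fun h => aq_ne_zero g.1 (ne_zero_of_polar_eq_one S.huw)
    (by rw [hu, h, zero_smul])
  rw [smul_orb, memA0_iff]
  intro x t hx
  have h1 : Fs Q (g.1 • ω) (aq g.1 S.u) (c⁻¹ • x) (c⁻¹ * c⁻¹ * t) := by
    rw [hu]
    refine Fs.smul_left (by rw [polar_smul_right', hx.1, mul_zero]) (hx.congr ?_ ?_)
    · rw [smul_inv_smul₀ hc]
    · field_simp
  have := (memA0_iff S h₁).1 h _ _ ((fs_map_iff g.1).1 h1)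
  rwa [← polar_aq g.1, aq_aq_inv, hy, polar_smul_left', polar_smul_right', inv_mul_cancel_left₀ hc]
    at this

theorem fs_of_memA {x : V} {t r : F} (hx : polar Q S.u x = 0) (hr : Q₁ (S.p x) + r * r = t)
    (h : ∀ χ ∈ (spRad S h₁).A ((spRad S h₁).orb ω), polar Q₁ (S.p x) χ.1 + r * χ.2 = 0) :
    Fs Q ω S.u x t := by
  refine ⟨hx, ?_⟩
  rw [← Es_jp S hx, ← hr]
  refine (spRad S h₁).fix_of_A (x := (S.p x, r)) fun χ hχ => ?_
  rw [spRad_k, h χ hχ, AddChar.map_zero_eq_one]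

theorem as_iff : As Q ω S.u ↔ ∀ χ ∈ (spRad S h₁).A ((spRad S h₁).orb ω), χ.2 = 0 := by
  constructor
  · intro h χ hχ
    refine eq_zero_of_psi fun c => ?_
    have := (spRad S h₁).mem_A_orb.1 hχ (0, c) (by
      rw [spRad_E, map_zero]; exact (h _).2)
    rwa [spRad_k, polar_zero_left, zero_add] at this
  · intro h t
    obtain ⟨r, hr, -⟩ := exists_E S h₁ (polar_zero_right Q S.u) t
    exact fs_of_memA S h₁ (polar_zero_right _ _) hr fun χ hχ => by simp [h χ hχ]

theorem sq_iff : SQ Q ω S.u ↔ ∀ y, (y, (0 : F)) ∈ (spRad S h₁).A ((spRad S h₁).orb ω) → y = 0 := by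
  constructor
  · intro h y hy
    refine h₁ _ fun x => eq_zero_of_psi fun c => ?_
    obtain ⟨t, ht⟩ := h (S.j (c • x)) (S.uj _)
    have := (memA0_iff S h₁).1 hy _ _ ht
    rwa [S.polar_j, polar_smul_left', polar_comm] at this
  · intro h x hx
    have := (spRad S h₁).P.mem_of_ann (S := (spRad S h₁).B ω ⊔ (AddMonoidHom.inr V₁ F).range)
      (x := (S.p x, 0)) fun χ hχ => by
        have h1 : χ.2 = 0 := eq_zero_of_psi fun c => by
          have := hχ (0, c) (AddSubgroup.mem_sup_right ⟨c, rfl⟩)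
          rwa [spRad_k, polar_zero_left, zero_add] at this
        have h2 : χ.1 = 0 := h _ ((spRad S h₁).mem_A_orb.2 fun x hx => by
          rw [← h1]; exact hχ x (AddSubgroup.mem_sup_left hx))
        rw [spRad_k, h1, h2, polar_zero_right, mul_zero, add_zero, AddChar.map_zero_eq_one]
    obtain ⟨b, hb, _, ⟨c, rfl⟩, e⟩ := AddSubgroup.mem_sup.1 this
    have e1 : b.1 = S.p x := by simpa using congrArg Prod.fst e
    refine ⟨Q₁ b.1 + b.2 * b.2, hx, ?_⟩
    rw [← Es_jp S hx, ← e1]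
    exact hb

omit [Finite V₁] [Finite Ω] in
theorem mem_span_u {x : V} (hx : polar Q S.u x = 0) (h : S.p x = 0) :
    x ∈ Submodule.span F {S.u} := by
  have h2 := S.decomp x
  rw [h, map_zero, add_zero, polar_comm Q x S.u, hx, zero_smul, add_zero] at h2
  exact Submodule.mem_span_singleton.2 ⟨_, h2.symm⟩

omit [Finite V₁] [Finite Ω] in
theorem eq_zero_of_j_mem {y : V₁} (h : S.j y ∈ Submodule.span F {S.u}) : y = 0 := by
  obtain ⟨c, hc⟩ := Submodule.mem_span_singleton.1 h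
  have := congrArg S.p hc
  rw [map_smul, S.p_u, smul_zero, S.pj] at this
  exact this.symm

theorem sx_of_all (h : ∀ y, (y, (0 : F)) ∈ (spRad S h₁).A ((spRad S h₁).orb ω)) {x : V} {t : F}
    (hx : Fs Q ω S.u x t) : x ∈ Submodule.span F {S.u} :=
  mem_span_u S hx.1 (h₁ _ fun y => eq_zero_of_psi fun c => by
    have := (memA0_iff S h₁).1 (h (c • y)) _ _ hx
    rwa [map_smul, polar_smul_right', ← S.polar_p] at this)

theorem all_of_sx (h : ∀ x t, Fs Q ω S.u x t → x ∈ Submodule.span F {S.u}) (y : V₁) :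
    (y, (0 : F)) ∈ (spRad S h₁).A ((spRad S h₁).orb ω) :=
  (memA0_iff S h₁).2 fun x t hx => by
    obtain ⟨c, rfl⟩ := Submodule.mem_span_singleton.1 (h x t hx)
    rw [polar_smul_left', S.uj, mul_zero, AddChar.map_zero_eq_one]

theorem s4_iff : S4 Q ω S.u ↔ ∀ χ, χ ∈ (spRad S h₁).A ((spRad S h₁).orb ω) := by
  constructor
  · intro h χ
    refine (spRad S h₁).mem_A_orb.2 fun x hx => ?_
    obtain ⟨h1, h2⟩ := h _ _ ⟨S.uj _, hx⟩
    rw [eq_zero_of_j_mem S h1, map_zero, zero_add, mul_self_eq_zero] at h2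
    rw [spRad_k, eq_zero_of_j_mem S h1, h2, polar_zero_left, zero_mul, add_zero,
      AddChar.map_zero_eq_one]
  · intro h x t hx
    have h1 := sx_of_all S h₁ (fun y => h _) hx
    refine ⟨h1, ?_⟩
    obtain ⟨r, h2, hr⟩ := exists_E S h₁ hx.1 t
    have h3 : r = 0 := eq_zero_of_psi fun c => by
      have := (spRad S h₁).mem_A_orb.1 (h (0, c)) _ (by rw [hr, hx.2])
      rwa [spRad_k, polar_zero_right, zero_add, mul_comm] at this
    obtain ⟨c, rfl⟩ := Submodule.mem_span_singleton.1 h1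
    rw [← h2, h3, map_smul, S.p_u, smul_zero, map_zero, mul_zero, add_zero]

theorem s1_of_line (h : As Q ω S.u) {y : V₁} (hy : ∀ z, (z, (0 : F)) ∈
    (spRad S h₁).A ((spRad S h₁).orb ω) → z ∈ Submodule.span F {y}) : S1 Q ω S.u := by
  refine ⟨S.j y, S.uj y, fun x t hx hxy => ?_⟩
  obtain ⟨r, hr, -⟩ := exists_E S h₁ hx t
  refine fs_of_memA S h₁ hx hr fun χ hχ => ?_
  have h1 := (as_iff S h₁).1 h χ hχ
  obtain ⟨c, hc⟩ := Submodule.mem_span_singleton.1 (hy χ.1 (by rw [← h1]; exact hχ))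
  rw [h1, ← hc, polar_smul_right', S.polar_p, polar_comm, hxy]
  ring

end Cfsg.Agent.H66
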