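import Mathlib
import Cfsg.Prelude.Def_Characters
import Cfsg.Agent.H66.ParabolicCard
import Cfsg.Agent.H66.JacobiTrudi
import Cfsg.Agent.H5.Complete

/-! Degrees and inner products of the partition-indexed characters of `GL_n(q)`. -/

namespace Cfsg.Agent.H66

open Matrix Equiv Polynomial

open scoped MatrixGroups ComplexConjugate

theorem fixedPointCharacter_one {G : Type*} [Group G] (H : Subgroup G) :
    Cfsg.fixedPointCharacter H 1 = (Nat.card (G ⧸ H) : ℂ) := by
  unfold Cfsg.fixedPointCharacter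
  rw [MulAction.fixedBy_one_eq_univ, Nat.card_univ]

theorem sum_sub_perm_eq {n : ℕ} (ν : Fin n → ℕ) (hsum : ∑ i, ν i = n) (κ : Perm (Fin n))
    (h : ∀ i : Fin n, (κ i).val ≤ ν i + i.val) : ∑ i, (ν i + i.val - (κ i).val) = n := by
  have h1 : ∑ i, (ν i + i.val - (κ i).val) + ∑ i, (κ i).val = ∑ i, (ν i + i.val) := by
    rw [← Finset.sum_add_distrib]
    exact Finset.sum_congr rfl fun i _ => Nat.sub_add_cancel (h i)
  have h2 : ∑ i, (κ i).val = ∑ i : Fin n, i.val := Equiv.sum_comp κ (fun i => i.val)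
  rw [Finset.sum_add_distrib, hsum, h2] at h1
  omega

theorem qFact_succ (q m : ℕ) : qFact q (m + 1) = qFact q m * ∑ l ∈ Finset.range (m + 1), q ^ l :=
  Finset.prod_range_succ _ _

theorem qFact_falling (q l j : ℕ) (hj : j ≤ l) :
    (q : ℂ) ^ (∑ r ∈ Finset.range j, r) * (qFact q l : ℂ) =
      (qFact q (l - j) : ℂ) * ∏ r ∈ Finset.range j,
        (((∑ i ∈ Finset.range l, q ^ i : ℕ) : ℂ) - ((∑ i ∈ Finset.range r, q ^ i : ℕ) : ℂ)) := by
  induction j with
  | zero => simp
  | succ j ih =>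
    have h1 := ih (by omega)
    obtain ⟨m, rfl⟩ : ∃ m, l = j + (m + 1) := ⟨l - j - 1, by omega⟩
    rw [show j + (m + 1) - j = m + 1 by omega, qFact_succ] at h1
    rw [show j + (m + 1) - (j + 1) = m by omega, Finset.sum_range_succ, Finset.prod_range_succ,
      pow_add, mul_right_comm, h1]
    have h2 : ((∑ i ∈ Finset.range (j + (m + 1)), q ^ i : ℕ) : ℂ) -
        ((∑ i ∈ Finset.range j, q ^ i : ℕ) : ℂ) =
        (q : ℂ) ^ j * ((∑ i ∈ Finset.range (m + 1), q ^ i : ℕ) : ℂ) := by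
      rw [Finset.sum_range_add]
      push_cast
      rw [add_sub_cancel_left, Finset.mul_sum]
      exact Finset.sum_congr rfl fun i _ => pow_add _ _ _
    rw [h2]
    push_cast
    ring

theorem sum_sum_range_eq (n : ℕ) :
    ∑ j ∈ Finset.range n, ∑ r ∈ Finset.range j, r = n * (n - 1) * (n - 2) / 6 := by
  have h : (∑ j ∈ Finset.range n, ∑ r ∈ Finset.range j, r) * 6 = n * (n - 1) * (n - 2) := by
    induction n with
    | zero => simp
    | succ n ih =>
      rw [Finset.sum_range_succ, add_mul, ih]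
      have h2 := Finset.sum_range_id_mul_two n
      rw [show (∑ r ∈ Finset.range n, r) * 6 = (∑ r ∈ Finset.range n, r) * 2 * 3 by ring, h2]
      rcases n with _ | _ | n
      · simp
      · simp
      · simp only [Nat.add_sub_cancel, show n + 1 + 1 - 2 = n by omega,
          show n + 1 + 1 + 1 - 2 = n + 1 by omega]
        ring
  omega

theorem unipotent_degree {F : Type*} [Field F] [Fintype F] {n : ℕ} (ν : Fin n → ℕ)
    (hsum : ∑ i, ν i = n) :
    Cfsg.unipotentCharacterGL n F ν 1 * (Fintype.card F : ℂ) ^ (n * (n - 1) * (n - 2) / 6) *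
        ∏ i : Fin n, (qFact (Fintype.card F) (ν i + i.val) : ℂ) =
      (qFact (Fintype.card F) n : ℂ) *
        ∏ i : Fin n, ∏ j ∈ Finset.Ioi i,
          (((∑ l ∈ Finset.range (ν j + j.val), Fintype.card F ^ l : ℕ) : ℂ) -
            ((∑ l ∈ Finset.range (ν i + i.val), Fintype.card F ^ l : ℕ) : ℂ)) := by
  set q := Fintype.card F with hq
  let Q : ℕ → ℂ := fun m => ((∑ l ∈ Finset.range m, q ^ l : ℕ) : ℂ)
  let p : Fin n → ℂ[X] := fun j => ∏ r ∈ Finset.range j, (X - C (Q r))
  have hV := Matrix.det_eval_matrixOfPolynomials_eq_det_vandermonde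
    (fun i : Fin n => Q (ν i + i.val)) p
    (fun j => by simp only [p]; rw [natDegree_finsetProd_X_sub_C_eq_card, Finset.card_range])
    (fun j => monic_prod_X_sub_C _ _)
  rw [Matrix.det_vandermonde, ← Matrix.det_transpose, Matrix.det_apply'] at hV
  change _ = _ * ∏ i : Fin n, ∏ j ∈ Finset.Ioi i, (Q (ν j + j.val) - Q (ν i + i.val))
  rw [hV, Finset.mul_sum]
  unfold Cfsg.unipotentCharacterGL
  rw [Finset.sum_mul, Finset.sum_mul]
  apply Finset.sum_congr rfl
  intro κ _
  simp only [Matrix.transpose_apply, Matrix.of_apply, p, eval_prod, eval_sub, eval_X, eval_C]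
  split_ifs with h
  · rw [fixedPointCharacter_one, ← index_parabolic_mul (F := F) _ (sum_sub_perm_eq ν hsum κ h),
      ← sum_sum_range_eq, ← Fin.sum_univ_eq_sum_range (fun j => ∑ r ∈ Finset.range j, r) n,
      ← Equiv.sum_comp κ (fun j : Fin n => ∑ r ∈ Finset.range j, r), ← Finset.prod_pow_eq_pow_sum,
      mul_assoc, mul_assoc, ← Finset.prod_mul_distrib,
      Finset.prod_congr rfl (fun i _ => qFact_falling q (ν i + i.val) (κ i) (h i)),
      Finset.prod_mul_distrib]
    push_cast [← hq, Q]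
    ring
  · push Not at h
    obtain ⟨i, hi⟩ := h
    rw [Finset.prod_eq_zero (f := fun i => ∏ r ∈ Finset.range (κ i), (Q (ν i + i.val) - Q r))
      (Finset.mem_univ i) (Finset.prod_eq_zero (Finset.mem_range.mpr hi) (sub_self _))]
    simp

theorem strictMono_add_val {n : ℕ} {ν : Fin n → ℕ} (h : Monotone ν) :
    StrictMono fun i : Fin n => ν i + i.val := fun _ _ hab =>
  add_lt_add_of_le_of_lt (h hab.le) hab

theorem unipotent_inner {F : Type*} [Field F] {n : ℕ} [Fintype (GL (Fin n) F)]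
    (ν ν' : Fin n → ℕ) (hmono : Monotone ν) (hsum : ∑ i, ν i = n)
    (hmono' : Monotone ν') (hsum' : ∑ i, ν' i = n) :
    Cfsg.classInner (Cfsg.unipotentCharacterGL n F ν) (Cfsg.unipotentCharacterGL n F ν') =
      if ν' = ν then 1 else 0 := by
  have h1 := alt_sum_natMat (fun i => ν i + i.val) (fun i => ν' i + i.val)
  rw [sum_sign_strictMono (strictMono_add_val hmono) (strictMono_add_val hmono')] at h1
  have h2 := congrArg (Int.cast : ℤ → ℂ) h1
  have h3 : ((fun i : Fin n => ν' i + i.val) = fun i : Fin n => ν i + i.val) ↔ ν' = ν := by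
    constructor
    · intro h; funext i; have := congrFun h i; simpa using this
    · rintro rfl; rfl
  simp only [h3] at h2
  push_cast at h2
  rw [← h2]
  unfold Cfsg.classInner Cfsg.unipotentCharacterGL
  simp only [map_sum, Finset.sum_mul_sum]
  rw [Finset.sum_comm, Finset.mul_sum]
  apply Finset.sum_congr rfl
  intro κ _
  rw [Finset.sum_comm, Finset.mul_sum]
  apply Finset.sum_congr rfl
  intro κ' _
  by_cases hκ : ∀ i : Fin n, (κ i).val ≤ ν i + i.val
  · by_cases hκ' : ∀ i : Fin n, (κ' i).val ≤ ν' i + i.val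
    · rw [if_pos ⟨hκ, hκ'⟩, ← inner_parabolic_eq_card_natMat (F := F) _ _
        (sum_sub_perm_eq ν hsum κ hκ) (sum_sub_perm_eq ν' hsum' κ' hκ')]
      simp only [if_pos hκ, if_pos hκ', Finset.mul_sum]
      apply Finset.sum_congr rfl
      intro g _
      simp only [Cfsg.fixedPointCharacter, map_mul, map_intCast, map_natCast]
      ring
    · rw [if_neg (fun h => hκ' h.2)]
      simp [if_neg hκ']
  · rw [if_neg (fun h => hκ h.1)]
    simp [if_neg hκ]

/-- A generalized character of norm one and positive degree is irreducible. -/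
theorem isIrr_of_int_comb {G : Type*} [Group G] [Fintype G] {θ : G → ℂ}
    (hθ : θ ∈ Submodule.span ℤ {χ : G → ℂ | Cfsg.IsCharacter G χ})
    (h1 : Cfsg.classInner θ θ = 1) (hpos : 0 < (θ 1).re) : Cfsg.IsIrrCharacter G θ := by
  classical
  have : Fintype (Cfsg.IrrCharacter G) := Fintype.ofFinite _
  have key : ∃ c : Cfsg.IrrCharacter G → ℤ,
      θ = ∑ ψ : Cfsg.IrrCharacter G, (c ψ : ℂ) • (ψ : G → ℂ) := by
    clear h1 hpos
    induction hθ using Submodule.span_induction with
    | mem χ hχ =>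
      obtain ⟨m, rfl⟩ := H5.isCharacter_iff_exists_nat.mp hχ
      exact ⟨fun ψ => m ψ, by simp⟩
    | zero => exact ⟨0, by simp⟩
    | add x y _ _ hx hy =>
      obtain ⟨c, rfl⟩ := hx
      obtain ⟨d, rfl⟩ := hy
      exact ⟨c + d, by simp [add_smul, Finset.sum_add_distrib]⟩
    | smul a x _ hx =>
      obtain ⟨c, rfl⟩ := hx
      refine ⟨a • c, ?_⟩
      rw [Finset.smul_sum]
      apply Finset.sum_congr rfl
      intro ψ _
      rw [← Int.cast_smul_eq_zsmul ℂ, smul_smul]
      simp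
  obtain ⟨c, rfl⟩ := key
  rw [H5.classInner_sum_smul_sum_smul] at h1
  simp only [map_intCast] at h1
  have h2 : ∑ ψ : Cfsg.IrrCharacter G, c ψ * c ψ = 1 := by exact_mod_cast h1
  obtain ⟨ψ, -, hψ⟩ := Finset.exists_ne_zero_of_sum_ne_zero (h2 ▸ one_ne_zero)
  rw [← Finset.add_sum_erase _ _ (Finset.mem_univ ψ)] at h2
  have h5 : 0 ≤ ∑ φ ∈ Finset.univ.erase ψ, c φ * c φ :=
    Finset.sum_nonneg fun φ _ => mul_self_nonneg _
  have h6 : 0 < c ψ * c ψ := lt_of_le_of_ne (mul_self_nonneg _) hψ.symm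
  have h3 : c ψ * c ψ = 1 := by omega
  have h4 : ∑ φ ∈ Finset.univ.erase ψ, c φ * c φ = 0 := by omega
  rw [Finset.sum_eq_zero_iff_of_nonneg (fun φ _ => mul_self_nonneg _)] at h4
  have h7 : ∑ φ : Cfsg.IrrCharacter G, (c φ : ℂ) • (φ : G → ℂ) = (c ψ : ℂ) • (ψ : G → ℂ) := by
    rw [Finset.sum_eq_single ψ]
    · intro φ _ hφ
      have := h4 φ (by simp [hφ])
      simp [mul_self_eq_zero.mp this]
    · simp
  rw [h7] at hpos ⊢
  rcases mul_self_eq_one_iff.mp h3 with h | h
  · simpa [h] using ψ.2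
  · obtain ⟨d, hd⟩ := H5.exists_nat_degree (H5.isCharacter_of_isIrr ψ.2)
    simp [h, hd] at hpos
    exact absurd hpos (not_lt.mpr (Nat.cast_nonneg d))

theorem unipotent_mem_span {F : Type*} [Field F] [Finite F] {n : ℕ} (ν : Fin n → ℕ) :
    Cfsg.unipotentCharacterGL n F ν ∈
      Submodule.span ℤ {χ : GL (Fin n) F → ℂ | Cfsg.IsCharacter _ χ} := by
  have : Cfsg.unipotentCharacterGL n F ν = ∑ κ : Perm (Fin n),
      if ∀ i : Fin n, (κ i).val ≤ ν i + i.val then
        (Perm.sign κ : ℤ) • Cfsg.fixedPointCharacter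
          (Cfsg.parabolicGL n F fun i => ν i + i.val - (κ i).val) else 0 := by
    funext g
    unfold Cfsg.unipotentCharacterGL
    rw [Finset.sum_apply]
    apply Finset.sum_congr rfl
    intro κ _
    split_ifs <;> simp
  rw [this]
  apply Submodule.sum_mem
  intro κ _
  split_ifs
  · exact Submodule.smul_mem _ _ (Submodule.subset_span (H5.isCharacter_perm _))
  · exact Submodule.zero_mem _

theorem unipotent_degree_pos {F : Type*} [Field F] [Fintype F] {n : ℕ} (ν : Fin n → ℕ)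
    (hmono : Monotone ν) (hsum : ∑ i, ν i = n) :
    0 < (Cfsg.unipotentCharacterGL n F ν 1).re := by
  have h := unipotent_degree (F := F) ν hsum
  set q := Fintype.card F with hq
  have hq0 : 0 < q := Fintype.card_pos
  have hA : (0 : ℝ) < (q : ℝ) ^ (n * (n - 1) * (n - 2) / 6) *
      ∏ i : Fin n, (qFact q (ν i + i.val) : ℝ) := by
    apply mul_pos (by positivity)
    exact Finset.prod_pos fun i _ => by exact_mod_cast qFact_pos _ _
  have hB : (0 : ℝ) < (qFact q n : ℝ) * ∏ i : Fin n, ∏ j ∈ Finset.Ioi i,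
      (((∑ l ∈ Finset.range (ν j + j.val), q ^ l : ℕ) : ℝ) -
        ((∑ l ∈ Finset.range (ν i + i.val), q ^ l : ℕ) : ℝ)) := by
    apply mul_pos (by exact_mod_cast qFact_pos _ _)
    refine Finset.prod_pos fun i _ => Finset.prod_pos fun j hj => ?_
    rw [sub_pos, Nat.cast_lt]
    have hlt := strictMono_add_val hmono (Finset.mem_Ioi.mp hj)
    apply Finset.sum_lt_sum_of_subset (Finset.range_subset_range.mpr hlt.le)
      (i := ν i + i.val) (Finset.mem_range.mpr hlt) (by simp) (by positivity)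
    intro _ _ _
    positivity
  rw [mul_assoc] at h
  have h' := congrArg Complex.re h
  have e1 : (q : ℂ) ^ (n * (n - 1) * (n - 2) / 6) * ∏ i : Fin n, (qFact q (ν i + i.val) : ℂ) =
      (((q : ℝ) ^ (n * (n - 1) * (n - 2) / 6) *
      ∏ i : Fin n, (qFact q (ν i + i.val) : ℝ) : ℝ) : ℂ) := by push_cast; rfl
  have e2 : (qFact q n : ℂ) * ∏ i : Fin n, ∏ j ∈ Finset.Ioi i,
      (((∑ l ∈ Finset.range (ν j + j.val), q ^ l : ℕ) : ℂ) -
        ((∑ l ∈ Finset.range (ν i + i.val), q ^ l : ℕ) : ℂ)) =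
      (((qFact q n : ℝ) * ∏ i : Fin n, ∏ j ∈ Finset.Ioi i,
      (((∑ l ∈ Finset.range (ν j + j.val), q ^ l : ℕ) : ℝ) -
        ((∑ l ∈ Finset.range (ν i + i.val), q ^ l : ℕ) : ℝ)) : ℝ) : ℂ) := by push_cast; rfl
  rw [e1, e2, Complex.re_mul_ofReal, Complex.ofReal_re] at h'
  rw [← h'] at hB
  exact (mul_pos_iff_of_pos_right hA).mp hB

theorem unipotent_isIrr {F : Type*} [Field F] [Fintype F] {n : ℕ} (ν : Fin n → ℕ)
    (hmono : Monotone ν) (hsum : ∑ i, ν i = n) :
    Cfsg.IsIrrCharacter (GL (Fin n) F) (Cfsg.unipotentCharacterGL n F ν) := by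
  have : Fintype (GL (Fin n) F) := Fintype.ofFinite _
  refine isIrr_of_int_comb (unipotent_mem_span ν) ?_ (unipotent_degree_pos ν hmono hsum)
  rw [unipotent_inner ν ν hmono hsum hmono hsum, if_pos rfl]

end Cfsg.Agent.H66
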